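import Cfsg.Agent.H9.UDecD
import Cfsg.Agent.H7.GenSU

/-!
Stabilisers of orthogonal decompositions of unitary spaces are maximal in `SU_n(q)`, `n ≥ 6`.
-/

set_option autoImplicit false
set_option linter.unusedSectionVars false

namespace Cfsg.Agent.H9.UDec

open Module H7 H7.Polar H8

section abstract

variable {F : Type*} [Field F] {V : Type*} [AddCommGroup V] [Module F V] {P : Polar F V}
variable [Finite F] [FiniteDimensional F V]
variable {κ : Type} [Fintype κ] [DecidableEq κ]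

section small

variable (hb : ¬ Big P)
include hb

theorem fix_of_small {t : F} (ht : P.σ t = t) : t = 0 ∨ t = 1 := by
  by_contra! h; exact hb ⟨t, ht, h⟩

theorem two_of_small : (2 : F) = 0 :=
  (fix_of_small hb (map_ofNat _ 2)).resolve_right fun h => one_ne_zero (α := F) (by
    linear_combination h)

theorem nm_of_small {x : F} (hx : x ≠ 0) : nm P x = 1 :=
  (fix_of_small hb (σ_nm x)).resolve_left (by simpa)

theorem Un.exists_omega (h : Un P) : ∃ ω, nm P ω = 1 ∧ ω ≠ 1 ∧ P.σ ω ≠ ω ∧ ω + P.σ ω = 1 := by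
  obtain ⟨ω, h1, h2⟩ := h.exists_mu_ne
  have h3 : P.σ ω ≠ ω := fun h => (fix_of_small hb h).elim (ne_zero_of_nm h1) h2
  exact ⟨ω, h1, h2, h3, (fix_of_small hb (by simp [add_comm])).resolve_left fun h => h3 (by
    linear_combination h - ω * two_of_small hb)⟩

theorem ON.card_supp {e : κ → V} (h : ON P e) (v : V) : ((supp P e v).card : F) = P.B v v := by
  classical
  rw [h.B_sum, supp, Finset.card_filter, Nat.cast_sum]
  refine Finset.sum_congr rfl fun i _ => ?_
  split_ifs with hi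
  · exact_mod_cast (nm_of_small hb hi).symm
  · simp [not_not.1 hi]

end small

namespace Ctx

variable {e : κ → V} {X : Subgroup (V ≃ₗ[F] V)} (h : Ctx P e X) (hb : ¬ Big P)
include h hb

theorem T2_small (i j : κ) (hij : i ≠ j) : T2 P e X i j := fun x y hxy => by
  have h2 := two_of_small hb
  refine ⟨h.un.sing.2 (by simpa [h.B, hij, hij.symm, nm, mul_comm] using hxy), fun c hc => ?_⟩
  by_cases hx : x = 0
  · obtain rfl : y = 0 := by simpa [hx] using hxy
    exact Has.id.congr fun _ => by simp [hx, eich]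
  have hy : y ≠ 0 := by rintro rfl; simp [hx] at hxy
  rcases fix_of_small hb (t := c) (by rw [h.un.lam.1 hc]; linear_combination -c * h2) with rfl | rfl
  · exact EI.zero _
  · obtain ⟨t, h1, h3⟩ := h.exists_tv h2 ⟨i, j, hij, x, y, nm_of_small hb hx, nm_of_small hb hy, rfl⟩
    exact ⟨t, h1.2, fun z => by rw [h3, eich_tv, map_one, one_mul]⟩

theorem E_le_of_zero {v : V} (hv : TX P X v) {m : κ} (hm : P.B v (e m) = 0)
    (h3 : 3 ≤ (supp P e v).card) : P.E ≤ X := by
  have h2 := two_of_small hb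
  have h4 : 3 < (supp P e v).card := lt_of_le_of_ne h3 fun h4 => by
    have := h.card_supp hb v
    rw [← h4, sing_B hv.1] at this
    exact one_ne_zero (α := F) (by push_cast at this; linear_combination this - h2)
  obtain ⟨f, hf⟩ : ∃ f : Fin 4 ↪ κ, ∀ a, P.B v (e (f a)) ≠ 0 := by
    obtain ⟨f⟩ := Function.Embedding.nonempty_of_card_le (α := Fin 4) (β := supp P e v)
      (by simp only [Fintype.card_fin, Fintype.card_coe]; omega)
    exact ⟨f.trans (Function.Embedding.subtype _), fun a => mem_supp.1 (f a).2⟩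
  have hfm : ∀ a, f a ≠ m := fun a h => hf a (h ▸ hm)
  have hf' : ∀ {a b : Fin 4}, a ≠ b → f a ≠ f b := fun hab => f.injective.ne hab
  obtain ⟨ω, k1, k2, k3, k4⟩ := h.un.exists_omega hb
  have k5 : ω - 1 ≠ 0 := sub_ne_zero.2 k2
  have k6 : P.σ ω - 1 ≠ 0 := by simpa using P.σ_eq_zero.not.2 k5
  have k7 := fun a => nm_of_small hb (hf a)
  have h5 := h.tx_diag (h.tx_diag (h.tx_diag hv (hfm 0) k1) (hfm 1) k1)
    (hf' (by decide : (2 : Fin 4) ≠ 3)) k1
  refine h.E_le_of_four (h.T2_small hb) (i := f 0) (j := f 1) (k := f 2) (l := f 3)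
    (hf' (by decide)) (hf' (by decide)) (hf' (by decide)) (hf' (by decide)) (hf' (by decide))
    (hf' (by decide)) (a := (ω - 1) * P.B v (e (f 0))) (b := (ω - 1) * P.B v (e (f 1)))
    (c := (ω - 1) * P.B v (e (f 2))) (d := (P.σ ω - 1) * P.B v (e (f 3))) (by simp [k5, hf])
    (by simp [k5, hf]) (by simp [k7, nm_of_small hb k5, one_add_one_eq_two, h2])
    (by simp [k7, nm_of_small hb k5, nm_of_small hb k6, one_add_one_eq_two, h2])
    (hv.sub_of_sing (by
      convert h5 using 1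
      simp [h.B, hm, hfm, fun a => (hfm a).symm]
      module) (h.un.sing.2 ?_) fun h6 => one_ne_zero (α := F) ?_)
  · have k8 := nm_of_small hb k5
    have k9 := nm_of_small hb k6
    simp only [nm, map_sub, map_one, σσ] at k7 k8 k9
    simp [h.B]
    linear_combination (ω - 1) * (P.σ ω - 1) * (k7 0 + k7 1 + k7 2 + k7 3) + 4 * k8 + 2 * h2
  · simp only [nm] at k7
    simp at h6
    linear_combination h6 - (P.σ ω - 1) * (k7 0 + k7 1 + k7 2) - (ω - 1) * k7 3 - k4 +
      (2 - P.σ ω) * h2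

theorem E_le_of_three (h7 : 7 ≤ Fintype.card κ) {v : V} (hv : TX P X v)
    (h3 : 3 ≤ (supp P e v).card) : P.E ≤ X := by
  by_cases hm : ∃ m, P.B v (e m) = 0
  · exact h.E_le_of_zero hb hv hm.choose_spec h3
  push Not at hm
  have h2 := two_of_small hb
  obtain ⟨f⟩ := Function.Embedding.nonempty_of_card_le (α := Fin 7) (β := κ) (by simpa)
  have hf' : ∀ {a b : Fin 7}, a ≠ b → f a ≠ f b := fun hab => f.injective.ne hab
  obtain ⟨ω, k1, k2, k3, k4⟩ := h.un.exists_omega hb
  have k5 : ω - 1 ≠ 0 := sub_ne_zero.2 k2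
  have k7 := fun a => nm_of_small hb (hm a)
  have h5 := h.tx_diag (h.tx_diag (h.tx_diag hv (hf' (by decide : (0 : Fin 7) ≠ 3)) k1)
    (hf' (by decide : (1 : Fin 7) ≠ 4)) k1) (hf' (by decide : (2 : Fin 7) ≠ 5)) k1
  have h6 : TX P X ((ω - 1) • (P.B v (e (f 0)) • e (f 0) + P.B v (e (f 1)) • e (f 1) +
      P.B v (e (f 2)) • e (f 2)) + (P.σ ω - 1) • (P.B v (e (f 3)) • e (f 3) +
      P.B v (e (f 4)) • e (f 4) + P.B v (e (f 5)) • e (f 5))) := by
    refine hv.sub_of_sing (by
      convert h5 using 1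
      simp [h.B]
      module) (h.un.sing.2 ?_) fun h6 => one_ne_zero (α := F) ?_
    · have k8 := nm_of_small hb k5
      simp only [nm, map_sub, map_one] at k7 k8
      simp [h.B]
      linear_combination (ω - 1) * (P.σ ω - 1) * (k7 (f 0) + k7 (f 1) + k7 (f 2) + k7 (f 3) +
        k7 (f 4) + k7 (f 5)) + 6 * k8 + 3 * h2
    · simp only [nm] at k7
      simp at h6
      linear_combination h6 - (P.σ ω - 1) * (k7 (f 0) + k7 (f 1) + k7 (f 2)) -
        (ω - 1) * (k7 (f 3) + k7 (f 4) + k7 (f 5)) - 3 * k4 + 2 * h2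
  refine h.E_le_of_zero hb h6 (m := f 6) (by simp [h.B]) (Finset.two_lt_card_iff.2
    ⟨f 0, f 1, f 2, ?_, ?_, ?_, hf' (by decide), hf' (by decide), hf' (by decide)⟩) <;>
  simp [h.B, k5, hm]

theorem E_le_small (h7 : 7 ≤ Fintype.card κ) {g : V ≃ₗ[F] V} (hg : g ∈ X)
    (hg' : g ∉ decStab (L F e)) : P.E ≤ X := by
  obtain ⟨i, hi⟩ : ∃ i, ∀ j, g (e i) ∉ L F e j := by simpa [h.mem_mon] using hg'
  have h' := h.map hg
  have h2 := two_of_small hb
  have h3 : 2 < (supp P e (g (e i))).card := lt_of_le_of_ne (h.two_le_supp hi i) fun h4 => by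
    have := h.card_supp hb (g (e i))
    rw [← h4, h'.one] at this
    exact one_ne_zero (α := F) (by push_cast at this; linear_combination h2 - this)
  obtain ⟨S, hS, h4⟩ := Finset.exists_subset_card_eq h3
  obtain ⟨m, hm⟩ := exists_notMem_of_card_lt (s := S) (by omega)
  obtain ⟨j, hj, h5⟩ : ∃ j, j ≠ i ∧ (P.B (g (e i)) (e m) = 0 → P.B (g (e j)) (e m) ≠ 0) := by
    by_cases h5 : P.B (g (e i)) (e m) = 0
    · by_contra! H
      refine h.ne_zero m (h'.span _ fun j => P.B_symm ?_)
      by_cases hj : j = i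
      · exact hj ▸ h5
      · exact (H j hj).2
    · obtain ⟨j, hj⟩ := exists_notMem_of_card_lt (s := {i}) (by simp; omega)
      exact ⟨j, by simpa using hj, fun h => absurd h h5⟩
  by_contra H
  have key : ∀ a, nm P a = 1 → 2 ≤ (insert m S \ supp P e (g (e i) + a • g (e j))).card :=
    fun a ha => by
      have h6 := mt (h.E_le_of_three hb h7 (by
        simpa using h'.T2_small hb i j hj.symm 1 a (by simp [ha, one_add_one_eq_two, h2]))) H
      have := Finset.le_card_sdiff (supp P e (g (e i) + a • g (e j))) (insert m S)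
      rw [Finset.card_insert_of_notMem hm] at this
      omega
  have dis : ∀ a b : F, a ≠ b → Disjoint (insert m S \ supp P e (g (e i) + a • g (e j)))
      (insert m S \ supp P e (g (e i) + b • g (e j))) := fun a b hab => by
    refine Finset.disjoint_left.2 fun p h6 h8 => ?_
    simp only [Finset.mem_sdiff, mem_supp, not_not, map_add, map_smul, LinearMap.add_apply,
      LinearMap.smul_apply, smul_eq_mul, Finset.mem_insert] at h6 h8
    have k1 : P.B (g (e j)) (e p) = 0 := mul_left_cancel₀ (sub_ne_zero.2 hab) (by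
      linear_combination h6.2 - h8.2)
    have k2 : P.B (g (e i)) (e p) = 0 := by simpa [k1] using h6.2
    rcases h6.1 with rfl | h9
    · exact h5 k2 k1
    · exact mem_supp.1 (hS h9) k2
  obtain ⟨ω, k1, k2, k3, -⟩ := h.un.exists_omega hb
  have k4 := Finset.card_le_card (Finset.union_subset (Finset.union_subset
    (Finset.sdiff_subset (s := insert m S) (t := supp P e (g (e i) + (1 : F) • g (e j))))
    (Finset.sdiff_subset (t := supp P e (g (e i) + ω • g (e j)))))
    (Finset.sdiff_subset (t := supp P e (g (e i) + P.σ ω • g (e j)))))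
  rw [Finset.card_union_of_disjoint (Finset.disjoint_union_left.2 ⟨dis _ _ (fun h => k2 (by
    simpa using congrArg P.σ h.symm)), dis _ _ k3.symm⟩),
    Finset.card_union_of_disjoint (dis _ _ k2.symm), Finset.card_insert_of_notMem hm] at k4
  have := key 1 nm_one
  have := key ω k1
  have := key (P.σ ω) (by simpa)
  omega

omit hb in
theorem E_le (hex : Big P ∨ 7 ≤ Fintype.card κ) {g : V ≃ₗ[F] V} (hg : g ∈ X)
    (hg' : g ∉ decStab (L F e)) : P.E ≤ X := by
  by_cases hb : Big P
  swap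
  · exact h.E_le_small hb (hex.resolve_left hb) hg hg'
  by_contra H
  have h' : Fr P e X := ⟨h, hb, fun g hg i j h1 => by
    by_contra h2; exact H (h.E_le_of_fix hb hg h2 h1)⟩
  by_cases h2 : (2 : F) = 0
  · exact hg' (h'.le_of_even h2 hg)
  · exact hg' (h'.le_of_odd h2 hg)

end Ctx

theorem Un.exists_unit (h : Un P) {W : Submodule F V} (hW : W ⊓ P.perp W = ⊥) (h0 : W ≠ ⊥) :
    ∃ d ∈ W, P.B d d = 1 := by
  by_contra! h'
  obtain ⟨x, hx, hx0⟩ := (Submodule.ne_bot_iff _).1 h0
  refine notMem_perp_of_nd hW hx hx0 fun y hy => B_eq_zero_of_forall_isotropic h.σ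
    (fun z hz => ?_) hx hy
  by_contra h1
  obtain ⟨y, hy, hy'⟩ := exists_unit_vector h.σ h.ε hz h1
  exact h' y hy hy'

theorem Un.univ (h : Un P) {W : Submodule F V} {d : V} (hd : d ∈ W) (h1 : P.B d d = 1) :
    Univ P W := fun c => by
  obtain ⟨a, ha⟩ := h.exists_nm (t := c + P.σ c) (by simp [add_comm])
  exact Or.inr ⟨a • d, W.smul_mem _ hd,
    (val_iff_of_unitary h.σ h.ε).2 (by simp [h1, ← ha, nm, mul_comm])⟩

theorem E_le_three (h : Un P) {D : κ → Submodule F V} (hD : PDec P 3 D) (hn : 6 ≤ finrank F V)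
    {X : Subgroup (V ≃ₗ[F] V)} (hH : decStab D ⊓ P.E ≤ X) (hX : X ≤ P.Iso) {v : V}
    (hv : TX P X v) (hv' : ∀ j, v ∉ D j) [Nonempty κ] : P.E ≤ X := by
  have hw := wild_two_of_unitary h.σ h.ε
  have hU : ∀ j, Univ P (D j) := fun j => by
    obtain ⟨d, h1, h2⟩ := h.exists_unit (hD.nd j) (hD.ne_bot j)
    exact h.univ h1 h2
  obtain ⟨c, hc0, hc⟩ := exists_lam_ne_of_unitary h.σ h.ε
  obtain ⟨i, -, -, hi, -⟩ := hD.exists_two hv'
  have hd : 2 ≤ finrank F ↥(D i ⊓ P.pp v) := by
    have := finrank_inf_pp_ge (P := P) (D i) v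
    have := hD.dim i
    omega
  have hxm := hD.pr_mem i v
  by_cases hx : P.B (hD.pr i v) (hD.pr i v) = 0
  swap
  · obtain ⟨u, hu, hu0, hus⟩ := hw _ hd
    refine hD.E_le_of_TX_perp hH hX hw hn hU hc0 hc hv (hv' i) hi hu.1 hus hu.2 fun h1 => ?_
    obtain ⟨a, rfl⟩ := Submodule.mem_span_singleton.1 h1
    have := sing_B hus
    simp [hx] at this
    simp [this] at hu0
  set x := hD.pr i v with hx'
  have hxs := h.sing.2 hx
  have hxv : P.B x v = 0 := by rw [← hD.B_pr_right hxm, hx]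
  obtain ⟨d, hd1, hd2⟩ : ∃ d ∈ D i ⊓ P.pp v, P.B d d = 1 := by
    by_contra! H
    have h1 : D i ⊓ P.pp v ≤ F ∙ x := fun y hy => mem_of_perp_inf (hD.nd i)
      ((Submodule.span_singleton_le_iff_mem _ _).2 hxm) hy.1 fun z hz =>
        B_eq_zero_of_forall_isotropic h.σ (U := D i ⊓ P.pp v) (fun w hw => by
          by_contra h1
          obtain ⟨y, hy, hy'⟩ := exists_unit_vector h.σ h.ε hw h1
          exact H y hy hy') ⟨hz.1, by
            rw [perp_span_singleton] at hz
            exact (hD.B_pr_right hz.1 v).symm.trans hz.2⟩ hy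
    have := Submodule.finrank_mono h1
    have := finrank_span_singleton_le (F := F) x
    omega
  have key : ∀ a : F, a ≠ 0 → TX P X (a • x + (v - x)) := fun a ha => by
    obtain ⟨g, hg, h1⟩ := exists_FixIso_apply (hD.nd i) hxm ((D i).smul_mem a hxm) hi
      (smul_ne_zero ha hi) hxs (sing_smul hxs a)
    obtain ⟨f, hf, h2⟩ := hD.exists_comp hw hn (h.univ (Submodule.mem_span_singleton_self d) hd2)
      ((Submodule.span_singleton_le_iff_mem _ _).2 hd1.1) hg.1 (hD.FixIso_le i hg)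
    have := hv.conj (hH h2) (E_le_Iso h2.2)
    rw [LinearEquiv.mul_apply, hf.2 v (by rw [perp_span_singleton]; exact P.B_symm hd1.2),
      ← add_sub_cancel x v, map_add, h1, hg.2 _ (hD.mem_perp_iff.2 (by simp [hx']))] at this
    exact this
  have hσ : P.σ c ≠ 0 := by simpa using hc0
  have key' : ∀ a : F, a ≠ P.σ c → P.EI X x (a • v) 0 := fun a ha' => by
    by_cases ha : a = 0
    · simpa [ha] using EI.zero x
    refine ((hD.TX_of_mem hH hxm hxs).EI (TX_smul hv (-a / P.σ c)) (by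
      convert TX_smul (key (1 + (-a / P.σ c)⁻¹) fun h1 => ha' (by
        field_simp at h1; linear_combination h1)) (-a / P.σ c) using 1
      match_scalars <;> field_simp <;> ring) (by simp [hxv]) hc).congr ?_ rfl
    rw [smul_smul]
    congr 1
    field_simp
  refine hD.E_le_of_eSub_lam hH hX hw hn hU hc0 hc hxm hxs hi (w := v)
    ⟨P.B_symm hxv, fun a => ⟨0, sing_smul hv.1 a, ?_⟩⟩ (hv' i)
  by_cases ha : a = P.σ c
  swap
  · exact key' a ha
  obtain ⟨y, hy⟩ := h.σ
  exact ((key' (y * a) (by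
      rw [ha, ne_eq, mul_eq_right₀ hσ]; rintro rfl; simp at hy)).add (key' ((1 - y) * a) (by
      rw [ha, ne_eq, mul_eq_right₀ hσ, sub_eq_self]; rintro rfl; simp at hy)) hxs
    (by simp [P.B_symm hxv]) (by simp [P.B_symm hxv])).congr (by module) (by simp [sing_B hv.1])

/-- Stabilisers of orthogonal decompositions of unitary spaces. -/
theorem maximal_un (h : Un P) {k : ℕ} {D : κ → Submodule F V} (hD : PDec P k D)
    (hn : 6 ≤ finrank F V) (ht : 2 ≤ Fintype.card κ)
    (hex : Big P ∨ (k ≠ 2 ∧ (k = 1 → 7 ≤ finrank F V))) :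
    Geo.IsMaximalIn P.E (decStab D ⊓ P.E) := by
  have hw := wild_two_of_unitary h.σ h.ε
  have : Nonempty κ := Fintype.card_pos_iff.1 (by omega)
  have hm := hD.mul_eq
  choose e he he' using fun j => h.exists_unit (hD.nd j) (hD.ne_bot j)
  have hU := fun j => h.univ (he j) (he' j)
  obtain ⟨c, hc0, hc⟩ := exists_lam_ne_of_unitary h.σ h.ε
  refine hD.maximal_of hw hn (by omega) ht fun X hH hX g hg hg' => ?_
  by_cases hk : k = 1
  · subst hk
    have h1 : D = L F e := funext fun i => hD.eq_span (he i) (by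
      intro h0; simpa [h0] using he' i)
    subst h1
    refine Ctx.E_le ⟨⟨h, he', fun hij => hD.orth hij (he _) (he _), fun x hx => hD.eq_zero fun i =>
      hD.mem_perp_iff.1 (by rw [perp_span_singleton]; exact hx i)⟩, by omega, hH, hX⟩
      (hex.imp_right fun h => by have := h.2 rfl; omega) hg hg'
  replace hX := hX.trans E_le_Iso
  have hs : ∀ i, ∃ u ∈ D i, P.Val u 0 ∧ u ≠ 0 := fun i => by
    obtain ⟨u, h1, h2, h3⟩ := hw (D i) (by have := hD.pos; rw [hD.dim]; omega)
    exact ⟨u, h1, h3, h2⟩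
  obtain ⟨v, hv, hv'⟩ := hD.exists_TX_out hH hX hs hg hg'
  by_cases hk4 : 4 ≤ k
  · exact hD.E_le_of_TX_big hH hX hw hn hU hc0 hc hk4 hv hv'
  by_cases hk3 : k = 3
  · subst hk3
    exact E_le_three h hD hn hH hX hv hv'
  obtain rfl : k = 2 := by have := hD.pos; omega
  obtain ⟨t, ht, ht0, ht1⟩ := hex.resolve_right (by simp)
  obtain ⟨i, j, hij, hi, hj⟩ := hD.exists_two hv'
  obtain ⟨l, hl⟩ := exists_notMem_of_card_lt (s := {i, j}) (Finset.card_le_two.trans_lt (by omega))
  simp only [Finset.mem_insert, Finset.mem_singleton, not_or] at hl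
  exact hD.E_le_of_TX_lam hH hX hw hn hU hc0 hc hs (c' := t * c) (mul_ne_zero ht0 hc0)
    (h.lam.2 (by simp [ht, h.lam.1 hc])) (fun h => ht1 ((mul_eq_right₀ hc0).1 h.symm)) hv hij hi hj
    (hU l) le_rfl (hD.le_perp (Ne.symm hl.1)) (hD.le_perp (Ne.symm hl.2))

end abstract

/-- Matrix form: stabilisers of non-degenerate decompositions are maximal in `SU_n(q)`, `n ≥ 6`,
unless `q = 2` and `k = 2` or `(k, n) = (1, 6)`. -/
theorem su_decomp_maximal {F : Type*} [Field F] [Fintype F] {n q : ℕ} (hF : Fintype.card F = q ^ 2)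
    (hn : 6 ≤ n) {t k : ℕ} {D : Fin t → Submodule F (Fin n → F)}
    (hD : Geo.IsNondegenerateMDecomposition (hermForm n F q) k D)
    (hex : q = 2 → k ≠ 2 ∧ (k = 1 → 7 ≤ n)) :
    Geo.IsMaximalIn (GU n F q ⊓ Geo.specialLinear (Fin n) F)
      (Geo.decompositionStabilizer D ⊓ (GU n F q ⊓ Geo.specialLinear (Fin n) F)) := by
  have hσ := GenSU.σ_ne (n := n) hF
  refine isMaximalIn_of_equiv toLE (mem_SU_iff hF hn) (fun g => ?_)
    (maximal_un (P := uStd hF n) ⟨hσ, rfl⟩ (pDec_of_geo (Or.inr ⟨hσ, rfl⟩) (fun _ _ => rfl) hD)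
      (by simpa) (by simpa using hD.decomp.two_le) (or_iff_not_imp_left.2 fun hb => ?_))
  · rw [Subgroup.mem_inf, mem_SU_iff hF hn, mem_decompositionStabilizer_iff, Subgroup.mem_inf]
  · have hq := one_lt_q hF
    have h1 := Asch.card_fixed_pow (L := F) q hq (by
      rw [Nat.card_eq_fintype_card, hF]; simpa using Nat.sub_one_dvd_pow_sub_one q 2)
    have h2 : Nat.card {x : F // x ^ q = x} ≤ 2 := by
      rw [← Set.ncard_pair (zero_ne_one (α := F))]
      exact Set.ncard_le_ncard (s := {x : F | x ^ q = x}) fun x hx => fix_of_small hb hx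
    simpa using hex (by omega)

end Cfsg.Agent.H9.UDec
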