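import Cfsg.Agent.Asch.Final
import Cfsg.Agent.H8.OTensor

/-! Symplectic transvections; the symplectic group lies in no geometric subgroup (dimension at least four). -/

set_option autoImplicit false
set_option linter.unusedSectionVars false

namespace Cfsg.Agent.H9.SpT

open Module Cfsg Cfsg.Geo Cfsg.Agent.H7 Cfsg.Agent.Asch
open scoped MatrixGroups Matrix Kronecker

variable {ι : Type} [Fintype ι] [DecidableEq ι] {F : Type*} [Field F] {f : (ι → F) → (ι → F) → F}

section bil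
variable (hf : IsBilinearForm f)
include hf

theorem b_zero_left (v : ι → F) : f 0 v = 0 := (sesq_of_bilinear hf).zero_left v
theorem b_zero_right (v : ι → F) : f v 0 = 0 := (sesq_of_bilinear hf).zero_right v
theorem b_sub_left (x y v : ι → F) : f (x - y) v = f x v - f y v := (sesq_of_bilinear hf).sub_left x y v
theorem b_sub_right (v x y : ι → F) : f v (x - y) = f v x - f v y := (sesq_of_bilinear hf).sub_right v x y
theorem b_neg_left (x v : ι → F) : f (-x) v = - f x v := by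
  rw [← neg_one_smul F x, hf.smul_left, neg_one_mul]
theorem b_neg_right (x v : ι → F) : f v (-x) = - f v x := by
  rw [← neg_one_smul F x, hf.smul_right, neg_one_mul]

end bil

/-- the transvection `x ↦ x + c f(x, v) v` -/
def tvL (hf : IsSymplecticForm f) (v : ι → F) (c : F) : (ι → F) ≃ₗ[F] (ι → F) where
  toFun x := x + (c * f x v) • v
  invFun x := x - (c * f x v) • v
  map_add' x y := by rw [hf.bilinear.add_left, mul_add, add_smul]; abel
  map_smul' a x := by rw [hf.bilinear.smul_left, RingHom.id_apply, smul_add, smul_smul]; congr 2; ring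
  left_inv x := by
    simp only [hf.bilinear.add_left, hf.bilinear.smul_left, hf.alternating, mul_zero, add_zero, add_sub_cancel_right]
  right_inv x := by
    simp only [b_sub_left hf.bilinear, hf.bilinear.smul_left, hf.alternating, mul_zero, sub_zero, sub_add_cancel]

/-- the transvection as an invertible matrix -/
noncomputable def tv (hf : IsSymplecticForm f) (v : ι → F) (c : F) : GL ι F := toLE.symm (tvL hf v c)

variable (hf : IsSymplecticForm f)

theorem tv_mulVec (v : ι → F) (c : F) (x : ι → F) :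
    (tv hf v c : Matrix ι ι F) *ᵥ x = x + (c * f x v) • v := H8.toLE_symm_mulVec _ _

theorem tv_isom (v : ι → F) (c : F) (x y : ι → F) :
    f ((tv hf v c : Matrix ι ι F) *ᵥ x) ((tv hf v c : Matrix ι ι F) *ᵥ y) = f x y := by
  simp only [tv_mulVec, hf.bilinear.add_left, hf.bilinear.add_right, hf.bilinear.smul_left, hf.bilinear.smul_right,
    hf.alternating, hf.skew v y]
  ring

theorem tv_inv (v : ι → F) (c : F) : (tv hf v c)⁻¹ = tv hf v (-c) := by
  rw [inv_eq_iff_mul_eq_one]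
  refine Units.ext (Matrix.ext_iff_mulVec.2 fun x => ?_)
  simp only [Units.val_mul, ← Matrix.mulVec_mulVec, tv_mulVec, hf.bilinear.add_left, hf.bilinear.smul_left,
    hf.alternating, Units.val_one, Matrix.one_mulVec]
  module

theorem tv_mem_spGL {m : ℕ} (v : Fin m ⊕ Fin m → F) (c : F) :
    tv (isSymplecticForm_sympForm m F) v c ∈ spGL m F := fun x y => tv_isom _ v c x y

include hf in
theorem exists_ne_zero_perp {W : Submodule F (ι → F)} (hW : 2 ≤ finrank F W) (v : ι → F) :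
    ∃ x ∈ W, x ≠ 0 ∧ f x v = 0 := by
  have := finrank_inf_ker_ge W ((bilinOf hf.bilinear).flip v)
  obtain ⟨x, hx, hx0⟩ := Submodule.exists_mem_ne_zero_of_ne_bot
    (Submodule.one_le_finrank_iff.1 (show 1 ≤ finrank F ↥(W ⊓ LinearMap.ker ((bilinOf hf.bilinear).flip v)) by omega))
  exact ⟨x, hx.1, hx0, hx.2⟩

theorem exists_ne_zero_two {W : Submodule F (ι → F)} (hW : 3 ≤ finrank F W) (φ ψ : Dual F (ι → F)) :
    ∃ x ∈ W, x ≠ 0 ∧ φ x = 0 ∧ ψ x = 0 := by
  have h1 := finrank_inf_ker_ge W φ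
  have h2 := finrank_inf_ker_ge (W ⊓ LinearMap.ker φ) ψ
  obtain ⟨x, hx, hx0⟩ := Submodule.exists_mem_ne_zero_of_ne_bot
    (Submodule.one_le_finrank_iff.1 (show 1 ≤ finrank F ↥(W ⊓ LinearMap.ker φ ⊓ LinearMap.ker ψ) by omega))
  exact ⟨x, hx.1.1, hx0, hx.1.2, hx.2⟩

theorem exists_tv_notMem {W : Submodule F (ι → F)} (h0 : W ≠ ⊥) (h1 : W ≠ ⊤) :
    ∃ v, ∃ w ∈ W, (tv hf v 1 : Matrix ι ι F) *ᵥ w ∉ W := by
  obtain ⟨w, hw, hw0⟩ := Submodule.exists_mem_ne_zero_of_ne_bot h0
  obtain ⟨x, hx⟩ := (hf.nondegenerate w hw0).2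
  obtain ⟨y, -, hy⟩ := SetLike.exists_of_lt (lt_top_iff_ne_top.2 h1)
  obtain ⟨v, -, hv1, hv2⟩ := exists_notMem_two (U := W) (U' := LinearMap.ker (bilinOf hf.bilinear w)) ⊤
    Submodule.mem_top Submodule.mem_top hy hx
  refine ⟨v, w, hw, fun h => hv1 ?_⟩
  rw [tv_mulVec, W.add_mem_iff_right hw, one_mul] at h
  exact (W.smul_mem_iff hv2).1 h

theorem eigen_of_comm {z : Matrix ι ι F} {v : ι → F} (h : z * tv hf v 1 = tv hf v 1 * z) : z *ᵥ v ∈ F ∙ v := by
  by_cases hv : v = 0
  · simp [hv]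
  obtain ⟨x, hx⟩ := (hf.nondegenerate v hv).1
  have := congrArg (· *ᵥ x) h
  simp only [← Matrix.mulVec_mulVec, tv_mulVec, Matrix.mulVec_add, Matrix.mulVec_smul, one_mul, add_right_inj] at this
  rw [← (F ∙ v).smul_mem_iff hx, this]
  exact Submodule.smul_mem _ _ (Submodule.mem_span_singleton_self v)

/-- `G` contains all transvections -/
def HasT (G : Subgroup (GL ι F)) : Prop := ∀ v c, tv hf v c ∈ G

theorem hasT_spGL (m : ℕ) : HasT (isSymplecticForm_sympForm m F) (spGL m F) := tv_mem_spGL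

variable {hf} {G : Subgroup (GL ι F)}

theorem HasT.not_le_subspaceStabilizer (h : HasT hf G) {W : Submodule F (ι → F)} (h0 : W ≠ ⊥) (h1 : W ≠ ⊤) :
    ¬ G ≤ subspaceStabilizer W := fun hle => by
  obtain ⟨v, w, hw, hw'⟩ := exists_tv_notMem hf h0 h1
  exact hw' ((mem_subspaceStabilizer.1 (hle (h v 1)) w).1 hw)

theorem HasT.not_le_decompositionStabilizer (h : HasT hf G) {t k : ℕ} {D : Fin t → Submodule F (ι → F)}
    (hD : IsMDecomposition k D) (hk : 2 ≤ k) : ¬ G ≤ decompositionStabilizer D := fun hle => by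
  have ht := hD.two_le
  let i : Fin t := ⟨0, by omega⟩
  have h1 : D i ≠ ⊤ := fun h1 => by
    have h2 := hD.finrank_eq i
    have h3 := H8.IsMDecomposition.mul_eq hD
    rw [h1, finrank_top, finrank_fintype_fun_eq_card, ← h3] at h2
    nlinarith
  obtain ⟨v, w, hw, hw'⟩ := exists_tv_notMem hf (H8.IsMDecomposition.ne_bot hD i) h1
  obtain ⟨σ, hσ⟩ := hle (h v 1)
  obtain ⟨x, hx, hx0, hxv⟩ := exists_ne_zero_perp hf (W := D i) (by rw [hD.finrank_eq]; exact hk) v
  have h2 : x ∈ D (σ i) := by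
    rw [← hσ]
    exact ⟨x, hx, by rw [Matrix.toLin'_apply, tv_mulVec, hxv]; simp⟩
  rw [H8.eq_of_mem_of_mem hD.indep hx h2 hx0, ← hσ] at hw'
  exact hw' ⟨w, hw, rfl⟩

theorem HasT.not_le_subalgebraNormalizer (h : HasT hf G) (hn : 3 ≤ Fintype.card ι) {r : ℕ} (hr : 2 ≤ r)
    {K : Subalgebra F (Matrix ι ι F)} (hK : IsFieldSubalgebra r K) : ¬ G ≤ subalgebraNormalizer K := fun hle => by
  haveI : Nonempty ι := Fintype.card_pos_iff.1 (by omega)
  have key : ∀ z ∈ K, ∃ c : F, z = c • 1 := fun z hz => by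
    by_contra hs
    obtain ⟨v, hv⟩ := H8.exists_not_eigen hs
    refine hv (eigen_of_comm hf ?_)
    have hz' : cj (tv hf v 1) z ∈ K := (hle (h v 1) z).1 hz
    by_contra hne
    obtain ⟨y, -, hy⟩ := hK.inv _ (K.sub_mem hz' hz) (fun h0 => hne (by
      rw [sub_eq_zero, cj_eq_self_iff] at h0; exact h0.symm))
    have hy' : y * (cj (tv hf v 1) z - z) = 1 := mul_eq_one_comm.1 hy
    obtain ⟨x, -, hx0, h1, h2⟩ := exists_ne_zero_two (W := ⊤) (by simpa using hn) ((bilinOf hf.bilinear).flip v)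
      ((bilinOf hf.bilinear).flip v ∘ₗ Matrix.toLin' z)
    change f x v = 0 at h1
    change f (z *ᵥ x) v = 0 at h2
    have h3 : (tv hf v 1 : Matrix ι ι F) *ᵥ x = x := by rw [tv_mulVec, h1]; simp
    have h4 : (cj (tv hf v 1) z - z) *ᵥ x = 0 := by
      rw [Matrix.sub_mulVec, sub_eq_zero]
      conv_lhs => rw [← h3]
      rw [cj_mulVec, tv_mulVec, h2]; simp
    exact hx0 (by rw [← Matrix.one_mulVec x, ← hy', ← Matrix.mulVec_mulVec, h4, Matrix.mulVec_zero])
  have := finrank_eq_one_iff_scalar.2 key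
  rw [hK.finrank_eq] at this
  omega

theorem HasT.not_le_subfieldSubgroup [Nonempty ι] (h : HasT hf G) {F₀ : Subfield F} (h0 : F₀ ≠ ⊤) (P : GL ι F) :
    ¬ G ≤ subfieldSubgroup F₀ P := fun hle => by
  obtain ⟨a, -, ha⟩ := SetLike.exists_of_lt (lt_top_iff_ne_top.2 h0)
  obtain ⟨i⟩ := ‹Nonempty ι›
  set v : ι → F := (P : Matrix ι ι F) *ᵥ Pi.single i 1 with hv
  have hv0 : v ≠ 0 := H8.mulVec_ne_zero P (by simp)
  obtain ⟨j, hj⟩ : ∃ j, f ((P : Matrix ι ι F) *ᵥ Pi.single j 1) v ≠ 0 := by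
    by_contra! h1
    obtain ⟨x, hx⟩ := (hf.nondegenerate v hv0).1
    apply hx
    rw [← mulVec_inv_mulVec P x, eq_sum_smul_single (((P⁻¹ : GL ι F) : Matrix ι ι F) *ᵥ x), Matrix.mulVec_sum,
      (sesq_of_bilinear hf.bilinear).sum_left]
    exact Finset.sum_eq_zero fun j _ => by rw [Matrix.mulVec_smul, hf.bilinear.smul_left, h1, mul_zero]
  have hij : j ≠ i := by rintro rfl; exact hj (hf.alternating _)
  obtain ⟨c, y, hc, hy⟩ := (mem_subfieldSubgroup_iff F₀ P _).1 (hle (h v (a / f ((P : Matrix ι ι F) *ᵥ Pi.single j 1) v)))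
  have h1 := congrArg (· *ᵥ Pi.single j 1) hy
  simp only [cj_apply, inv_inv, ← Matrix.mulVec_mulVec, tv_mulVec, div_mul_cancel₀ _ hj] at h1
  simp only [Matrix.mulVec_add, Matrix.mulVec_smul, hv, inv_mulVec_mulVec] at h1
  have h2 := congrFun h1 j
  have h3 := congrFun h1 i
  simp [hij, hij.symm] at h2 h3
  apply ha
  rw [h3, eq_inv_of_mul_eq_one_left h2.symm]
  exact mul_mem (inv_mem (Subtype.mem _)) (Subtype.mem _)

theorem HasT.not_le_quadSimilarityGroup (h : HasT hf G) (hn : 3 ≤ Fintype.card ι) (h2 : (2 : F) = 0)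
    {Q : (ι → F) → F} (hQ : IsNondegenerateQuadraticForm Q) (hp : ∀ u v, QuadraticMap.polar Q u v = f u v) :
    ¬ G ≤ quadSimilarityGroup Q := fun hle => by
  have key : ∀ v, v ≠ 0 → Q v = 1 := fun v hv => by
    obtain ⟨c, hc⟩ := hle (h v 1)
    obtain ⟨x, hx⟩ := (hf.nondegenerate v hv).1
    have h1 := tv_isom hf v 1 x v
    rw [← hp, ← hp, QuadraticMap.polar, ← Matrix.mulVec_add, hc, hc, hc, ← mul_sub, ← mul_sub, ← QuadraticMap.polar,
      hp] at h1
    have h3 := hc x
    rw [mul_left_eq_self₀.1 h1 |>.resolve_right hx, tv_mulVec, quad_add (Q := Q), hp, hQ.smul,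
      hf.bilinear.smul_right] at h3
    apply mul_left_cancel₀ (pow_ne_zero 2 hx)
    linear_combination h3 - (f x v) ^ 2 * h2
  haveI : Nonempty ι := Fintype.card_pos_iff.1 (by omega)
  obtain ⟨v, hv, hv'⟩ := exists_notMem_of_finrank_lt (U := F ∙ (1 : ι → F))
    (W := ⊤ ⊓ LinearMap.ker ((bilinOf hf.bilinear).flip 1)) (by
      have h1 := finrank_inf_ker_ge (⊤ : Submodule F (ι → F)) ((bilinOf hf.bilinear).flip 1)
      have h3 := finrank_span_singleton_le (F := F) (1 : ι → F)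
      simp only [finrank_top, finrank_fintype_fun_eq_card] at h1
      omega)
  have h1 := quad_add (Q := Q) v 1
  rw [hp, show f v 1 = 0 from hv.2, key v (by rintro rfl; exact hv' (zero_mem _)), key 1 one_ne_zero,
    key _ (fun h0 => hv' (by
      rw [eq_neg_of_add_eq_zero_left h0]; exact neg_mem (Submodule.mem_span_singleton_self _)))] at h1
  exact one_ne_zero (α := F) (by linear_combination -h1)

theorem HasT.not_le_subgroupNormalizer (h : HasT hf G) (hn : 3 ≤ Fintype.card ι) {R : Subgroup (GL ι F)}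
    (hR : RData 2 R) (hs : ∀ x ∈ R, ∀ u v, f ((x : Matrix ι ι F) *ᵥ u) ((x : Matrix ι ι F) *ᵥ v) = f u v) :
    ¬ G ≤ subgroupNormalizer R := fun hle => by
  haveI : Nonempty ι := Fintype.card_pos_iff.1 (by omega)
  have h2 := hR.two_ne_zero (by omega)
  have hN := gnorms_of_le_normalizer hle
  have key : ∀ y ∈ R, ∀ v, ∃ x ∈ R, x = tv hf v 1 * y * (tv hf v 1)⁻¹ * y⁻¹ ∧
      (∀ z, (x : Matrix ι ι F) *ᵥ z = z - f z ((y : Matrix ι ι F) *ᵥ v) • (y : Matrix ι ι F) *ᵥ v +
        f (z - f z ((y : Matrix ι ι F) *ᵥ v) • (y : Matrix ι ι F) *ᵥ v) v • v) ∧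
      (∃ b, b ≠ 0 ∧ (x : Matrix ι ι F) *ᵥ b = b) ∧ ∀ z, (x : Matrix ι ι F) *ᵥ (x : Matrix ι ι F) *ᵥ z = z := by
    intro y hy v
    have hx := R.mul_mem (hN _ (h v 1) y hy) (R.inv_mem hy)
    have h1 : ∀ z, ((tv hf v 1 * y * (tv hf v 1)⁻¹ * y⁻¹ : GL ι F) : Matrix ι ι F) *ᵥ z =
        z - f z ((y : Matrix ι ι F) *ᵥ v) • (y : Matrix ι ι F) *ᵥ v +
        f (z - f z ((y : Matrix ι ι F) *ᵥ v) • (y : Matrix ι ι F) *ᵥ v) v • v := fun z => by
      rw [← mulVec_inv_mulVec y z]
      generalize ((y⁻¹ : GL ι F) : Matrix ι ι F) *ᵥ z = w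
      simp only [Units.val_mul, ← Matrix.mulVec_mulVec, inv_mulVec_mulVec, tv_inv, tv_mulVec, hs y hy,
        Matrix.mulVec_add, Matrix.mulVec_smul, one_mul, neg_mul, neg_smul, ← sub_eq_add_neg, Matrix.mulVec_sub,
        b_sub_left hf.bilinear, hf.bilinear.smul_left]
      module
    obtain ⟨b, -, hb0, hb1, hb2⟩ := exists_ne_zero_two (W := ⊤) (by simpa using hn) ((bilinOf hf.bilinear).flip v)
      ((bilinOf hf.bilinear).flip ((y : Matrix ι ι F) *ᵥ v))
    change f b v = 0 at hb1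
    change f b _ = 0 at hb2
    have h3 : ((tv hf v 1 * y * (tv hf v 1)⁻¹ * y⁻¹ : GL ι F) : Matrix ι ι F) *ᵥ b = b := by
      rw [h1, hb2]; simp [hb1]
    refine ⟨_, hx, rfl, h1, ⟨b, hb0, h3⟩, fun z => ?_⟩
    obtain ⟨c, hc⟩ := (mem_scalars_iff _).1 (hR.pow _ hx)
    rw [sq, Units.val_mul] at hc
    have h4 := congrArg (· *ᵥ b) hc
    simp only [← Matrix.mulVec_mulVec, h3, Matrix.smul_mulVec, Matrix.one_mulVec] at h4
    have h5 : (c : F) = 1 := smul_left_injective F hb0 (h4.symm.trans (one_smul F b).symm)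
    rw [Matrix.mulVec_mulVec, hc, h5, one_smul, Matrix.one_mulVec]
  obtain ⟨y, hy, hys⟩ := SetLike.not_le_iff_exists.1 (not_le_scalars_of_irred hR.abs.irred (by omega))
  obtain ⟨v, hv⟩ := H8.exists_not_eigen (x := (y : Matrix ι ι F)) fun ⟨c, hc⟩ => hys (mem_scalars_of_eq_smul hc)
  obtain ⟨x, hx, hx1, -, ⟨b, hb0, hb⟩, hx2⟩ := key y hy v
  obtain ⟨z, hz⟩ : ∃ z, z - (x : Matrix ι ι F) *ᵥ z ≠ 0 := by
    by_contra! h0
    have : x = 1 := Units.ext (Matrix.ext_iff_mulVec.2 fun z => by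
      rw [Units.val_one, Matrix.one_mulVec]; exact (sub_eq_zero.1 (h0 z)).symm)
    rw [this, eq_mul_inv_iff_mul_eq, one_mul, eq_mul_inv_iff_mul_eq] at hx1
    exact hv (eigen_of_comm hf (congrArg Units.val hx1))
  have ha : (x : Matrix ι ι F) *ᵥ (z - (x : Matrix ι ι F) *ᵥ z) = -(z - (x : Matrix ι ι F) *ᵥ z) := by
    rw [Matrix.mulVec_sub, hx2, neg_sub]
  generalize z - (x : Matrix ι ι F) *ᵥ z = a at hz ha
  have hab : f a b = 0 := by
    have := hs x hx a b
    rw [ha, hb, b_neg_left hf.bilinear] at this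
    exact mul_left_cancel₀ h2 (by linear_combination -this)
  have hba : f b a = 0 := by rw [hf.skew, hab, neg_zero]
  have hind : ∀ s t : F, s • a = t • b → s = 0 ∧ t = 0 := fun s t hst => by
    have h1 := congrArg ((x : Matrix ι ι F) *ᵥ ·) hst
    simp only [Matrix.mulVec_smul, ha, hb, smul_neg] at h1
    have h3 : (2 * t) • b = 0 := by linear_combination (norm := module) -hst - h1
    have h4 : t = 0 := by simpa [h2, hb0] using h3
    rw [h4, zero_smul] at hst
    exact ⟨by simpa [hz] using hst, h4⟩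
  obtain ⟨x', -, -, h1, -, h3⟩ := key x hx (a + b)
  obtain ⟨w, hw⟩ := (hf.nondegenerate (a + b) fun h0 => one_ne_zero (hind 1 (-1) (by
    linear_combination (norm := module) h0)).1).1
  have h4 := h3 w
  simp only [h1, Matrix.mulVec_add, ha, hb, hf.bilinear.add_left, hf.bilinear.add_right, hf.bilinear.smul_left,
    b_sub_left hf.bilinear, b_neg_left hf.bilinear, b_neg_right hf.bilinear, hf.alternating, hab, hba] at h4
  rw [hf.bilinear.add_right] at hw
  obtain ⟨h5, h6⟩ := hind (4 * f w b) (-(4 * f w a)) (by linear_combination (norm := module) h4)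
  have h7 : (4 : F) ≠ 0 := by rw [show (4 : F) = 2 * 2 by norm_num]; exact mul_ne_zero h2 h2
  apply hw
  rw [(mul_eq_zero.1 h5).resolve_left h7, (mul_eq_zero.1 (neg_eq_zero.1 h6)).resolve_left h7, add_zero]

/-! ### dimensions -/

include hf in
theorem even_finrank {W : Submodule F (ι → F)} (hW : IsNondegenerateOn f W) : Even (finrank F W) := by
  let b := (Module.finBasis F W).equivFun.symm
  have : IsSymplecticForm fun x y => f (b x) (b y) :=
    { bilinear :=
        { add_left := fun x y v => by rw [map_add, Submodule.coe_add, hf.bilinear.add_left]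
          smul_left := fun c x v => by rw [map_smul, Submodule.coe_smul, hf.bilinear.smul_left]
          add_right := fun x y v => by rw [map_add, Submodule.coe_add, hf.bilinear.add_right]
          smul_right := fun c x v => by rw [map_smul, Submodule.coe_smul, hf.bilinear.smul_right] }
      skew := fun v w => hf.skew _ _
      alternating := fun v => hf.alternating _
      nondegenerate := fun v hv => by
        obtain ⟨⟨x, hx, hx'⟩, ⟨y, hy, hy'⟩⟩ := hW (b v) (b v).2 (by simpa using hv)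
        exact ⟨⟨b.symm ⟨x, hx⟩, by simpa using hx'⟩, ⟨b.symm ⟨y, hy⟩, by simpa using hy'⟩⟩ }
  simpa using even_card_of_symplectic this

include hf in
theorem two_mul_dvd_of_sa [Finite F] [Nonempty ι] {r : ℕ} {K : Subalgebra F (Matrix ι ι F)}
    (hK : IsFieldSubalgebra r K) (hsa : IsSelfAdjointFor f K) (halt : ∀ k ∈ K, ∀ v, f (k *ᵥ v) v = 0) :
    2 * r ∣ Fintype.card ι := by
  letI : Field K := (isField_of_inv hK.comm hK.inv).toField
  obtain ⟨U, hU, hmax⟩ := (wellFounded_gt (α := Submodule K (ι → F))).has_min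
    {U | ∀ u ∈ U, ∀ v ∈ U, f u v = 0} ⟨⊥, by
      rintro u hu v -
      rw [(Submodule.mem_bot K).1 hu, b_zero_left hf.bilinear]⟩
  have h1 : (spPolar hf).perp (U.restrictScalars F) = U.restrictScalars F := by
    refine le_antisymm (fun v hv => ?_) fun u hu v hv => hU u hu v hv
    by_contra hvU
    refine hmax (U ⊔ K ∙ v) ?_ (lt_of_le_of_ne le_sup_left fun h0 => hvU (by
      change v ∈ U
      rw [h0]; exact Submodule.mem_sup_right (Submodule.mem_span_singleton_self v)))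
    intro x hx y hy
    obtain ⟨u, hu, _, ⟨k, rfl⟩, rfl⟩ := Submodule.mem_sup.1 hx |>.imp fun u h => h.imp_right fun h =>
      h.imp fun z h => h.imp_left Submodule.mem_span_singleton.1
    obtain ⟨u', hu', _, ⟨k', rfl⟩, rfl⟩ := Submodule.mem_sup.1 hy |>.imp fun u h => h.imp_right fun h =>
      h.imp fun z h => h.imp_left Submodule.mem_span_singleton.1
    have e1 : ∀ (k : K) (w : ι → F), k • w = (k : Matrix ι ι F) *ᵥ w := fun _ _ => rfl
    have e2 : ∀ (k : K), ∀ w ∈ U, f (k • v) w = 0 := fun k w hw => by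
      rw [e1, hsa k k.2]
      exact hv _ (U.smul_mem k hw)
    rw [hf.bilinear.add_left, hf.bilinear.add_right, hf.bilinear.add_right, hU u hu u' hu', e2 k u' hu', hf.skew u,
      e2 k' u hu, e1, e1, ← hsa k' k'.2, Matrix.mulVec_mulVec, halt _ (K.mul_mem k'.2 k.2)]
    simp
  have h2 := (spPolar hf).finrank_perp (U.restrictScalars F)
  rw [h1, finrank_fintype_fun_eq_card] at h2
  have h3 := Module.finrank_mul_finrank F K U
  rw [hK.finrank_eq] at h3
  have h4 : finrank F (U.restrictScalars F) = finrank F U := rfl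
  exact ⟨finrank K U, by rw [mul_assoc, h3, ← h2, h4, two_mul]⟩

end Cfsg.Agent.H9.SpT
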