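import Cfsg.Agent.H9.SpProper

/-! Geometric subgroups of symplectic groups over small fields that lie in other geometric subgroups. -/

set_option autoImplicit false
set_option linter.unusedSectionVars false

namespace Cfsg.Agent.H9.SpT

open Module Cfsg Cfsg.Geo Cfsg.Agent.H7 Cfsg.Agent.Asch
open scoped MatrixGroups Matrix Kronecker

variable {ι : Type} [Fintype ι] [DecidableEq ι] {F : Type*} [Field F]

/-- a frame with prescribed invertible Gram matrix -/
theorem exists_frame_gram {κ : Type} [Fintype κ] [DecidableEq κ] (e : ι ≃ κ) {G : Matrix ι ι F} {v : κ → ι → F}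
    {Γ : Matrix κ κ F} (hΓ : IsUnit Γ) (h : ∀ a b, gf (RingEquiv.refl F) G (v a) (v b) = Γ a b) :
    ∃ P : GL ι F, (∀ a, trv e P (Pi.single a 1) = v a) ∧ pbG (RingEquiv.refl F) e P G = Γ := by
  have hli : LinearIndependent F v := by
    rw [Fintype.linearIndependent_iff]
    intro c hc
    have h1 : Γ *ᵥ c = 0 := by
      ext a
      have := congrArg (gf (RingEquiv.refl F) G (v a)) hc
      rw [(sesq_gf _ G).sum_right, (sesq_gf _ G).zero_right] at this
      simp only [(sesq_gf _ G).smul_right, h, RingEquiv.refl_apply] at this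
      simpa [Matrix.mulVec, dotProduct, mul_comm] using this
    exact congrFun (Matrix.mulVec_injective_iff_isUnit.2 hΓ (h1.trans (Matrix.mulVec_zero Γ).symm))
  obtain ⟨P, hP⟩ := exists_frame_of_linearIndependent e hli
  exact ⟨P, hP, Matrix.ext fun a b => by rw [pbG_apply, hP, hP, h]⟩

theorem herm_of_symplectic {G : Matrix ι ι F} (hf : IsSymplecticForm (gf (RingEquiv.refl F) G)) :
    Herm (RingEquiv.refl F) (-1) G :=
  herm_of_skew ((nondeg_gf_iff _ G).1 hf.nondegenerate) (Matrix.ext fun i j => by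
    rw [Matrix.transpose_apply, Matrix.neg_apply, ← gf_single (RingEquiv.refl F) G j i, hf.skew, gf_single])

theorem iSupIndep_of_orth' {f : (ι → F) → (ι → F) → F} (hf : IsBilinearForm f) {κ : Type*}
    {D : κ → Submodule F (ι → F)} (h : ∀ i, IsNondegenerateOn f (D i))
    (ho : ∀ i j, i ≠ j → AreOrthogonalFor f (D i) (D j)) : iSupIndep D := fun i => by
  rw [Submodule.disjoint_def]
  intro x hx hx'
  by_contra h0
  obtain ⟨y, hy, hy'⟩ := (h i x hx h0).1
  have : (⨆ j, ⨆ (_ : j ≠ i), D j) ≤ LinearMap.ker (bilinOf hf y) :=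
    iSup₂_le fun j hj z hz => ho i j hj.symm y hy z hz
  exact hy' (this hx')

/-- `Sp₂(2) wr S_m` lies in an orthogonal group. -/
theorem exists_quad_planes [Fintype F] (hq : Fintype.card F = 2) {G : Matrix ι ι F}
    (hf : IsSymplecticForm (gf (RingEquiv.refl F) G)) {t : ℕ} {D : Fin t → Submodule F (ι → F)}
    (hD : IsNondegenerateMDecomposition (gf (RingEquiv.refl F) G) 2 D) {H : Subgroup (GL ι F)}
    (hH : FixesGram (RingEquiv.refl F) H G) (hle : H ≤ decompositionStabilizer D) :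
    ∃ Q : (ι → F) → F, IsNondegenerateQuadraticForm Q ∧
      (∀ u v, QuadraticMap.polar Q u v = gf (RingEquiv.refl F) G u v) ∧ H ≤ quadSimilarityGroup Q := by
  have h2 : (2 : F) = 0 := by exact_mod_cast H8.cast_eq_zero_of_card hq
  have h11 : (1 : F) + 1 = 0 := by rw [← h2]; norm_num
  have hG := herm_of_symplectic hf
  choose u hu hu0 using fun i => Submodule.exists_mem_ne_zero_of_ne_bot (H8.IsMDecomposition.ne_bot hD.decomp i)
  choose w hw huw using fun i => (hD.nondegenerate i (u i) (hu i) (hu0 i)).2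
  have h1 : ∀ i, gf (RingEquiv.refl F) G (u i) (w i) = 1 := fun i => H8.eq_one_of_card_two hq (huw i)
  have h1' : ∀ i, gf (RingEquiv.refl F) G (w i) (u i) = 1 := fun i => by rw [hf.skew, h1, neg_one_eq_one h2]
  let v : Fin t × Fin 2 → ι → F := fun p => ![u p.1, w p.1] p.2
  have hv : ∀ p, v p ∈ D p.1 := by
    rintro ⟨i, a⟩
    fin_cases a
    exacts [hu i, hw i]
  let e : ι ≃ Fin t × Fin 2 := Fintype.equivOfCardEq (by simp [H8.IsMDecomposition.mul_eq hD.decomp])
  obtain ⟨P, hP, hΓ⟩ := exists_frame_gram e (G := G) (v := v)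
    (Γ := (1 : Matrix (Fin t) (Fin t) F) ⊗ₖ (!![0, 1; 1, 0] : Matrix (Fin 2) (Fin 2) F))
    (isUnit_kronecker isUnit_one (by rw [Matrix.isUnit_iff_isUnit_det]; simp)) (by
      rintro ⟨i, a⟩ ⟨j, b⟩
      by_cases hij : i = j
      · subst hij
        fin_cases a <;> fin_cases b <;> simp [v, h1, h1', hf.alternating]
      · rw [hD.orthogonal i j hij _ (hv (i, a)) _ (hv (j, b))]
        simp [hij])
  obtain ⟨Q, k1, k2, k3⟩ := exists_quad_of_frame e P hG.unit
    (M := (1 : Matrix (Fin t) (Fin t) F) ⊗ₖ (!![1, 1; 0, 1] : Matrix (Fin 2) (Fin 2) F)) (by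
      rw [hΓ, kronecker_transpose, Matrix.transpose_one, ← Matrix.kronecker_add]
      congr 1
      ext a b
      fin_cases a <;> fin_cases b <;> simp [h11])
  have k4 : ∀ p, Q (v p) = 1 := fun ⟨i, a⟩ => by
    rw [← hP, k3, gf_single]
    fin_cases a <;> simp
  have k5 : ∀ i, ∀ x ∈ D i, x ≠ 0 → Q x = 1 := fun i x hx hx0 => by
    rw [H8.eq_pair_of_finrank (hD.decomp.finrank_eq i) (hu i) (hw i) (hu0 i) (fun h => huw i (by
      obtain ⟨c, hc⟩ := Submodule.mem_span_singleton.1 h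
      rw [← hc, hf.bilinear.smul_right, hf.alternating, mul_zero]))] at hx
    obtain ⟨a, b, rfl⟩ := H8.mem_span_pair'.1 hx
    rw [quad_add (Q := Q), k2, k1.smul, k1.smul, hf.bilinear.smul_left, hf.bilinear.smul_right, h1,
      show Q (u i) = 1 from k4 (i, 0), show Q (w i) = 1 from k4 (i, 1)]
    by_cases ha : a = 0
    · have hb : b ≠ 0 := by rintro rfl; exact hx0 (by simp [ha])
      simp [ha, H8.eq_one_of_card_two hq hb]
    · by_cases hb : b = 0
      · simp [hb, H8.eq_one_of_card_two hq ha]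
      · simp [H8.eq_one_of_card_two hq ha, H8.eq_one_of_card_two hq hb, h11]
  refine ⟨Q, k1, fun u v => by rw [k2], le_quadSim (fixesQuad_of_basis e P k1.smul
    (by rw [k2, ← fixesGram_iff]; exact hH) fun g hg p => ?_)⟩
  obtain ⟨j, hj⟩ := H8.exists_of_mem_decompositionStabilizer (hle hg) p.1
  rw [hP, k4, k5 j _ (hj _ (hv p)) (H8.mulVec_ne_zero g fun h0 => ?_)]
  have := k4 p
  rw [h0, quad_zero k1.smul] at this
  exact zero_ne_one this

theorem trv_swap {a b : ℕ} (e : ι ≃ Fin a × Fin b) (P : GL ι F) (x : Fin a → F) (y : Fin b → F) :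
    trv (e.trans (Equiv.prodComm _ _)) P (H8.pv y x) = trv e P (H8.pv x y) := by
  rw [trv, trv]
  congr 1
  ext i
  simp [H8.pv, mul_comm]

/-- `Sp_k(3) ⊗ O₃(3)` preserves an orthogonal decomposition into three subspaces. -/
theorem exists_decomp_three [Fintype F] (hq : Fintype.card F = 3) {f : (ι → F) → (ι → F) → F}
    (hf : IsBilinearForm f) {n₁ : ℕ} (h₁ : 0 < n₁) {f₁ : (Fin n₁ → F) → (Fin n₁ → F) → F}
    {f₂ : (Fin 3 → F) → (Fin 3 → F) → F} {e : ι ≃ Fin n₁ × Fin 3} {P : GL ι F}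
    (hf₁ : IsNondegenerateForm f₁) (hb₁ : IsBilinearForm f₁) (hf₂ : IsSymmetricForm f₂)
    (hT : IsTensorFormStructure id f f₁ f₂ e P) {H : Subgroup (GL ι F)}
    (hH : ∀ g ∈ H, ∀ u v, f ((g : Matrix ι ι F) *ᵥ u) ((g : Matrix ι ι F) *ᵥ v) = f u v)
    (hle : H ≤ tensorProductSubgroup n₁ 3 e P) :
    ∃ D : Fin 3 → Submodule F (ι → F), IsNondegenerateMDecomposition f n₁ D ∧ H ≤ decompositionStabilizer D := by
  obtain ⟨c, hc, h0⟩ := H8.tensorForm_pv hT hb₁ hf₂.bilinear
  set e' := e.trans (Equiv.prodComm _ _) with he'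
  have h : ∀ y y' x x', f (trv e' P (H8.pv y x)) (trv e' P (H8.pv y' x')) = c * (f₂ y y' * f₁ x x') :=
    fun y y' x x' => by rw [he', trv_swap, trv_swap, h0, mul_comm (f₁ x x')]
  obtain ⟨δ, b, hδ, hb, ho, hA⟩ := H8.exists_frame_similarity_three hq hf₂
  have hb0 : ∀ a, b a ≠ 0 := fun a h0 => hδ (by rw [← hb a, h0]; exact b_zero_left hf₂.bilinear _)
  have hnd : ∀ a, IsNondegenerateOn f (H8.slice e' P (b a)) := by
    rintro a _ ⟨y, rfl⟩ hy
    obtain ⟨⟨x, hx⟩, ⟨x', hx'⟩⟩ := hf₁ y (by rintro rfl; exact hy (map_zero _))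
    refine ⟨⟨_, ⟨x, rfl⟩, fun h1 => mul_ne_zero hc (mul_ne_zero hδ hx) ?_⟩,
      ⟨_, ⟨x', rfl⟩, fun h1 => mul_ne_zero hc (mul_ne_zero hδ hx') ?_⟩⟩
    · rw [← hb a, ← h]; exact h1
    · rw [← hb a, ← h]; exact h1
  have hor : ∀ a a', a ≠ a' → AreOrthogonalFor f (H8.slice e' P (b a)) (H8.slice e' P (b a')) := by
    rintro a a' haa' _ ⟨y, rfl⟩ _ ⟨y', rfl⟩
    exact (h _ _ _ _).trans (by rw [ho a a' haa']; simp)
  have hD : IsMDecomposition n₁ fun a => H8.slice e' P (b a) :=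
    H8.isMDecomposition_of_indep (iSupIndep_of_orth' hf hnd hor) (fun a => H8.finrank_slice (hb0 a)) h₁
      (Equiv.refl _) (by norm_num) (card_eq_of_equiv_prod e').symm
  haveI : Nonempty (Fin n₁) := ⟨⟨0, h₁⟩⟩
  refine ⟨_, ⟨hD, hnd, hor⟩, fun g hg => ?_⟩
  have hg' := hle hg
  rw [← tensorProductSubgroup_swap] at hg'
  obtain ⟨A, B, hAB⟩ := (mem_tensorProductSubgroup e' P g).1 hg'
  obtain ⟨l, hl, h4, -⟩ := H8.exists_multiplier hc h (H8.exists_ne_zero_of_nondeg hf₂.nondegenerate)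
    (H8.exists_ne_zero_of_nondeg hf₁) (A := A) (B := B) (hAB ▸ hH g hg)
  refine H8.mem_decompositionStabilizer_of_le hD fun a => ?_
  obtain ⟨a', ha'⟩ := hA A l hl h4 a
  exact ⟨a', fun v hv => hAB ▸ H8.mulVec_mem_slice ha' hv⟩

end Cfsg.Agent.H9.SpT
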