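import Cfsg.Agent.H9.SpMax

/-! The tensor product `Sp₂ ⊗ O₄⁺` lies in a tensor cube. -/

set_option autoImplicit false
set_option linter.unusedSectionVars false

namespace Cfsg.Agent.H9.SpT

open Module Cfsg Cfsg.Geo Cfsg.Agent.H7 Cfsg.Agent.Asch
open scoped MatrixGroups Matrix Kronecker

variable {ι : Type} [Fintype ι] [DecidableEq ι] {F : Type*} [Field F]

theorem exists_sep_gf {G : Matrix ι ι F} (hG : IsUnit G) {a b : ι → F} (h : b ∉ F ∙ a) :
    ∃ x, gf (RingEquiv.refl F) G a x = 0 ∧ gf (RingEquiv.refl F) G b x = 1 := by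
  obtain ⟨φ, h1, h2⟩ := Submodule.exists_dual_map_eq_bot_of_notMem h inferInstance
  obtain ⟨x, hx⟩ := (Matrix.mulVec_surjective_iff_isUnit.2 hG) fun i => (φ b)⁻¹ * φ (Pi.single i 1)
  have key : ∀ u, gf (RingEquiv.refl F) G u x = (φ b)⁻¹ * φ u := fun u => by
    change u ⬝ᵥ G *ᵥ x = _
    conv_rhs => rw [eq_sum_smul_single u]
    rw [hx, map_sum, Finset.mul_sum]
    exact Finset.sum_congr rfl fun i _ => by simp [mul_left_comm]
  have h3 : φ a = 0 := by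
    have : φ a ∈ (F ∙ a).map φ := Submodule.mem_map_of_mem (Submodule.mem_span_singleton_self a)
    rwa [h2] at this
  exact ⟨x, by rw [key, h3, mul_zero], by rw [key, inv_mul_cancel₀ h1]⟩

theorem exists_pair_of_finrank {U : Submodule F (ι → F)} (hU : 2 ≤ finrank F U) :
    ∃ a ∈ U, ∃ b ∈ U, b ∉ F ∙ a ∧ a ∉ F ∙ b := by
  obtain ⟨a, ha, ha0⟩ := Submodule.exists_mem_ne_zero_of_ne_bot (p := U) (by rintro rfl; simp at hU)
  have h1 : ¬ U ≤ F ∙ a := fun h => by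
    have := Submodule.finrank_mono h
    rw [finrank_span_singleton ha0] at this
    omega
  obtain ⟨b, hb, hb'⟩ := SetLike.not_le_iff_exists.1 h1
  refine ⟨a, ha, b, hb, hb', fun h => hb' ?_⟩
  obtain ⟨c, rfl⟩ := Submodule.mem_span_singleton.1 h
  exact (Submodule.span_singleton_smul_eq (IsUnit.mk0 _ (left_ne_zero_of_smul ha0)) b).symm ▸
    Submodule.mem_span_singleton_self b

/-- a plus-type four-dimensional symmetric form has Gram matrix `J ⊗ J` in a suitable frame -/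
theorem exists_frame_plus (h2 : (2 : F) ≠ 0) (e : ι ≃ Fin 2 × Fin 2) {G : Matrix ι ι F} (hG : IsUnit G) (hs : Gᵀ = G)
    (hp : IsPlusTypeOn (fun v => gf (RingEquiv.refl F) G v v) ⊤) :
    ∃ P : GL ι F, pbG (RingEquiv.refl F) e P G = J2 F ⊗ₖ J2 F := by
  obtain ⟨U, -, hU, hd⟩ := hp
  rw [finrank_top, Module.finrank_fintype_fun_eq_card, card_eq_of_equiv_prod e] at hd
  obtain ⟨a, ha, b, hb, hab, hba⟩ := exists_pair_of_finrank (U := U) (by omega)
  set f := gf (RingEquiv.refl F) G with hf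
  have hB : IsBilinearForm f := (sesq_gf _ G).bilinear
  have hsy : ∀ u v, f u v = f v u := gf_symm hs
  have haa : f a a = 0 := hU a ha
  have hbb : f b b = 0 := hU b hb
  have hab0 : f a b = 0 := by
    have : f (a + b) (a + b) = 0 := hU _ (U.add_mem ha hb)
    simp only [hB.add_left, hB.add_right, haa, hbb, hsy b a] at this
    exact mul_left_cancel₀ h2 (by linear_combination this)
  obtain ⟨a', h1, h3⟩ := exists_sep_gf hG hba
  obtain ⟨b', h4, h5⟩ := exists_sep_gf hG hab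
  rw [← hf] at h1 h3 h4 h5
  obtain ⟨P, -, hP⟩ := exists_frame_gram e (G := G) (Γ := J2 F ⊗ₖ J2 F)
    (v := fun p => ![![a, b], ![(f b' b' / 2) • b - b', a' - (f a' a' / 2) • a - f a' b' • b]] p.1 p.2)
    (isUnit_kronecker isUnit_J2 isUnit_J2) (by
      rintro ⟨i, j⟩ ⟨k, l⟩
      rw [← hf]
      fin_cases i <;> fin_cases j <;> fin_cases k <;> fin_cases l <;>
        simp [J2, b_sub_left hB, b_sub_right hB, hB.smul_left, hB.smul_right, haa, hbb, hab0, h1, h3, h4, h5, hsy b a,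
          hsy a' a, hsy a' b, hsy b' a, hsy b' b, hsy b' a'] <;> field_simp <;> ring)
  exact ⟨P, hP⟩

theorem skew_decomp (h2 : (2 : F) ≠ 0) {z : Matrix (Fin 2 × Fin 2) (Fin 2 × Fin 2) F}
    (hz : adj (RingEquiv.refl F) (J2 F ⊗ₖ J2 F) z = -z) :
    ∃ a b c a' b' c' : F, z = lk (Fin 2) !![a, b; c, -a] + rk (Fin 2) !![a', b'; c', -a'] := by
  rw [adj_eq_iff (isUnit_kronecker isUnit_J2 isUnit_J2), map_refl] at hz
  have h := fun i j k l => congrFun (congrFun hz (i, j)) (k, l)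
  simp only [Fin.forall_fin_two] at h
  simp [J2, Matrix.mul_apply, Fintype.sum_prod_type, Fin.sum_univ_two] at h
  refine ⟨(z (0, 0) (0, 0) + z (0, 1) (0, 1)) / 2, z (0, 0) (1, 0), z (1, 0) (0, 0),
    (z (0, 0) (0, 0) - z (0, 1) (0, 1)) / 2, z (0, 0) (0, 1), z (0, 1) (0, 0), ?_⟩
  ext ⟨i, j⟩ ⟨k, l⟩
  fin_cases i <;> fin_cases j <;> fin_cases k <;> fin_cases l <;> simp [lk_apply, rk_apply] <;> grind

theorem sl2_sq (a b c : F) : !![a, b; c, -a] * !![a, b; c, -a] = (a * a + b * c) • (1 : Matrix (Fin 2) (Fin 2) F) := by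
  ext i j
  fin_cases i <;> fin_cases j <;> simp [Matrix.mul_apply, Fin.sum_univ_two] <;> ring

theorem skew_sq_cases (h2 : (2 : F) ≠ 0) {z : Matrix (Fin 2 × Fin 2) (Fin 2 × Fin 2) F}
    (hz : adj (RingEquiv.refl F) (J2 F ⊗ₖ J2 F) z = -z) {d : F} (hd : z * z = d • 1) :
    (∃ x, z = lk (Fin 2) x) ∨ ∃ x, z = rk (Fin 2) x := by
  obtain ⟨a, b, c, a', b', c', rfl⟩ := skew_decomp h2 hz
  rw [add_mul, mul_add, mul_add, ← map_mul (lk (Fin 2)), ← map_mul (rk (Fin 2)), sl2_sq, sl2_sq, lk_mul_rk, rk_mul_lk, map_smul, map_smul,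
    map_one, map_one] at hd
  have h := fun i j k l => congrFun (congrFun hd (i, j)) (k, l)
  simp only [Fin.forall_fin_two] at h
  simp at h
  by_cases h0 : a = 0 ∧ b = 0 ∧ c = 0
  · obtain ⟨rfl, rfl, rfl⟩ := h0
    refine Or.inr ⟨!![a', b'; c', -a'], ?_⟩
    rw [add_eq_right, map_eq_zero_iff _ lk_injective]
    ext i j; fin_cases i <;> fin_cases j <;> simp
  · refine Or.inl ⟨!![a, b; c, -a], ?_⟩
    have h4 : (4 : F) ≠ 0 := by rw [show (4 : F) = 2 * 2 by norm_num]; exact mul_ne_zero h2 h2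
    have : a' = 0 ∧ b' = 0 ∧ c' = 0 := by grind
    obtain ⟨rfl, rfl, rfl⟩ := this
    rw [add_eq_left, map_eq_zero_iff _ rk_injective]
    ext i j; fin_cases i <;> fin_cases j <;> simp

/-- a similarity of `J ⊗ J` normalises or swaps the two tensor factors -/
theorem go4_cases (h2 : (2 : F) ≠ 0) {B : GL (Fin 2 × Fin 2) F}
    (hB : B ∈ similarityGroup (gf (RingEquiv.refl F) (J2 F ⊗ₖ J2 F))) :
    ((∀ x, ∃ x', cj B (lk (Fin 2) x) = lk (Fin 2) x') ∧ ∀ x, ∃ x', cj B (rk (Fin 2) x) = rk (Fin 2) x') ∨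
    ((∀ x, ∃ x', cj B (lk (Fin 2) x) = rk (Fin 2) x') ∧ ∀ x, ∃ x', cj B (rk (Fin 2) x) = lk (Fin 2) x') := by
  have hu : IsUnit (J2 F ⊗ₖ J2 F) := isUnit_kronecker isUnit_J2 isUnit_J2
  have h1 : ∀ x, (∃ x', cj B (lk (Fin 2) x) = lk (Fin 2) x') ∨ ∃ x', cj B (lk (Fin 2) x) = rk (Fin 2) x' := by
    intro x
    have hx : x = ((x 0 0 + x 1 1) / 2) • 1 + !![(x 0 0 - x 1 1) / 2, x 0 1; x 1 0, -((x 0 0 - x 1 1) / 2)] := by
      ext i j
      fin_cases i <;> fin_cases j <;> simp <;> field_simp <;> ring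
    rw [hx, map_add, map_add, map_smul, map_smul, map_one, map_one]
    generalize (x 0 0 + x 1 1) / 2 = d
    generalize (x 0 0 - x 1 1) / 2 = a
    rcases skew_sq_cases h2 (z := cj B (lk (Fin 2) !![a, x 0 1; x 1 0, -a])) (d := a * a + x 0 1 * x 1 0) (by
        rw [adj_cj hu hB, ← map_neg, lk_apply, adj_kronecker isUnit_J2 isUnit_J2, adj_one isUnit_J2, ← lk_apply,
          ← lk_apply, ← map_neg, adj_J2]
        congr 2
        ext i j; fin_cases i <;> fin_cases j <;> simp)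
      (by rw [← map_mul, ← map_mul, sl2_sq, map_smul, map_smul, map_one, map_one]) with ⟨y, hy⟩ | ⟨y, hy⟩
    · exact Or.inl ⟨d • 1 + y, by rw [hy, map_add, map_smul, map_one]⟩
    · exact Or.inr ⟨d • 1 + y, by rw [hy, map_add, map_smul, map_one]⟩
  have h3 : (∀ x, ∃ x', cj B (lk (Fin 2) x) = lk (Fin 2) x') ∨ ∀ x, ∃ x', cj B (lk (Fin 2) x) = rk (Fin 2) x' := by
    by_contra! h
    obtain ⟨⟨x, hx⟩, y, hy⟩ := h
    obtain ⟨x', hx'⟩ := (h1 x).resolve_left (by push Not; exact hx)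
    obtain ⟨y', hy'⟩ := (h1 y).resolve_right (by push Not; exact hy)
    rcases h1 (x + y) with ⟨z, hz⟩ | ⟨z, hz⟩
    · exact hx (z - y') (by rw [map_sub, ← hz, ← hy', map_add, map_add, add_sub_cancel_right])
    · exact hy (z - x') (by rw [map_sub, ← hz, ← hx', map_add, map_add, add_sub_cancel_left])
  have key : ∀ ψ : Matrix (Fin 2) (Fin 2) F →ₐ[F] Matrix (Fin 2 × Fin 2) (Fin 2 × Fin 2) F, Function.Injective ψ →
      (∀ x, ∃ x', cj B (lk (Fin 2) x) = ψ x') → ∀ y x, cj B (rk (Fin 2) y) * ψ x = ψ x * cj B (rk (Fin 2) y) := by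
    intro ψ hψ h y x
    obtain ⟨a, ha⟩ := exists_inner ((cj B).toAlgHom.comp (lk (Fin 2))) ψ hψ h
    obtain ⟨x, rfl⟩ := (cj a).surjective x
    rw [← ha]
    change _ * cj B (lk (Fin 2) x) = cj B (lk (Fin 2) x) * _
    rw [← map_mul, ← map_mul, lk_mul_rk, rk_mul_lk]
  exact h3.imp (fun h => ⟨h, fun y => exists_rk_of_comm _ (key _ lk_injective h y)⟩)
    fun h => ⟨h, fun y => exists_lk_of_comm _ (key _ rk_injective h y)⟩

theorem scalar_of_centralizer {z : Matrix ι ι F} (h : ∀ x, x ∈ Subalgebra.centralizer F {z}) : ∃ c : F, z = c • 1 := by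
  obtain ⟨c, hc⟩ := (Matrix.mem_range_scalar_iff_commute_single' (M := z)).2 fun a b =>
    (h _ z rfl).symm
  exact ⟨c, by rw [← hc, Matrix.scalar_apply, Matrix.smul_one_eq_diagonal]⟩

/-- `Sp₂ ⊗ O₄⁺` preserves a tensor cube structure -/
theorem exists_pData_of_plus (h2 : (2 : F) ≠ 0) {G : Matrix ι ι F} {H : Subgroup (GL ι F)} {e : ι ≃ Fin 2 × Fin 4}
    {P : GL ι F} {G₁ : Matrix (Fin 2) (Fin 2) F} {G₂ : Matrix (Fin 4) (Fin 4) F}
    (h : TData (RingEquiv.refl F) (-1) G H e P (-1) 1 G₁ G₂) (hs : H ≤ similarityGroup (gf (RingEquiv.refl F) G))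
    (hp : IsPlusTypeOn (fun v => gf (RingEquiv.refl F) G₂ v v) ⊤) :
    ∃ (e' : ι ≃ (Fin 3 → Fin 2)) (P' : GL ι F), PData (RingEquiv.refl F) G H e' P' (-1) (J2 F) := by
  haveI := h.nonempty
  let e₂ : Fin 4 ≃ Fin 2 × Fin 2 := (finProdFinEquiv (m := 2) (n := 2)).symm
  obtain ⟨P₂, hP₂⟩ := exists_frame_plus h2 e₂ h.h₂.unit h.h₂.transpose_one hp
  obtain ⟨c₁, rfl⟩ := exists_smul_J2 h2 h.h₁.transpose_neg
  have hc₁ : c₁ ≠ 0 := by rintro rfl; exact h.h₁.unit.ne_zero (zero_smul _ _)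
  let ψ := (rkt e P).comp (tr e₂ P₂).toAlgHom
  have hψ : ∀ x, ψ x = rkt e P (tr e₂ P₂ x) := fun _ => rfl
  let φ₀ := (tr e P).toAlgHom.comp (lk (κ := Fin 2) (F := F) (Fin 4))
  have hφ₀ : ∀ x, φ₀ x = tr e P (lk (Fin 4) x) := fun _ => rfl
  have h01 : ∀ x y, φ₀ x * ψ y = ψ y * φ₀ x := fun x y => by
    change tr e P (lk _ _) * tr e P (rk _ _) = tr e P (rk _ _) * tr e P (lk _ _)
    rw [← map_mul, ← map_mul, lk_mul_rk, rk_mul_lk]
  have h12 : ∀ x y, ψ (lk (Fin 2) x) * ψ (rk (Fin 2) y) = ψ (rk (Fin 2) y) * ψ (lk (Fin 2) x) := fun x y => by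
    rw [← map_mul, ← map_mul, lk_mul_rk, rk_mul_lk]
  obtain ⟨e', P', hφ⟩ := exists_power_frame two_pos ![φ₀, ψ.comp (lk (Fin 2)), ψ.comp (rk (Fin 2))]
    (fun i j hij x y => by
      fin_cases i <;> fin_cases j
      exacts [absurd rfl hij, h01 _ _, h01 _ _, (h01 _ _).symm, absurd rfl hij, h12 _ _, (h01 _ _).symm,
        (h12 _ _).symm, absurd rfl hij])
    (fun z hz => scalar_of_centralizer fun x => by
      obtain ⟨x, rfl⟩ := (tr e P).surjective x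
      refine mem_of_lk_rk (A := (Subalgebra.centralizer F {z}).comap (tr e P).toAlgHom) (fun x => ?_) (fun y => ?_) x
      · rintro _ rfl; exact hz 0 x
      · obtain ⟨y, rfl⟩ := (tr e₂ P₂).surjective y
        refine mem_of_lk_rk (A := (Subalgebra.centralizer F {z}).comap ψ) (fun x => ?_) (fun x => ?_) y
        · rintro _ rfl; exact hz 1 x
        · rintro _ rfl; exact hz 2 x)
  have k0 : ∀ x, tr e' P' (ins 0 x) = φ₀ x := fun x => (hφ 0 x).symm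
  have k1 : ∀ x, tr e' P' (ins 1 x) = ψ (lk (Fin 2) x) := fun x => (hφ 1 x).symm
  have k2 : ∀ x, tr e' P' (ins 2 x) = ψ (rk (Fin 2) x) := fun x => (hφ 2 x).symm
  have hG := h.herm.unit
  have hu := (isUnit_pbG_iff (RingEquiv.refl F) e' P' G).2 hG
  have hψa : ∀ x y, adj (RingEquiv.refl F) G (ψ (x ⊗ₖ y)) =
      ψ (adj (RingEquiv.refl F) (J2 F) x ⊗ₖ adj (RingEquiv.refl F) (J2 F) y) := fun x y => by
    rw [hψ, h.adj_rkt, adj_tr h.h₂.unit, hP₂, adj_kronecker isUnit_J2 isUnit_J2, hψ]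
  obtain ⟨c, hc⟩ := eq_smul_pt_of_adj hu (Gs := fun _ => J2 F) (fun _ => isUnit_J2) fun i x =>
    (tr e' P').injective (by
      rw [← adj_tr hG]
      fin_cases i
      · change adj _ _ (tr e' P' (ins 0 x)) = tr e' P' (ins 0 _)
        rw [k0, k0, hφ₀, hφ₀, adj_tr hG, h.gram, lk_apply, adj_kronecker h.h₁.unit h.h₂.unit, adj_one h.h₂.unit,
          adj_smul_gram isUnit_J2 hc₁, lk_apply]
      · change adj _ _ (tr e' P' (ins 1 x)) = tr e' P' (ins 1 _)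
        rw [k1, k1, lk_apply, hψa, adj_one isUnit_J2, lk_apply]
      · change adj _ _ (tr e' P' (ins 2 x)) = tr e' P' (ins 2 _)
        rw [k2, k2, rk_apply, hψa, adj_one isUnit_J2, rk_apply])
  refine ⟨e', P', le_rfl, by norm_num, herm_of_skew isUnit_J2 J2_transpose, fun h => absurd rfl h, ⟨c, ?_, hc⟩,
    fun g hg => ?_⟩
  · rintro rfl; exact hu.ne_zero (by rw [hc, zero_smul])
  obtain ⟨x, y, hy, rfl⟩ := h.exists_eq hg
  have hy' := h.prj_sim hs hy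
  obtain ⟨B, rfl⟩ := (trGL e₂ P₂).surjective y
  rw [trGL_mem_similarityGroup, hP₂] at hy'
  have l0 : ∀ z, cj (trGL e P (kronGL (x, trGL e₂ P₂ B))) (φ₀ z) = φ₀ (cj x z) := fun z => by
    rw [hφ₀, hφ₀, cj_trGL, lk_apply, cj_kronGL, map_one, lk_apply]
  have l1 : ∀ z, cj (trGL e P (kronGL (x, trGL e₂ P₂ B))) (ψ z) = ψ (cj B z) := fun z => by
    rw [hψ, hψ, cj_rkt, cj_trGL]
  rcases go4_cases h2 hy' with ⟨m1, m2⟩ | ⟨m1, m2⟩
  · refine mem_tensorWreathSubgroup_of_perm (by norm_num) two_pos e' P' _ 1 fun i z => ?_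
    fin_cases i
    · exact ⟨_, (congrArg _ (k0 z)).trans ((l0 _).trans (k0 _).symm)⟩
    · obtain ⟨z', hz⟩ := m1 z
      exact ⟨z', (congrArg _ (k1 z)).trans ((l1 _).trans ((congrArg _ hz).trans (k1 z').symm))⟩
    · obtain ⟨z', hz⟩ := m2 z
      exact ⟨z', (congrArg _ (k2 z)).trans ((l1 _).trans ((congrArg _ hz).trans (k2 z').symm))⟩
  · refine mem_tensorWreathSubgroup_of_perm (by norm_num) two_pos e' P' _ (Equiv.swap 1 2) fun i z => ?_
    fin_cases i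
    · exact ⟨_, (congrArg _ (k0 z)).trans ((l0 _).trans (k0 _).symm)⟩
    · obtain ⟨z', hz⟩ := m1 z
      exact ⟨z', (congrArg _ (k1 z)).trans ((l1 _).trans ((congrArg _ hz).trans (k2 z').symm))⟩
    · obtain ⟨z', hz⟩ := m2 z
      exact ⟨z', (congrArg _ (k2 z)).trans ((l1 _).trans ((congrArg _ hz).trans (k1 z').symm))⟩

theorem tData_of_structure {G : Matrix ι ι F} {ε ε₁ ε₂ : F} (hG : Herm (RingEquiv.refl F) ε G) {H : Subgroup (GL ι F)}
    {a b : ℕ} (ha : 2 ≤ a) (hb : 2 ≤ b) {e : ι ≃ Fin a × Fin b} {P : GL ι F} {G₁ : Matrix (Fin a) (Fin a) F}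
    {G₂ : Matrix (Fin b) (Fin b) F} (h₁ : Herm (RingEquiv.refl F) ε₁ G₁) (h₂ : Herm (RingEquiv.refl F) ε₂ G₂)
    (hε : ε = ε₁ * ε₂) (hT : IsTensorFormStructure id (gf (RingEquiv.refl F) G) (gf (RingEquiv.refl F) G₁)
      (gf (RingEquiv.refl F) G₂) e P) (hle : H ≤ tensorProductSubgroup a b e P) :
    ∃ c : F, TData (RingEquiv.refl F) ε G H e P ε₁ ε₂ (c • G₁) G₂ := by
  obtain ⟨c, hc, h⟩ := hT
  refine ⟨c, ha, hb, hG, h₁.smul hc rfl, h₂, hε, fun h => absurd rfl h, fun h => absurd rfl h,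
    gf_ext (σ := RingEquiv.refl F) fun x y => ?_, hle⟩
  rw [← gf_trv, Matrix.smul_kronecker, gf_smul, ← formOfGram_eq_gf _ (G₁ ⊗ₖ G₂)]
  rw [gramMatrix_gf, gramMatrix_gf] at h
  exact h x y

theorem sp8_plus [Fintype F] (hodd : Odd (Fintype.card F)) {H : Subgroup (GL (Fin 4 ⊕ Fin 4) F)}
    (hH : H ≤ spGL 4 F) {e : (Fin 4 ⊕ Fin 4) ≃ Fin 2 × Fin 4} {P : GL (Fin 4 ⊕ Fin 4) F}
    {f₁ : (Fin 2 → F) → (Fin 2 → F) → F} {f₂ : (Fin 4 → F) → (Fin 4 → F) → F} (h₁ : IsSymplecticForm f₁)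
    (h₂ : IsSymmetricForm f₂) (hp : IsPlusTypeOn (fun v => f₂ v v) ⊤)
    (hT : IsTensorFormStructure id (sympForm 4 F) f₁ f₂ e P) (hle : H ≤ tensorProductSubgroup 2 4 e P) :
    ∃ (e' : (Fin 4 ⊕ Fin 4) ≃ (Fin 3 → Fin 2)) (P' : GL (Fin 4 ⊕ Fin 4) F),
      PData (RingEquiv.refl F) (Matrix.J (Fin 4) F) H e' P' (-1) (J2 F) := by
  obtain ⟨G₁, rfl⟩ : ∃ G₁, f₁ = gf (RingEquiv.refl F) G₁ := ⟨_, (sesq_of_bilinear h₁.bilinear).eq_gf⟩
  obtain ⟨G₂, rfl⟩ : ∃ G₂, f₂ = gf (RingEquiv.refl F) G₂ := ⟨_, (sesq_of_bilinear h₂.bilinear).eq_gf⟩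
  obtain ⟨c, h⟩ := tData_of_structure (herm_J 4) le_rfl (by norm_num) (herm_of_symplectic h₁)
    (herm_of_symm ((nondeg_gf_iff _ G₂).1 h₂.nondegenerate) (Matrix.ext fun i j => by
      rw [Matrix.transpose_apply, ← gf_single (RingEquiv.refl F) G₂ j i, h₂.symm, gf_single])) (mul_one _).symm hT hle
  exact exists_pData_of_plus (odd_card_iff.1 hodd) h (fixesGram_of_le_spGL hH).le_sim hp

end Cfsg.Agent.H9.SpT
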