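import Cfsg.Agent.H9.SpO4

/-! The two small non-maximal classes of `Sp₄(3)`. -/

set_option autoImplicit false
set_option linter.unusedSectionVars false

namespace Cfsg.Agent.H9.SpT

open Module Cfsg Cfsg.Geo Cfsg.Agent.H7 Cfsg.Agent.Asch
open scoped MatrixGroups Matrix Kronecker

variable {ι : Type} [Fintype ι] [DecidableEq ι] {F : Type*} [Field F]

theorem isUnit_diag {δ : F} (hδ : δ * δ = 1) : IsUnit !![1, 0; 0, -δ] :=
  IsUnit.of_mul_eq_one !![1, 0; 0, -δ] (by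
    ext i j; fin_cases i <;> fin_cases j <;> simp [hδ])

theorem exists_frame_theta (h2 : (2 : F) ≠ 0) (e : ι ≃ Fin 2 × Fin 2) {G : Matrix ι ι F}
    (hG : Herm (RingEquiv.refl F) (-1) G) {θ : Matrix ι ι F} (ha : adj (RingEquiv.refl F) G θ = -θ) {δ : F}
    (hδ : δ * δ = 1) (hθ : θ * θ = δ • 1) {u : ι → F} (hu : gf (RingEquiv.refl F) G u (θ *ᵥ u) = 0)
    (hu' : u ∉ F ∙ θ *ᵥ u) :
    ∃ P : GL ι F, pbG (RingEquiv.refl F) e P G = J2 F ⊗ₖ !![1, 0; 0, -δ] ∧
      θ = tr e P (rk (Fin 2) !![0, δ; 1, 0]) := by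
  obtain ⟨w, h1, h3⟩ := exists_sep_gf hG.unit hu'
  set f := gf (RingEquiv.refl F) G with hf
  have hB : IsBilinearForm f := (sesq_gf _ G).bilinear
  have hsk : ∀ u v, f u v = -f v u := gf_skew hG.transpose_neg
  have halt : ∀ v, f v v = 0 := alt_of_skew h2 hG.transpose_neg
  have hadj : ∀ x y, f (θ *ᵥ x) y = -f x (θ *ᵥ y) := fun x y => by
    rw [hf, gf_adj hG.unit, ha, Matrix.neg_mulVec, ← hf, b_neg_right hB]
  have hθθ : ∀ x, θ *ᵥ θ *ᵥ x = δ • x := fun x => by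
    rw [Matrix.mulVec_mulVec, hθ, Matrix.smul_mulVec, Matrix.one_mulVec]
  have h4 : f u (θ *ᵥ w) = 0 := by rw [← neg_eq_zero, ← hadj, h1]
  obtain ⟨w', hw'⟩ : ∃ w', w' = w + (δ * f w (θ *ᵥ w) / 2) • θ *ᵥ u := ⟨_, rfl⟩
  have k1 : f u w' = 1 := by simp [hw', hB.add_right, hB.smul_right, h3, hu]
  have k2 : f u (θ *ᵥ w') = 0 := by
    simp [hw', Matrix.mulVec_add, Matrix.mulVec_smul, hθθ, hB.add_right, hB.smul_right, h4, halt]
  have k3 : f w' (θ *ᵥ w') = 0 := by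
    simp only [hw', Matrix.mulVec_add, Matrix.mulVec_smul, hθθ, hB.add_right, hB.smul_right, hB.add_left,
      hB.smul_left, hadj, hu, hsk w u, h3]
    field_simp
    linear_combination (-4 * f w (θ *ᵥ w)) * hδ
  obtain ⟨P, hP, hΓ⟩ := exists_frame_gram e (G := G) (Γ := J2 F ⊗ₖ !![1, 0; 0, -δ])
    (v := fun p => ![![u, θ *ᵥ u], ![w', θ *ᵥ w']] p.1 p.2) (isUnit_kronecker isUnit_J2 (isUnit_diag hδ)) (by
      rintro ⟨i, j⟩ ⟨k, l⟩
      rw [← hf]
      fin_cases i <;> fin_cases j <;> fin_cases k <;> fin_cases l <;>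
        simp [J2, hadj, hθθ, hB.smul_right, halt, hu, k1, k2, k3, hsk w' u, hsk w' (θ *ᵥ u)])
  refine ⟨P, hΓ, ?_⟩
  obtain ⟨θ', rfl⟩ := (tr e P).surjective θ
  congr 1
  have key : ∀ a, θ' *ᵥ Pi.single a 1 = rk (Fin 2) !![0, δ; 1, 0] *ᵥ Pi.single a 1 := by
    rintro ⟨i, j⟩
    apply trv_injective e P
    rw [← tr_mulVec, hP]
    fin_cases j
    · have : rk (Fin 2) !![0, δ; 1, 0] *ᵥ Pi.single (i, 0) 1 = Pi.single (i, 1) (1 : F) := by
        ext ⟨k, l⟩; fin_cases l <;> simp [rk_apply, Matrix.one_apply, Pi.single_apply]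
      erw [this, hP]
      fin_cases i <;> rfl
    · have : rk (Fin 2) !![0, δ; 1, 0] *ᵥ Pi.single (i, 1) 1 = δ • Pi.single (i, 0) (1 : F) := by
        ext ⟨k, l⟩; fin_cases l <;> simp [rk_apply, Matrix.one_apply, Pi.single_apply]
      erw [this, trv_smul, hP]
      fin_cases i <;> exact hθθ _
  ext a b
  simpa using congrFun (key b) a

theorem anti_sa (h2 : (2 : F) ≠ 0) {δ : F} (hδ : δ * δ = 1) {z : Matrix (Fin 2 × Fin 2) (Fin 2 × Fin 2) F}
    (h1 : z * rk (Fin 2) !![0, δ; 1, 0] = -(rk (Fin 2) !![0, δ; 1, 0] * z))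
    (hz : adj (RingEquiv.refl F) (J2 F ⊗ₖ !![1, 0; 0, -δ]) z = z) :
    ∃ a b : F, z = rk (Fin 2) !![a, b * δ; -b, -a] := by
  rw [adj_eq_iff (isUnit_kronecker isUnit_J2 (isUnit_diag hδ)), map_refl] at hz
  have h := fun i j k l => congrFun (congrFun hz (i, j)) (k, l)
  have h' := fun i j k l => congrFun (congrFun h1 (i, j)) (k, l)
  simp only [Fin.forall_fin_two] at h h'
  simp [J2, rk_apply, Matrix.mul_apply, Fintype.sum_prod_type, Fin.sum_univ_two] at h h'
  refine ⟨z (0, 0) (0, 0), -z (0, 1) (0, 0), ?_⟩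
  ext ⟨i, j⟩ ⟨k, l⟩
  fin_cases i <;> fin_cases j <;> fin_cases k <;> fin_cases l <;> simp [rk_apply] <;> grind

theorem comm_skew (h2 : (2 : F) ≠ 0) {δ : F} (hδ : δ * δ = 1) {z : Matrix (Fin 2 × Fin 2) (Fin 2 × Fin 2) F}
    (h1 : z * rk (Fin 2) !![0, δ; 1, 0] = rk (Fin 2) !![0, δ; 1, 0] * z)
    (hz : adj (RingEquiv.refl F) (J2 F ⊗ₖ !![1, 0; 0, -δ]) z = -z) :
    ∃ a b c d : F, z = lk (Fin 2) !![a, b; c, -a] + d • rk (Fin 2) !![0, δ; 1, 0] := by
  rw [adj_eq_iff (isUnit_kronecker isUnit_J2 (isUnit_diag hδ)), map_refl] at hz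
  have h := fun i j k l => congrFun (congrFun hz (i, j)) (k, l)
  have h' := fun i j k l => congrFun (congrFun h1 (i, j)) (k, l)
  simp only [Fin.forall_fin_two] at h h'
  simp [J2, rk_apply, Matrix.mul_apply, Fintype.sum_prod_type, Fin.sum_univ_two] at h h'
  refine ⟨z (0, 0) (0, 0), z (0, 0) (1, 0), z (1, 0) (0, 0), z (0, 1) (0, 0), ?_⟩
  ext ⟨i, j⟩ ⟨k, l⟩
  fin_cases i <;> fin_cases j <;> fin_cases k <;> fin_cases l <;> simp [lk_apply, rk_apply] <;> grind

theorem anti_of_cj {g : GL ι F} {θ x : Matrix ι ι F} (hg : cj g θ = θ ∨ cj g θ = -θ) (h : x * θ = -(θ * x)) :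
    cj g x * θ = -(θ * cj g x) := by
  have := congrArg (cj g) h
  rw [map_neg, map_mul, map_mul] at this
  rcases hg with hg | hg <;> rw [hg] at this
  · exact this
  · rw [mul_neg, neg_mul, neg_inj] at this; exact this

theorem comm_of_cj {g : GL ι F} {θ x : Matrix ι ι F} (hg : cj g θ = θ ∨ cj g θ = -θ) (h : x * θ = θ * x) :
    cj g x * θ = θ * cj g x := by
  have := congrArg (cj g) h
  rw [map_mul, map_mul] at this
  rcases hg with hg | hg <;> rw [hg] at this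
  · exact this
  · rw [mul_neg, neg_mul, neg_inj] at this; exact this

theorem d8_sq (δ a b : F) : !![a, b * δ; -b, -a] * !![a, b * δ; -b, -a] =
    (a * a - b * b * δ) • (1 : Matrix (Fin 2) (Fin 2) F) := by
  ext i j
  fin_cases i <;> fin_cases j <;> simp [Matrix.mul_apply, Fin.sum_univ_two] <;> ring

theorem d8_anti (δ a b : F) : !![a, b * δ; -b, -a] * !![0, δ; 1, 0] = -(!![0, δ; 1, 0] * !![a, b * δ; -b, -a]) := by
  ext i j
  fin_cases i <;> fin_cases j <;> simp [Matrix.mul_apply, Fin.sum_univ_two] <;> ring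

theorem d8_adj {δ : F} (hδ : δ * δ = 1) (a b : F) :
    adj (RingEquiv.refl F) !![1, 0; 0, -δ] !![a, b * δ; -b, -a] = !![a, b * δ; -b, -a] := by
  rw [adj_eq_iff (isUnit_diag hδ), map_refl]
  ext i j
  fin_cases i <;> fin_cases j <;> simp [Matrix.mul_apply, Fin.sum_univ_two, mul_comm]

section three
variable [Fintype F] (hq : Fintype.card F = 3) (e : ι ≃ Fin 2 × Fin 2) {G : Matrix ι ι F}
  (hG : Herm (RingEquiv.refl F) (-1) G) {H : Subgroup (GL ι F)} (hH : FixesGram (RingEquiv.refl F) H G)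
  {θ : Matrix ι ι F} (ha : adj (RingEquiv.refl F) G θ = -θ) (hN : ∀ g ∈ H, cj g θ = θ ∨ cj g θ = -θ)
  {u : ι → F} (hu : gf (RingEquiv.refl F) G u (θ *ᵥ u) = 0) (hu' : u ∉ F ∙ θ *ᵥ u)
include hq e hG hH ha hN hu hu'

theorem exists_field_of_theta (hθ : θ * θ = 1) :
    ∃ K : Subalgebra F (Matrix ι ι F), IsFieldSubalgebra 2 K ∧ (∀ k ∈ K, adj (RingEquiv.refl F) G k = k) ∧
      H ≤ subalgebraNormalizer K := by
  haveI : Nonempty ι := ⟨e.symm (0, 0)⟩
  have h2 := H8.two_ne_zero_of_card_three hq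
  obtain ⟨P, hΓ, rfl⟩ := exists_frame_theta h2 e hG ha (mul_one 1) (by rw [hθ, one_smul]) hu hu'
  have hadj : ∀ a b : F, adj (RingEquiv.refl F) G (tr e P (rk (Fin 2) !![a, b * 1; -b, -a])) =
      tr e P (rk (Fin 2) !![a, b * 1; -b, -a]) := fun a b => by
    rw [adj_tr hG.unit, hΓ, rk_apply, adj_kronecker isUnit_J2 (isUnit_diag (mul_one 1)), adj_one isUnit_J2,
      d8_adj (mul_one 1)]
  have hsq : ∀ a b : F, tr e P (rk (Fin 2) !![a, b * 1; -b, -a]) * tr e P (rk (Fin 2) !![a, b * 1; -b, -a]) =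
      (a * a - b * b * 1) • 1 := fun a b => by
    rw [← map_mul (tr e P), ← map_mul (rk (Fin 2)), d8_sq, map_smul, map_smul, map_one, map_one]
  have hk : tr e P (rk (Fin 2) !![0, 1 * 1; -1, -0]) * tr e P (rk (Fin 2) !![0, 1 * 1; -1, -0]) =
      (0 : F) • tr e P (rk (Fin 2) !![0, 1 * 1; -1, -0]) - (1 : F) • 1 := by
    rw [hsq]; simp
  refine ⟨H8.quadAlg _ hk, H8.isFieldSubalgebra_quadAlg hk fun x hx => not_sq_neg_one hq x (by linear_combination hx),
    ?_, fun g hg => H8.mem_subalgebraNormalizer_quadAlg hk ?_⟩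
  · rintro _ ⟨a, b, rfl⟩
    rw [adj_add, adj_smul_one hG.unit, adj_smul, hadj]
    rfl
  · obtain ⟨z, hz⟩ := (tr e P).surjective (cj g (tr e P (rk (Fin 2) !![0, 1 * 1; -1, -0])))
    obtain ⟨a, b, rfl⟩ := anti_sa h2 (mul_one 1) (z := z) ((tr e P).injective (by
      rw [map_neg, map_mul, map_mul, hz]
      refine anti_of_cj (hN g hg) ?_
      rw [← map_mul (tr e P), ← map_mul (tr e P), ← map_mul (rk (Fin 2)), ← map_mul (rk (Fin 2)), d8_anti, map_neg,
        map_neg])) ((tr e P).injective (by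
      rw [← hΓ, ← adj_tr hG.unit, hz, adj_cj hG.unit (hH.le_sim hg), hadj]))
    have h1 := hsq a b
    rw [hz, ← map_mul, hsq, map_smul, map_one] at h1
    have h3 := smul_left_injective F (one_ne_zero (α := Matrix ι ι F)) h1
    have h4 : a = 0 := by
      rcases H8.sq_cases_three hq a with h | h
      · exact h
      · rcases H8.sq_cases_three hq b with h' | h'
        · exact absurd (by rw [h'] at h3; linear_combination -h3 - h) h2
        · exact absurd (by linear_combination -h3 - h + h') (one_ne_zero (α := F))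
    refine ⟨0, b, ?_⟩
    rw [← hz, zero_smul, zero_add, ← map_smul, ← map_smul, h4]
    congr 2
    ext i j
    fin_cases i <;> fin_cases j <;> simp

theorem exists_rdata_of_theta (hθ : θ * θ = -1) :
    ∃ R, RData 2 R ∧ FixesGram (RingEquiv.refl F) R G ∧ GNorms H R := by
  have h2 := H8.two_ne_zero_of_card_three hq
  have hδ : (-1 : F) * -1 = 1 := by ring
  obtain ⟨P, hΓ, hθ'⟩ := exists_frame_theta h2 e hG ha hδ (by rw [hθ, neg_one_smul]) hu hu'
  let S : Set (Matrix ι ι F) := {x | (x * θ = θ * x ∧ adj (RingEquiv.refl F) G x = -x ∧ x * x = -1) ∨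
    (x * θ = -(θ * x) ∧ adj (RingEquiv.refl F) G x = x ∧ x * x = 1)}
  have hS : ∀ x ∈ S, (∃ y, y * y = -1 ∧ x = tr e P (lk (Fin 2) y)) ∨ ∃ (c : F) (y : Matrix (Fin 2) (Fin 2) F),
      (y = !![0, -1; 1, 0] ∨ y = !![1, 0; 0, -1] ∨ y = !![0, 1; 1, 0]) ∧ x = c • tr e P (rk (Fin 2) y) := by
    intro x hx
    obtain ⟨z, rfl⟩ := (tr e P).surjective x
    simp only [S, Set.mem_ofPred_eq, hθ', adj_tr hG.unit, hΓ, ← map_mul (tr e P), ← map_neg (tr e P),
      ← map_one (tr e P), EmbeddingLike.apply_eq_iff_eq] at hx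
    rcases hx with ⟨h1, h3, h4⟩ | ⟨h1, h3, h4⟩
    · obtain ⟨a, b, c, d, rfl⟩ := comm_skew h2 hδ h1 h3
      by_cases hd : d = 0
      · subst hd
        rw [zero_smul, add_zero] at h4 ⊢
        exact Or.inl ⟨_, lk_injective (β := Fin 2) (by rw [map_mul, h4, map_neg, map_one]), rfl⟩
      · have h := fun i j k l => congrFun (congrFun h4 (i, j)) (k, l)
        simp only [Fin.forall_fin_two] at h
        simp [lk_apply, rk_apply, Matrix.mul_apply, Fintype.sum_prod_type, Fin.sum_univ_two] at h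
        have : a = 0 ∧ b = 0 ∧ c = 0 := by grind
        obtain ⟨rfl, rfl, rfl⟩ := this
        refine Or.inr ⟨d, _, Or.inl rfl, ?_⟩
        rw [← map_smul (tr e P), EmbeddingLike.apply_eq_iff_eq, add_eq_right, map_eq_zero_iff _ lk_injective]
        ext i j; fin_cases i <;> fin_cases j <;> simp
    · obtain ⟨a, b, rfl⟩ := anti_sa h2 hδ h1 h3
      rw [← map_mul (rk (Fin 2)), d8_sq, map_smul, map_one] at h4
      have h5 := smul_left_injective F (one_ne_zero (α := Matrix (Fin 2 × Fin 2) (Fin 2 × Fin 2) F))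
        (h4.trans (one_smul F _).symm)
      right
      rcases H8.sq_cases_three hq a with h | h
      · refine ⟨-b, _, Or.inr (Or.inr rfl), ?_⟩
        rw [← map_smul, ← map_smul, h]
        congr 2
        ext i j; fin_cases i <;> fin_cases j <;> simp
      · have h6 : b = 0 := mul_self_eq_zero.1 (by linear_combination h5 - h)
        refine ⟨a, _, Or.inr (Or.inl rfl), ?_⟩
        rw [← map_smul, ← map_smul, h6]
        congr 2
        ext i j; fin_cases i <;> fin_cases j <;> simp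
  refine exists_rdata S ?_ ?_ ?_ ?_ ?_
  · rintro x (h | h)
    exacts [Or.inr h.2.2, Or.inl h.2.2]
  · intro x hx' y hy'
    rcases hS x hx' with ⟨x, hx, rfl⟩ | ⟨c, x, hx, rfl⟩ <;> rcases hS y hy' with ⟨y, hy, rfl⟩ | ⟨d, y, hy, rfl⟩
    · simp only [← map_mul, ← map_neg]
      exact (q8_comm hq hx hy).imp (fun h => by rw [h]) fun h => by rw [h]
    · left; rw [mul_smul_comm, smul_mul_assoc, ← map_mul, ← map_mul, lk_mul_rk, rk_mul_lk]
    · left; rw [mul_smul_comm, smul_mul_assoc, ← map_mul, ← map_mul, lk_mul_rk, rk_mul_lk]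
    · have : x * y = y * x ∨ x * y = -(y * x) := by
        rcases hx with rfl | rfl | rfl <;> rcases hy with rfl | rfl | rfl <;> simp
      simp only [smul_mul_smul_comm, ← map_mul, mul_comm d c, ← smul_neg, ← map_neg]
      exact this.imp (fun h => by rw [h]) fun h => by rw [h]
  · intro A hA z
    obtain ⟨z, rfl⟩ := (tr e P).surjective z
    have hD : ∀ a b : F, a * a + b * b = 1 → tr e P (rk (Fin 2) !![a, b * -1; -b, -a]) ∈ A := fun a b h =>
      hA _ (Or.inr ⟨by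
        rw [hθ', ← map_mul (tr e P), ← map_mul (tr e P), ← map_mul (rk (Fin 2)), ← map_mul (rk (Fin 2)), d8_anti,
          map_neg, map_neg], by
        rw [adj_tr hG.unit, hΓ, rk_apply, adj_kronecker isUnit_J2 (isUnit_diag hδ), adj_one isUnit_J2, d8_adj hδ], by
        rw [← map_mul (tr e P), ← map_mul (rk (Fin 2)), d8_sq, map_smul, map_smul, map_one, map_one, mul_neg_one,
          sub_neg_eq_add, h, one_smul]⟩)
    refine mem_of_lk_rk (A := A.comap (tr e P).toAlgHom) (q8_span hq ((tr e P).toAlgHom.comp (lk (Fin 2)))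
      fun x hx => hA _ (Or.inl ⟨?_, ?_, ?_⟩)) (fun y => ?_) z
    · change tr e P (lk _ _) * _ = _ * tr e P (lk _ _)
      rw [hθ', ← map_mul, ← map_mul, lk_mul_rk, rk_mul_lk]
    · change adj _ _ (tr e P (lk _ _)) = -tr e P (lk _ _)
      have h1 := adj_J2_mul x
      rw [q8_det hq hx, one_smul] at h1
      have h3 : adj (RingEquiv.refl F) (J2 F) x = -x := by
        rw [← mul_one (adj _ _ x), ← neg_neg (1 : Matrix (Fin 2) (Fin 2) F), ← hx, mul_neg, ← mul_assoc, h1, one_mul]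
      rw [adj_tr hG.unit, hΓ, lk_apply, adj_kronecker isUnit_J2 (isUnit_diag hδ), adj_one (isUnit_diag hδ), h3,
        ← lk_apply, ← lk_apply, map_neg, map_neg]
    · rw [← map_mul, hx, map_neg, map_one]
    · have h1 := hD 1 0 (by ring)
      have h3 := hD 0 1 (by ring)
      have h4 : tr e P (rk (Fin 2) !![0, -1; 1, 0]) ∈ A := hθ' ▸ hA _ (Or.inl ⟨rfl, ha, hθ⟩)
      have h5 : y = ((y 0 0 + y 1 1) / 2) • 1 + ((y 0 0 - y 1 1) / 2) • !![1, 0 * -1; -0, -1] +
          (-(y 0 1 + y 1 0) / 2) • !![0, 1 * -1; -1, -0] + ((y 1 0 - y 0 1) / 2) • !![0, -1; 1, 0] := by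
        ext i j
        fin_cases i <;> fin_cases j <;> simp <;> field_simp <;> ring
      change tr e P (rk _ y) ∈ A
      rw [h5]
      simp only [map_add, map_smul, map_one]
      exact add_mem (add_mem (add_mem (A.smul_mem A.one_mem _) (A.smul_mem h1 _)) (A.smul_mem h3 _)) (A.smul_mem h4 _)
  · rintro x (⟨-, h1, h3⟩ | ⟨-, h1, h3⟩)
    · exact fix_of_adj hG.unit (by rw [h1, neg_mul, h3, neg_neg])
    · exact fix_of_adj hG.unit (by rw [h1, h3])
  · rintro g hg x (⟨h1, h3, h4⟩ | ⟨h1, h3, h4⟩)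
    · exact Or.inl ⟨comm_of_cj (hN g hg) h1, by rw [adj_cj hG.unit (hH.le_sim hg), h3, map_neg],
        by rw [← map_mul, h4, map_neg, map_one]⟩
    · exact Or.inr ⟨anti_of_cj (hN g hg) h1, by rw [adj_cj hG.unit (hH.le_sim hg), h3],
        by rw [← map_mul, h4, map_one]⟩

end three

section three
variable [Fintype F] (hq : Fintype.card F = 3) (e : ι ≃ Fin 2 × Fin 2) {G : Matrix ι ι F}
  (hG : Herm (RingEquiv.refl F) (-1) G) {H : Subgroup (GL ι F)} (hH : FixesGram (RingEquiv.refl F) H G)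
include hq e hG hH

theorem exists_field_of_pair {D : Fin 2 → Submodule F (ι → F)} (hD : IsMDecomposition 2 D)
    (hts : ∀ i, IsTotallySingularFor (gf (RingEquiv.refl F) G) (D i)) (hle : H ≤ decompositionStabilizer D) :
    ∃ K : Subalgebra F (Matrix ι ι F), IsFieldSubalgebra 2 K ∧ (∀ k ∈ K, adj (RingEquiv.refl F) G k = k) ∧
      H ≤ subalgebraNormalizer K := by
  have h2 := H8.two_ne_zero_of_card_three hq
  have hc : IsCompl (D 0) (D 1) := ⟨hD.indep.pairwiseDisjoint (by simp), codisjoint_iff.2 (by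
    rw [eq_top_iff, ← hD.iSup_eq_top]
    exact iSup_le fun i => by fin_cases i; exacts [le_sup_left, le_sup_right])⟩
  obtain ⟨θ, h0, h1⟩ : ∃ θ : Matrix ι ι F, (∀ a ∈ D 0, θ *ᵥ a = a) ∧ ∀ b ∈ D 1, θ *ᵥ b = -b :=
    ⟨LinearMap.toMatrix' (LinearMap.ofIsCompl hc (D 0).subtype (-(D 1).subtype)),
      fun a ha => by rw [LinearMap.toMatrix'_mulVec]; exact LinearMap.ofIsCompl_apply_left hc ⟨a, ha⟩,
      fun a ha => by rw [LinearMap.toMatrix'_mulVec]; exact LinearMap.ofIsCompl_apply_right hc ⟨a, ha⟩⟩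
  have hab : ∀ x, ∃ a ∈ D 0, ∃ b ∈ D 1, a + b = x := fun x => Submodule.mem_sup.1 (hc.sup_eq_top ▸ Submodule.mem_top)
  have hext : ∀ {x y : Matrix ι ι F}, (∀ a ∈ D 0, x *ᵥ a = y *ᵥ a) → (∀ a ∈ D 1, x *ᵥ a = y *ᵥ a) → x = y :=
    fun k0 k1 => Matrix.ext_iff_mulVec.2 fun v => by
      obtain ⟨a, ha, b, hb, rfl⟩ := hab v
      rw [Matrix.mulVec_add, Matrix.mulVec_add, k0 a ha, k1 b hb]
  have hB : IsBilinearForm (gf (RingEquiv.refl F) G) := (sesq_gf _ G).bilinear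
  have hs : IsSymplecticForm (gf (RingEquiv.refl F) G) :=
    isSymplecticForm_gf hG.unit hG.transpose_neg (alt_of_skew h2 hG.transpose_neg)
  obtain ⟨b, hb, hb0⟩ := Submodule.exists_mem_ne_zero_of_ne_bot (p := D 1) (fun h => by
    have := hD.finrank_eq 1; rw [h] at this; simp at this)
  obtain ⟨a, ha, ha0, hab0⟩ := exists_ne_zero_perp hs (hD.finrank_eq 0).ge b
  refine exists_field_of_theta hq e hG hH (θ := θ) (u := a + b) (adj_unique hG.unit fun x y => ?_) (fun g hg => ?_)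
    ?_ (fun h => ?_) (hext (fun a ha => ?_) fun a ha => ?_)
  · obtain ⟨a, ha, b, hb, rfl⟩ := hab x
    obtain ⟨c, hc, d, hd, rfl⟩ := hab y
    simp [Matrix.mulVec_add, Matrix.neg_mulVec, h0 _ ha, h0 _ hc, h1 _ hb, h1 _ hd, hB.add_left, hB.add_right,
      b_neg_left hB, b_neg_right hB, hts 0 a ha c hc, hts 1 b hb d hd, add_comm]
  · obtain ⟨σ, hσ⟩ := hle hg
    have k : ∀ i, ∀ a ∈ D i, (g : Matrix ι ι F) *ᵥ a ∈ D (σ i) := fun i a ha => hσ i ▸ ⟨a, ha, rfl⟩
    have k' : (σ 0 = 0 ∧ σ 1 = 1) ∨ (σ 0 = 1 ∧ σ 1 = 0) := by clear hσ k; revert σ; decide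
    rcases k' with ⟨k0, k1⟩ | ⟨k0, k1⟩
    · refine Or.inl ((cj_eq_self_iff g θ).2 (hext (fun a ha => ?_) fun a ha => ?_))
      · rw [← Matrix.mulVec_mulVec, ← Matrix.mulVec_mulVec, h0 a ha, h0 _ (k0 ▸ k 0 a ha)]
      · rw [← Matrix.mulVec_mulVec, ← Matrix.mulVec_mulVec, h1 a ha, h1 _ (k1 ▸ k 1 a ha), Matrix.mulVec_neg]
    · refine Or.inr (g.isUnit.mul_right_cancel ?_)
      rw [cj_mul_self, neg_mul]
      refine hext (fun a ha => ?_) fun a ha => ?_
      · rw [Matrix.neg_mulVec, ← Matrix.mulVec_mulVec, ← Matrix.mulVec_mulVec, h0 a ha, h1 _ (k0 ▸ k 0 a ha), neg_neg]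
      · rw [Matrix.neg_mulVec, ← Matrix.mulVec_mulVec, ← Matrix.mulVec_mulVec, h1 a ha, h0 _ (k1 ▸ k 1 a ha),
          Matrix.mulVec_neg]
  · simp [Matrix.mulVec_add, h0 _ ha, h1 _ hb, hB.add_left, hB.add_right, b_neg_right hB, hs.alternating, hab0,
      hs.skew b a]
  · obtain ⟨c, h⟩ := Submodule.mem_span_singleton.1 h
    rw [Matrix.mulVec_add, h0 _ ha, h1 _ hb] at h
    have h3 : (c - 1) • a = (c + 1) • b := by linear_combination (norm := module) h
    have h4 : (c - 1) • a = 0 := (Submodule.disjoint_def.1 hc.disjoint) _ ((D 0).smul_mem _ ha)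
      (h3 ▸ (D 1).smul_mem _ hb)
    rw [h4] at h3
    exact h2 (by linear_combination (smul_eq_zero.1 h3.symm).resolve_right hb0 - (smul_eq_zero.1 h4).resolve_right ha0)
  · rw [← Matrix.mulVec_mulVec, h0 a ha, h0 a ha, Matrix.one_mulVec]
  · rw [← Matrix.mulVec_mulVec, h1 a ha, Matrix.mulVec_neg, h1 a ha, neg_neg, Matrix.one_mulVec]

theorem exists_rdata_of_unitary {K : Subalgebra F (Matrix ι ι F)} (hK : IsFieldSubalgebra 2 K)
    (hc : IsAdjointClosedFor (gf (RingEquiv.refl F) G) K) (hns : ¬ IsSelfAdjointFor (gf (RingEquiv.refl F) G) K)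
    (hle : H ≤ subalgebraNormalizer K) : ∃ R, RData 2 R ∧ FixesGram (RingEquiv.refl F) R G ∧ GNorms H R := by
  haveI : Nonempty ι := ⟨e.symm (0, 0)⟩
  have h2 := H8.two_ne_zero_of_card_three hq
  rw [isSelfAdjointFor_iff hG.unit] at hns
  obtain ⟨z, hz, hz'⟩ : ∃ z ∈ K, adj (RingEquiv.refl F) G z ≠ z := by by_contra! h; exact hns h
  obtain ⟨θ, hθK, hθ0, ha⟩ : ∃ θ ∈ K, θ ≠ 0 ∧ adj (RingEquiv.refl F) G θ = -θ := by
    obtain ⟨z', h1, h3⟩ := hc z hz
    exact ⟨z - adj (RingEquiv.refl F) G z, K.sub_mem hz (adj_unique hG.unit h3 ▸ h1), sub_ne_zero.2 hz'.symm,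
      by rw [adj_sub, hG.adj_adj, neg_sub]⟩
  obtain ⟨y, -, hy⟩ := hK.inv θ hθK hθ0
  have hu : IsUnit θ := IsUnit.of_mul_eq_one y hy
  obtain ⟨d, hd⟩ := scalar_of_sa hG.unit hK hns (K.mul_mem hθK hθK) (by rw [adj_mul hG.unit, ha, neg_mul_neg])
  have hne : ∀ c : F, θ ≠ c • 1 := by
    rintro c rfl
    rw [adj_smul_one hG.unit, eq_neg_iff_add_eq_zero] at ha
    erw [← two_smul F, smul_eq_zero] at ha
    exact hθ0 (ha.resolve_left h2)
  have hθ : θ * θ = -1 := by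
    rcases H8.sq_cases_three hq d with rfl | h
    · exact absurd (hd.trans (zero_smul _ _)) (hu.mul hu).ne_zero
    · rcases mul_self_eq_one_iff.1 h with rfl | rfl
      · rcases eq_or_eq_of_mul_sub hK.comm hK.inv (b := -1) hθK K.one_mem (by
          rw [sub_neg_eq_add, sub_mul, mul_add, hd]; simp [add_comm]) with h | h
        · exact absurd (h.trans (one_smul F _).symm) (hne _)
        · exact absurd (h.trans (neg_one_smul F _).symm) (hne _)
      · rw [hd, neg_one_smul]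
  have hsym : IsSymmetricForm (gf (RingEquiv.refl F) (G * θ)) := isSymmetricForm_gf (hG.unit.mul hu) (by
    rw [Matrix.transpose_mul, hG.transpose_neg, mul_neg, ← mul_adj_map (σ := RingEquiv.refl F) hG.unit, ha, map_refl,
      mul_neg, neg_neg])
  obtain ⟨u, -, hu0, hu1⟩ := H8.exists_sing_ne_zero (H8.nd_symQF hsym h2) (W := ⊤) (by
    rw [finrank_top, Module.finrank_fintype_fun_eq_card, card_eq_of_equiv_prod e]; norm_num)
  refine exists_rdata_of_theta hq e hG hH ha (fun g hg => ?_) (u := u) (by rw [gf_mulVec_right]; exact hu1)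
    (fun h => ?_) hθ
  · have h1 : cj g θ ∈ K := (hle hg θ).1 hθK
    refine eq_or_eq_of_mul_sub hK.comm hK.inv h1 hθK ?_
    rw [sub_neg_eq_add, sub_mul, mul_add, mul_add, ← map_mul, hθ, map_neg, map_one, hK.comm _ h1 _ hθK]
    abel
  · obtain ⟨c, h⟩ := Submodule.mem_span_singleton.1 h
    have h1 := congrArg (θ *ᵥ ·) h
    simp only [Matrix.mulVec_smul, Matrix.mulVec_mulVec, hθ, Matrix.neg_mulVec, Matrix.one_mulVec] at h1
    rw [← h1] at h
    have h3 : (c * c + 1) • u = 0 := by linear_combination (norm := module) -h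
    exact not_sq_neg_one hq c (eq_neg_of_add_eq_zero_left ((smul_eq_zero.1 h3).resolve_right hu0))

end three

end Cfsg.Agent.H9.SpT
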