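import Cfsg.Agent.H9.SpQ8

/-! Maximal subgroups of symplectic groups: every class with its arithmetic. -/

set_option autoImplicit false
set_option linter.unusedSectionVars false

namespace Cfsg.Agent.H9.SpT

open Module Cfsg Cfsg.Geo Cfsg.Agent.H7 Cfsg.Agent.Asch
open scoped MatrixGroups Matrix Kronecker

variable {F : Type*} [Field F] [Fintype F] {m : ℕ} {H : Subgroup (GL (Fin m ⊕ Fin m) F)}

theorem eq_inf_of_max {G : Type*} [Group G] {K H X : Subgroup G} (hH : IsMaximalIn K H) (h : H ≤ X) (hX : ¬ K ≤ X) :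
    H = X ⊓ K :=
  ((hH.2 _ (le_inf h hH.1.le) inf_le_right).resolve_right fun h' => hX (h' ▸ inf_le_left)).symm

theorem card_sum (m : ℕ) : Fintype.card (Fin m ⊕ Fin m) = 2 * m := by simp [two_mul]

theorem five_le_of_odd (h : Odd (Fintype.card F)) (h3 : Fintype.card F ≠ 3) : 5 ≤ Fintype.card F := by
  have := Fintype.one_lt_card (α := F)
  obtain ⟨k, hk⟩ := h
  omega

section
variable (hm : 2 ≤ m) (hH : IsMaximalIn (spGL m F) H)
include hH

theorem max_decomp {t k : ℕ} {D : Fin t → Submodule F (Fin m ⊕ Fin m → F)} (hD : IsMDecomposition k D) (hk : 2 ≤ k)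
    (h : H ≤ decompositionStabilizer D) : H = decompositionStabilizer D ⊓ spGL m F :=
  eq_inf_of_max hH h ((hasT_spGL m).not_le_decompositionStabilizer hD hk)

include hm

theorem max_field {r : ℕ} (hr : 2 ≤ r) {K : Subalgebra F (Matrix (Fin m ⊕ Fin m) (Fin m ⊕ Fin m) F)}
    (hK : IsFieldSubalgebra r K) (h : H ≤ subalgebraNormalizer K) : H = subalgebraNormalizer K ⊓ spGL m F :=
  eq_inf_of_max hH h ((hasT_spGL m).not_le_subalgebraNormalizer (by rw [card_sum]; omega) hr hK)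

theorem max_quad (h2 : ¬ Odd (Fintype.card F)) {Q : (Fin m ⊕ Fin m → F) → F} (hQ : IsNondegenerateQuadraticForm Q)
    (hp : ∀ u v, QuadraticMap.polar Q u v = sympForm m F u v) (h : H ≤ quadSimilarityGroup Q) :
    H = quadSimilarityGroup Q ⊓ spGL m F :=
  eq_inf_of_max hH h ((hasT_spGL m).not_le_quadSimilarityGroup (by rw [card_sum]; omega)
    (two_eq_zero_of_not_odd h2) hQ hp)

theorem max_rdata {k : ℕ} (hk : 2 * m = 2 ^ k) {R : Subgroup (GL (Fin m ⊕ Fin m) F)} (hR : RData 2 R)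
    (hf : FixesGram (RingEquiv.refl F) R (Matrix.J (Fin m) F)) (hN : H ≤ subgroupNormalizer R) :
    IsSymplecticTypeGroup 2 R ∧ ActsAbsolutelyIrreducibly (matrixSet R) ∧ R ≤ similarityGroup (sympForm m F) ∧
      Nat.card R = 2 ^ (1 + 2 * k) ∧ Nat.card (Subgroup.center R) = 2 ∧ IsOfMinusType k R ∧
      H = subgroupNormalizer R ⊓ spGL m F := by
  have hc := card_sum m
  have hG := (herm_J (F := F) m).unit
  refine ⟨hR.isSymplecticTypeGroup (by omega) (hR.exp_four (by omega) hG hf), hR.abs.acts, hf.le_sim,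
    hR.card_eq_two (by omega) hG hf (hc.trans hk), hR.card_center_two (by omega) hG hf,
    hR.isOfMinusType (by omega) hG hf (isSymplecticForm_sympForm m F).alternating (hc.trans hk),
    eq_inf_of_max hH hN ((hasT_spGL m).not_le_subgroupNormalizer (by omega) hR fun x hx => ?_)⟩
  exact ((fixesGram_iff _ _ _).1 hf) _ (mem_matrixSet hx)

end

/-- the classes of maximal subgroups of `Sp_{2m}(q)` with their arithmetic -/
def SpMax (m : ℕ) (H : Subgroup (GL (Fin m ⊕ Fin m) F)) : Prop :=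
  (∃ W : Submodule F (Fin m ⊕ Fin m → F), W ≠ ⊥ ∧ IsTotallySingularFor (sympForm m F) W ∧
    H = subspaceStabilizer W ⊓ spGL m F) ∨
  (3 ≤ m ∧ ∃ W : Submodule F (Fin m ⊕ Fin m → F), W ≠ ⊥ ∧ IsNondegenerateOn (sympForm m F) W ∧ finrank F W < m ∧
    H = subspaceStabilizer W ⊓ spGL m F) ∨
  (∃ t k : ℕ, t * k = m ∧ 2 ≤ t ∧ (k = 1 → 3 ≤ Fintype.card F) ∧ ∃ D : Fin t → Submodule F (Fin m ⊕ Fin m → F),
    IsNondegenerateMDecomposition (sympForm m F) (2 * k) D ∧ H = decompositionStabilizer D ⊓ spGL m F) ∨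
  (Odd (Fintype.card F) ∧ ∃ D : Fin 2 → Submodule F (Fin m ⊕ Fin m → F), IsMDecomposition m D ∧
    (∀ i, IsTotallySingularFor (sympForm m F) (D i)) ∧ H = decompositionStabilizer D ⊓ spGL m F) ∨
  (∃ r : ℕ, r.Prime ∧ r ∣ m ∧ ∃ K : Subalgebra F (Matrix (Fin m ⊕ Fin m) (Fin m ⊕ Fin m) F), IsFieldSubalgebra r K ∧
    IsSelfAdjointFor (sympForm m F) K ∧ (∀ k ∈ K, ∀ v, sympForm m F (k *ᵥ v) v = 0) ∧
    H = subalgebraNormalizer K ⊓ spGL m F) ∨
  (Odd (Fintype.card F) ∧ ∃ K : Subalgebra F (Matrix (Fin m ⊕ Fin m) (Fin m ⊕ Fin m) F), IsFieldSubalgebra 2 K ∧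
    IsAdjointClosedFor (sympForm m F) K ∧ ¬ IsSelfAdjointFor (sympForm m F) K ∧
    H = subalgebraNormalizer K ⊓ spGL m F) ∨
  (Odd (Fintype.card F) ∧ ∃ a n : ℕ, a * n = m ∧ 3 ≤ n ∧ (n = 3 → 5 ≤ Fintype.card F) ∧
    ∃ (e : (Fin m ⊕ Fin m) ≃ Fin (2 * a) × Fin n) (P : GL (Fin m ⊕ Fin m) F)
      (f₁ : (Fin (2 * a) → F) → (Fin (2 * a) → F) → F) (f₂ : (Fin n → F) → (Fin n → F) → F),
      IsSymplecticForm f₁ ∧ IsSymmetricForm f₂ ∧ IsTensorFormStructure id (sympForm m F) f₁ f₂ e P ∧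
      H = tensorProductSubgroup (2 * a) n e P ⊓ spGL m F) ∨
  (∃ (F₀ : Subfield F) (r : ℕ) (P : GL (Fin m ⊕ Fin m) F) (ζ : F), r.Prime ∧ Fintype.card F = Nat.card F₀ ^ r ∧
    ζ ≠ 0 ∧ IsFormRationalStructure (sympForm m F) F₀ ζ P ∧ H = subfieldSubgroup F₀ P ⊓ spGL m F) ∨
  (∃ k : ℕ, 2 * m = 2 ^ k ∧ ∃ (p : ℕ) (R : Subgroup (GL (Fin m ⊕ Fin m) F)), p.Prime ∧ Odd p ∧ Fintype.card F = p ∧
    IsSymplecticTypeGroup 2 R ∧ ActsAbsolutelyIrreducibly (matrixSet R) ∧ R ≤ similarityGroup (sympForm m F) ∧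
    Nat.card R = 2 ^ (1 + 2 * k) ∧ Nat.card (Subgroup.center R) = 2 ∧ IsOfMinusType k R ∧
    H = subgroupNormalizer R ⊓ spGL m F) ∨
  (Odd (Fintype.card F) ∧ ∃ k t : ℕ, 2 * m = (2 * k) ^ t ∧ 3 ≤ t ∧ (k = 1 → 5 ≤ Fintype.card F) ∧
    ∃ (e : (Fin m ⊕ Fin m) ≃ (Fin t → Fin (2 * k))) (P : GL (Fin m ⊕ Fin m) F)
      (f₁ : (Fin (2 * k) → F) → (Fin (2 * k) → F) → F), IsSymplecticForm f₁ ∧
      IsTensorPowerFormStructure id (sympForm m F) f₁ e P ∧ H = tensorWreathSubgroup (2 * k) t e P ⊓ spGL m F) ∨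
  (¬ Odd (Fintype.card F) ∧ ∃ Q : (Fin m ⊕ Fin m → F) → F, IsNondegenerateQuadraticForm Q ∧
    (∀ u v, QuadraticMap.polar Q u v = sympForm m F u v) ∧ H = quadSimilarityGroup Q ⊓ spGL m F) ∨
  InSymplecticResidualClass H

theorem subfield_ne_top {F₀ : Subfield F} {r : ℕ} (hr : r.Prime) (h : Fintype.card F = Nat.card F₀ ^ r) :
    F₀ ≠ ⊤ := by
  rintro rfl
  have h1 : Nat.card (⊤ : Subfield F) = Fintype.card F := by
    rw [← Nat.card_eq_fintype_card]; exact Nat.card_congr Subfield.topEquiv.toEquiv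
  rw [h1] at h
  have := (Nat.pow_eq_self_iff (Fintype.one_lt_card (α := F))).1 h.symm
  exact hr.one_lt.ne' this

theorem sp_max (hm : 2 ≤ m) (hH : IsMaximalIn (spGL m F) H) : SpMax m H := by
  have hf := fixesGram_of_le_spGL hH.1.le
  have hs := isSymplecticForm_sympForm m F
  have hc := card_sum m
  haveI : Nonempty (Fin m ⊕ Fin m) := Fintype.card_pos_iff.1 (by omega)
  have hdec : ∀ (t k : ℕ) (D : Fin t → Submodule F (Fin m ⊕ Fin m → F)),
      IsNondegenerateMDecomposition (sympForm m F) k D → H ≤ decompositionStabilizer D → SpMax m H := by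
    intro t k D hD h
    have ht := hD.decomp.two_le
    have h1 := H8.IsMDecomposition.mul_eq hD.decomp
    have h2 := even_finrank (hf := hs) (hD.nondegenerate ⟨0, by omega⟩)
    rw [hD.decomp.finrank_eq, even_iff_two_dvd] at h2
    obtain ⟨k, rfl⟩ := h2
    have h3 := hD.decomp.pos
    by_cases h4 : k = 1 → 3 ≤ Fintype.card F
    · iterate 2 right
      exact Or.inl ⟨t, k, by nlinarith, ht, h4, D, hD, max_decomp hH hD.decomp (by omega) h⟩
    · push Not at h4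
      obtain ⟨rfl, h4⟩ := h4
      have h5 : Fintype.card F = 2 := by have := Fintype.one_lt_card (α := F); omega
      obtain ⟨Q, k1, k2, k3⟩ := exists_quad_planes h5 hs hD hf h
      have h6 : ¬ Odd (Fintype.card F) := by rw [h5]; decide
      iterate 10 right
      exact Or.inl ⟨h6, Q, k1, k2, max_quad hm hH h6 k1 k2 k3⟩
  by_cases hI : Irred H
  swap
  · rcases (herm_J m).reducible (trVal_of_alt hs.alternating) hf.le_sim hI with ⟨W, h1, h2, h3⟩ |
      ⟨W, h1, h2, h3, h4⟩ | ⟨k, D, h1, h2, -⟩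
    · refine Or.inl ⟨W, h1, h2, eq_inf_of_max hH h3 ((hasT_spGL m).not_le_subspaceStabilizer h1 ?_)⟩
      rintro rfl
      obtain ⟨i⟩ := ‹Nonempty (Fin m ⊕ Fin m)›
      obtain ⟨x, hx⟩ := (hs.nondegenerate (Pi.single i 1) (by simp)).1
      exact hx (h2 _ trivial _ trivial)
    · obtain ⟨k, hk⟩ := even_finrank (hf := hs) h2
      have h5 : finrank F W ≠ 0 := fun h => h1 (Submodule.finrank_eq_zero.1 h)
      refine Or.inr (Or.inl ⟨by omega, W, h1, h2, by omega,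
        eq_inf_of_max hH h4 ((hasT_spGL m).not_le_subspaceStabilizer h1 ?_)⟩)
      rintro rfl
      rw [finrank_top, Module.finrank_fintype_fun_eq_card] at h3
      omega
    · exact hdec _ _ _ h1 h2
  rcases sp_irr m hm hH.1.le hI with ⟨t, k, D, h1, h⟩ | ⟨k, D, h1, h2, h3, h⟩ |
    ⟨F₀, r, P, ζ, h1, h2, h3, h4, h⟩ | ⟨R, p, k, -, -, -, h4, h5, h6, -, -, -, h, h7, h8, h9⟩ | ⟨Q, h1, h2, h3, h⟩ |
    ⟨r, K, h1, h2, h3, h4, h⟩ | ⟨K, h1, h2, h3, h4, h⟩ | ⟨a, b, e, P, f₁, f₂, h1, h2, h3, h4, h5, h⟩ |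
    ⟨k, t, e, P, f₁, h1, -, h3, h4, h5, h6, h⟩ | h
  · exact hdec _ _ _ h1 h
  · obtain rfl : k = m := by have := IsMDecomposition.two_mul_eq h2; omega
    iterate 3 right
    exact Or.inl ⟨h1, D, h2, h3, max_decomp hH h2 hm h⟩
  · iterate 7 right
    exact Or.inl ⟨F₀, r, P, ζ, h1, h2, h3, h4,
      eq_inf_of_max hH h ((hasT_spGL m).not_le_subfieldSubgroup (subfield_ne_top h1 h2) P)⟩
  · iterate 8 right
    exact Or.inl ⟨k, hc ▸ h9, p, R, h4, h5, h6, max_rdata hm hH (hc ▸ h9) h7 (hf.mono h8) h⟩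
  · iterate 10 right
    exact Or.inl ⟨h1, Q, h2, h3, max_quad hm hH h1 h2 h3 h⟩
  · have := two_mul_dvd_of_sa (hf := hs) h2 h3 h4
    rw [hc] at this
    iterate 4 right
    exact Or.inl ⟨r, h1, Nat.dvd_of_mul_dvd_mul_left two_pos this, K, h2, h3, h4, max_field hm hH h1.two_le h2 h⟩
  · iterate 5 right
    exact Or.inl ⟨h1, K, h2, h3, h4, max_field hm hH le_rfl h2 h⟩
  · have h6 := card_eq_of_equiv_prod e
    have h7 := even_card_of_symplectic h3
    rw [Fintype.card_fin, even_iff_two_dvd] at h7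
    obtain ⟨a, rfl⟩ := h7
    have h8 : a * b = m := by nlinarith
    have h9 : a ≠ 0 := by rintro rfl; omega
    by_cases h10 : b = 3 → 5 ≤ Fintype.card F
    · iterate 6 right
      refine Or.inl ⟨h1, a, b, h8, h2, h10, e, P, f₁, f₂, h3, h4, h5, eq_inf_of_max hH h
        ((H8.hasE_spGL ?_).not_le_tensorProductSubgroup (by omega) (by omega) e P)⟩
      calc 3 ≤ 1 * b := by omega
        _ ≤ a * b := Nat.mul_le_mul_right _ (by omega)
        _ = m := h8
    · push Not at h10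
      obtain ⟨rfl, h10⟩ := h10
      have h11 : Fintype.card F = 3 := by by_contra h'; have := five_le_of_odd h1 h'; omega
      obtain ⟨D, k1, k2⟩ := exists_decomp_three h11 hs.bilinear (by omega) h3.nondegenerate h3.bilinear h4 h5
        (fun g hg => hH.1.le hg) h
      exact hdec _ _ _ k1 k2
  · have h7 := even_card_of_symplectic h5
    rw [Fintype.card_fin, even_iff_two_dvd] at h7
    obtain ⟨k, rfl⟩ := h7
    have h8 : 2 * m = (2 * k) ^ t := by rw [← hc, Fintype.card_congr e]; simp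
    have h9 : k ≠ 0 := by
      rintro rfl
      rw [mul_zero, zero_pow (by omega)] at h8
      omega
    have h10 : 2 ^ 3 ≤ (2 * k) ^ t :=
      (Nat.pow_le_pow_left (by omega) _).trans (Nat.pow_le_pow_right (by omega) h3)
    iterate 9 right
    exact Or.inl ⟨h1, k, t, h8, h3, fun h' => five_le_of_odd h1 fun h'' => h4 ⟨h'', by omega⟩, e, P, f₁, h5, h6,
      eq_inf_of_max hH h ((H8.hasE_spGL (by omega)).not_le_tensorWreathSubgroup (by omega) (by omega) e P)⟩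
  · iterate 11 right
    exact h

end Cfsg.Agent.H9.SpT
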