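import Cfsg.Agent.H9.SpSmall

/-! Extraspecial groups normalised by small tensor-product groups over the field with three elements. -/

set_option autoImplicit false
set_option linter.unusedSectionVars false

namespace Cfsg.Agent.H9.SpT

open Module Cfsg Cfsg.Geo Cfsg.Agent.H7 Cfsg.Agent.Asch
open scoped MatrixGroups Matrix Kronecker

variable {ι : Type} [Fintype ι] [DecidableEq ι] {F : Type*} [Field F]

/-- an invariant generating set of pairwise (anti)commuting isometries generates a class-6 group -/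
theorem exists_rdata {G : Matrix ι ι F} {H : Subgroup (GL ι F)} (S : Set (Matrix ι ι F))
    (hsq : ∀ x ∈ S, x * x = 1 ∨ x * x = -1) (hcomm : ∀ x ∈ S, ∀ y ∈ S, x * y = y * x ∨ x * y = -(y * x))
    (hspan : ∀ A : Subalgebra F (Matrix ι ι F), (∀ x ∈ S, x ∈ A) → ∀ z, z ∈ A)
    (hfix : ∀ x ∈ S, xᵀ * G * x = G) (hN : ∀ g ∈ H, ∀ x ∈ S, cj g x ∈ S) :
    ∃ R, RData 2 R ∧ FixesGram (RingEquiv.refl F) R G ∧ GNorms H R := by
  let R : Subgroup (GL ι F) := Subgroup.closure {g | (g : Matrix ι ι F) ∈ S}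
  have hinv : ∀ {x y : GL ι F} {c : F}, (x : Matrix ι ι F) * y = c • ((y : Matrix ι ι F) * x) →
      (y : Matrix ι ι F) * (x⁻¹ : GL ι F) = c • (((x⁻¹ : GL ι F) : Matrix ι ι F) * y) := fun {x y c} h => by
    have := congrArg (fun z => ((x⁻¹ : GL ι F) : Matrix ι ι F) * z * (x⁻¹ : GL ι F)) h
    simpa [mul_assoc] using this
  have hswap : ∀ {x y : GL ι F}, (∃ c : F, (x : Matrix ι ι F) * y = c • ((y : Matrix ι ι F) * x)) →
      ∃ c : F, (y : Matrix ι ι F) * x = c • ((x : Matrix ι ι F) * y) := by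
    rintro x y ⟨c, h⟩
    by_cases hc : c = 0
    · have h0 : ((x * y : GL ι F) : Matrix ι ι F) = 0 := by rw [Units.val_mul, h, hc, zero_smul]
      haveI : Subsingleton (Matrix ι ι F) := subsingleton_of_zero_eq_one (by
        rw [← (x * y).mul_inv, h0, zero_mul])
      exact ⟨1, Subsingleton.elim _ _⟩
    · exact ⟨c⁻¹, by rw [h, smul_smul, inv_mul_cancel₀ hc, one_smul]⟩
  have hc : ∀ x ∈ R, ∀ y ∈ R, ∃ c : F, (x : Matrix ι ι F) * y = c • ((y : Matrix ι ι F) * x) := by
    intro x hx y hy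
    induction hx, hy using Subgroup.closure_induction₂ with
    | mem x y hx hy =>
      rcases hcomm _ hx _ hy with h | h
      · exact ⟨1, by rw [h, one_smul]⟩
      · exact ⟨-1, by rw [h, neg_one_smul]⟩
    | one_left x _ => exact ⟨1, by simp⟩
    | one_right x _ => exact ⟨1, by simp⟩
    | mul_left x y z _ _ _ h1 h2 =>
      obtain ⟨c, h1⟩ := h1
      obtain ⟨d, h2⟩ := h2
      exact ⟨c * d, by rw [Units.val_mul, mul_assoc, h2, Matrix.mul_smul, ← mul_assoc, h1, Matrix.smul_mul, smul_smul,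
        mul_assoc, mul_comm]⟩
    | mul_right x y z _ _ _ h1 h2 =>
      obtain ⟨c, h1⟩ := h1
      obtain ⟨d, h2⟩ := h2
      exact ⟨c * d, by rw [Units.val_mul, ← mul_assoc, h1, Matrix.smul_mul, mul_assoc, h2, Matrix.mul_smul, smul_smul,
        mul_assoc]⟩
    | inv_left x y _ _ h =>
      obtain ⟨c, h⟩ := h
      exact hswap ⟨c, hinv h⟩
    | inv_right x y _ _ h =>
      obtain ⟨c, h⟩ := hswap h
      exact ⟨c, hinv h⟩
  refine ⟨R, ⟨Nat.prime_two, hspan _ fun x hx => ?_, hc, fun x hx => ?_⟩, fun x hx => ?_, fun g hg x hx => ?_⟩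
  · have hu : IsUnit x := by
      rcases hsq x hx with h | h
      · exact IsUnit.of_mul_eq_one _ h
      · exact IsUnit.of_mul_eq_one (-x) (by rw [mul_neg, h, neg_neg])
    exact coe_mem_spanAlg (x := hu.unit) (Subgroup.subset_closure hx)
  · induction hx using Subgroup.closure_induction with
    | mem x hx =>
      rcases hsq _ hx with h | h
      · exact mem_scalars_of_eq_smul (c := 1) (by rw [sq, Units.val_mul, h, one_smul])
      · exact mem_scalars_of_eq_smul (c := -1) (by rw [sq, Units.val_mul, h, neg_one_smul])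
    | one => simp
    | mul x y hx hy h1 h2 =>
      obtain ⟨c, hc⟩ := hc y hy x hx
      obtain ⟨a, ha⟩ := (mem_scalars_iff _).1 h1
      obtain ⟨b, hb⟩ := (mem_scalars_iff _).1 h2
      refine mem_scalars_of_eq_smul (c := c * (a * b)) ?_
      rw [Units.val_pow_eq_pow_val, Units.val_mul, mul_pow_of_twist hc, ← Units.val_pow_eq_pow_val,
        ← Units.val_pow_eq_pow_val, ha, hb]
      simp [smul_smul, mul_comm]
    | inv x _ h => rw [inv_pow]; exact inv_mem h
  · induction hx using Subgroup.closure_induction with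
    | mem x hx => exact hfix _ hx
    | one => simp [map_refl]
    | mul x y _ _ h1 h2 =>
      rw [map_refl] at h1 h2 ⊢
      rw [Units.val_mul, Matrix.transpose_mul, mul_assoc, mul_assoc, ← mul_assoc G, ← mul_assoc _ (G * _), ← mul_assoc _ G,
        h1, ← mul_assoc, h2]
    | inv x _ h =>
      rw [map_refl] at h ⊢
      conv_lhs => rw [← h]
      rw [← mul_assoc, ← mul_assoc, ← Matrix.transpose_mul, mul_assoc, Units.mul_inv, Matrix.transpose_one, one_mul,
        mul_one]
  · induction hx using Subgroup.closure_induction with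
    | mem x hx => exact Subgroup.subset_closure (by have := hN g hg _ hx; rwa [cj_coe] at this)
    | one => simp
    | mul x y _ _ h1 h2 =>
      rw [show g * (x * y) * g⁻¹ = g * x * g⁻¹ * (g * y * g⁻¹) by group]
      exact R.mul_mem h1 h2
    | inv x _ h =>
      rw [show g * x⁻¹ * g⁻¹ = (g * x * g⁻¹)⁻¹ by group]
      exact R.inv_mem h

theorem zmod_three_comm : ∀ a b c d a' b' c' d' : ZMod 3, !![a, b; c, d] * !![a, b; c, d] = -1 →
    !![a', b'; c', d'] * !![a', b'; c', d'] = -1 →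
    !![a, b; c, d] * !![a', b'; c', d'] = !![a', b'; c', d'] * !![a, b; c, d] ∨
    !![a, b; c, d] * !![a', b'; c', d'] = -(!![a', b'; c', d'] * !![a, b; c, d]) := by
  decide +kernel

theorem zmod_three_det : ∀ a b c d : ZMod 3, !![a, b; c, d] * !![a, b; c, d] = -1 → a * d - b * c = 1 := by
  decide +kernel

section three
variable [Fintype F] (hq : Fintype.card F = 3)
include hq

theorem three_eq_zero : (3 : F) = 0 := by exact_mod_cast H8.cast_eq_zero_of_card hq

theorem q8_comm {x y : Matrix (Fin 2) (Fin 2) F} (hx : x * x = -1) (hy : y * y = -1) :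
    x * y = y * x ∨ x * y = -(y * x) := by
  let Φ := (ZMod.ringEquivOfPrime F Nat.prime_three hq).mapMatrix (m := Fin 2)
  obtain ⟨x, rfl⟩ := Φ.surjective x
  obtain ⟨y, rfl⟩ := Φ.surjective y
  rw [← map_mul, ← map_one Φ, ← map_neg, Φ.injective.eq_iff] at hx hy
  simp only [← map_mul, ← map_neg, Φ.injective.eq_iff]
  rw [Matrix.eta_fin_two x] at hx ⊢
  rw [Matrix.eta_fin_two y] at hy ⊢
  exact zmod_three_comm _ _ _ _ _ _ _ _ hx hy

theorem q8_det {x : Matrix (Fin 2) (Fin 2) F} (hx : x * x = -1) : x.det = 1 := by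
  let φ := ZMod.ringEquivOfPrime F Nat.prime_three hq
  let Φ := φ.mapMatrix (m := Fin 2)
  obtain ⟨x, rfl⟩ := Φ.surjective x
  rw [← map_mul, ← map_one Φ, ← map_neg, Φ.injective.eq_iff, Matrix.eta_fin_two x] at hx
  have := congrArg φ (zmod_three_det _ _ _ _ hx)
  rw [Matrix.det_fin_two]
  simpa [Φ] using this

theorem q8_span {R : Type*} [Ring R] [Algebra F R] (φ : Matrix (Fin 2) (Fin 2) F →ₐ[F] R) {A : Subalgebra F R}
    (h : ∀ x, x * x = -1 → φ x ∈ A) (x : Matrix (Fin 2) (Fin 2) F) : φ x ∈ A := by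
  have h3 := three_eq_zero hq
  have h1 := h !![0, 1; -1, 0] (by ext i j; fin_cases i <;> fin_cases j <;> simp)
  have h2 := h !![1, 1; 1, -1] (by
    ext i j; fin_cases i <;> fin_cases j <;> simp <;> linear_combination h3)
  have h4 := h !![1, -1; -1, -1] (by
    ext i j; fin_cases i <;> fin_cases j <;> simp <;> linear_combination h3)
  have : x = (-(x 0 0 + x 1 1)) • (1 : Matrix (Fin 2) (Fin 2) F) + (x 1 0 - x 0 1) • !![0, 1; -1, 0] +
      (x 0 0 - x 1 1 + x 0 1 + x 1 0) • !![1, 1; 1, -1] + (x 0 0 - x 1 1 - x 0 1 - x 1 0) • !![1, -1; -1, -1] := by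
    ext i j
    fin_cases i <;> fin_cases j <;> simp
    · linear_combination (x 1 1) * h3
    · linear_combination (-x 1 0) * h3
    · linear_combination (-x 0 1) * h3
    · linear_combination (x 0 0) * h3
  rw [this]
  simp only [map_add, map_smul, map_one]
  exact add_mem (add_mem (add_mem (A.smul_mem A.one_mem _) (A.smul_mem h1 _)) (A.smul_mem h2 _)) (A.smul_mem h4 _)

theorem not_sq_neg_one (x : F) : x * x ≠ -1 := fun h => by
  rcases H8.sq_cases_three hq x with h0 | h0
  · simp [h0] at h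
  · exact H8.two_ne_zero_of_card_three hq (by linear_combination h - h0)

end three

theorem pt_mem {t m : ℕ} {A : Subalgebra F (Matrix (Fin t → Fin m) (Fin t → Fin m) F)} (h : ∀ i x, ins i x ∈ A)
    (xs : Fin t → Matrix (Fin m) (Fin m) F) : pt xs ∈ A := by
  have key : ∀ s : Finset (Fin t), pt (fun i => if i ∈ s then xs i else 1) ∈ A := by
    intro s
    induction s using Finset.induction_on with
    | empty =>
      have : (fun i => if i ∈ (∅ : Finset (Fin t)) then xs i else 1) = 1 := by ext1 i; simp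
      rw [this, map_one]; exact A.one_mem
    | insert j s hj ih =>
      have : (fun i => if i ∈ insert j s then xs i else 1) =
          (fun i => if i ∈ s then xs i else 1) * Pi.mulSingle j (xs j) := by
        ext1 i
        by_cases h : i = j
        · subst h; simp [hj]
        · simp [h]
      rw [this, map_mul, ← ins_apply]
      exact A.mul_mem ih (h _ _)
  simpa using key Finset.univ

theorem mem_of_single {κ : Type} [Fintype κ] [DecidableEq κ] {A : Subalgebra F (Matrix κ κ F)}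
    (h : ∀ a b, Matrix.single a b (1 : F) ∈ A) (z : Matrix κ κ F) : z ∈ A := by
  rw [← sum_smul_single z]
  exact sum_mem fun i _ => sum_mem fun j _ => A.smul_mem (h i j) _

theorem mem_of_lk_rk {κ β : Type} [Fintype κ] [DecidableEq κ] [Fintype β] [DecidableEq β]
    {A : Subalgebra F (Matrix (κ × β) (κ × β) F)} (h1 : ∀ x, lk β x ∈ A) (h2 : ∀ x, rk κ x ∈ A)
    (z : Matrix (κ × β) (κ × β) F) : z ∈ A :=
  mem_of_single (fun ⟨i, j⟩ ⟨k, l⟩ => by
    rw [← one_mul (1 : F), ← Matrix.single_kronecker_single, ← lk_mul_rk]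
    exact A.mul_mem (h1 _) (h2 _)) z

theorem ins_comm {t m : ℕ} {i j : Fin t} (hij : i ≠ j) (x y : Matrix (Fin m) (Fin m) F) :
    ins i x * ins j y = ins j y * ins i x := by
  rw [ins_apply, ins_apply, ← map_mul, ← map_mul, (Pi.mulSingle_commute (f := fun _ => Matrix (Fin m) (Fin m) F) hij x y).eq]

theorem fix_of_adj {G x : Matrix ι ι F} (hG : IsUnit G) (h : adj (RingEquiv.refl F) G x * x = 1) :
    xᵀ * G * x = G := by
  rw [← mul_adj_map (σ := RingEquiv.refl F) hG, map_refl, mul_assoc, h, mul_one]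

theorem adj_J2 (x : Matrix (Fin 2) (Fin 2) F) :
    adj (RingEquiv.refl F) (J2 F) x = !![x 1 1, -x 0 1; -x 1 0, x 0 0] := by
  rw [adj_eq_iff isUnit_J2, map_refl]
  ext i j
  fin_cases i <;> fin_cases j <;> simp [J2, Matrix.mul_apply, Fin.sum_univ_two]

theorem adj_J2_mul (x : Matrix (Fin 2) (Fin 2) F) : adj (RingEquiv.refl F) (J2 F) x * x = x.det • 1 := by
  rw [adj_J2, Matrix.det_fin_two]
  ext i j
  fin_cases i <;> fin_cases j <;> simp [Matrix.mul_apply, Fin.sum_univ_two] <;> ring

/-- tensor powers of `GL₂(3)` normalise a central product of quaternion groups -/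
theorem exists_rdata_wreath [Fintype F] (hq : Fintype.card F = 3) {G : Matrix ι ι F} (hG : IsUnit G)
    {H : Subgroup (GL ι F)} {t : ℕ} {e : ι ≃ (Fin t → Fin 2)} {P : GL ι F} {ε : F}
    (h : PData (RingEquiv.refl F) G H e P ε (J2 F)) :
    ∃ R, RData 2 R ∧ FixesGram (RingEquiv.refl F) R G ∧ GNorms H R := by
  obtain ⟨c, hc, hΓ⟩ := h.gram
  refine exists_rdata {z | ∃ i x, x * x = -1 ∧ z = tr e P (ins i x)} ?_ ?_ ?_ ?_ ?_
  · rintro _ ⟨i, x, hx, rfl⟩
    right
    rw [← map_mul, ← map_mul, hx, map_neg, map_neg, map_one, map_one]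
  · rintro _ ⟨i, x, hx, rfl⟩ _ ⟨j, y, hy, rfl⟩
    by_cases hij : i = j
    · subst hij
      simp only [← map_mul, ← map_neg]
      exact (q8_comm hq hx hy).imp (fun h => by rw [h]) fun h => by rw [h]
    · left
      rw [← map_mul, ← map_mul, ins_comm hij]
  · intro A hA z
    obtain ⟨z, rfl⟩ := (tr e P).surjective z
    refine mem_of_single (A := A.comap (tr e P).toAlgHom) (fun a b => ?_) z
    rw [← pt_single]
    exact pt_mem (fun i x => q8_span hq ((tr e P).toAlgHom.comp (ins i)) (fun x hx => hA _ ⟨i, x, hx, rfl⟩) x) _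
  · rintro _ ⟨i, x, hx, rfl⟩
    refine fix_of_adj hG ?_
    rw [adj_tr hG, hΓ, adj_smul_gram (isUnit_pt fun _ => isUnit_J2) hc, adj_ins fun _ => isUnit_J2, ← map_mul,
      ← map_mul, adj_J2_mul, q8_det hq hx, one_smul, map_one, map_one]
  · rintro g hg _ ⟨i, x, hx, rfl⟩
    obtain ⟨gs, σ, rfl⟩ := (mem_tensorWreathSubgroup e P g).1 (h.le hg)
    exact ⟨σ i, cj (gs (σ i)) x, by rw [← map_mul, hx, map_neg, map_one],
      by rw [cj_trGL, cj_mul, cj_fpGL_ins, cj_ptGL_ins]⟩

end Cfsg.Agent.H9.SpT
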