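import Cfsg.Agent.H8.LamBlk

/-!
Unitary spaces: elements of norm one, quasi-reflections, and the transvections in the group
generated by two quasi-reflection groups.
-/

set_option autoImplicit false
set_option linter.unusedSectionVars false

namespace Cfsg.Agent.H9.UDec

open Module H7 H7.Polar H8

variable {F : Type*} [Field F] {V : Type*} [AddCommGroup V] [Module F V] {P : Polar F V}

variable (P) in
/-- unitary polar spaces -/
structure Un : Prop where
  σ : ∃ a, P.σ a ≠ a
  ε : P.ε = 1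

variable (P) in
/-- the norm -/
def nm (a : F) : F := a * P.σ a

theorem nm_def (a : F) : nm P a = a * P.σ a := rfl

@[simp] theorem nm_mul (a b : F) : nm P (a * b) = nm P a * nm P b := by simp [nm]; ring

@[simp] theorem nm_one : nm P 1 = 1 := by simp [nm]

@[simp] theorem nm_zero : nm P 0 = 0 := by simp [nm]

@[simp] theorem nm_neg (a : F) : nm P (-a) = nm P a := by simp [nm]

@[simp] theorem nm_σ (a : F) : nm P (P.σ a) = nm P a := by simp [nm, mul_comm]

@[simp] theorem nm_inv (a : F) : nm P a⁻¹ = (nm P a)⁻¹ := by simp [nm, mul_comm]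

@[simp] theorem nm_div (a b : F) : nm P (a / b) = nm P a / nm P b := by simp [div_eq_mul_inv]

@[simp] theorem nm_eq_zero {a : F} : nm P a = 0 ↔ a = 0 := by simp [nm]

@[simp] theorem σ_nm (a : F) : P.σ (nm P a) = nm P a := by simp [nm, mul_comm]

theorem ne_zero_of_nm {a : F} (h : nm P a = 1) : a ≠ 0 := by rintro rfl; simp at h

theorem σ_eq_inv {a : F} (h : nm P a = 1) : P.σ a = a⁻¹ := eq_inv_of_mul_eq_one_right h

theorem exists_mu_of_nm {a b : F} (h : nm P a = nm P b) : ∃ m, nm P m = 1 ∧ a = m * b := by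
  by_cases hb : b = 0
  · exact ⟨1, nm_one, by simpa [hb] using h⟩
  · exact ⟨a / b, by simp [h, hb], by simp [hb]⟩

theorem nm_of_trace {θ : F} (h : θ + P.σ θ = 1) : θ ≠ 0 ∧ nm P (1 - θ⁻¹) = 1 := by
  have h0 : θ ≠ 0 := by rintro rfl; simp at h
  have h1 : P.σ θ ≠ 0 := by simpa using h0
  refine ⟨h0, ?_⟩
  simp only [nm, map_sub, map_one, map_inv₀]
  field_simp
  linear_combination -h

namespace Un

variable (h : Un P)
include h

theorem herm (x y : V) : P.B y x = P.σ (P.B x y) := by rw [P.herm, h.ε, one_mul]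

theorem σB (x y : V) : P.σ (P.B x y) = P.B y x := (h.herm x y).symm

theorem lam {c : F} : P.Val 0 c ↔ P.σ c = -c := by
  rw [val_iff_of_unitary h.σ h.ε, map_zero]
  constructor <;> intro h <;> linear_combination -h

theorem sing {x : V} : P.Val x 0 ↔ P.B x x = 0 := sing_iff_of_unitary h.σ h.ε

theorem iso {g : V ≃ₗ[F] V} (hg : ∀ x y, P.B (g x) (g y) = P.B x y) : g ∈ P.Iso :=
  mem_Iso_of_unitary h.σ h.ε hg

theorem exists_mu_ne : ∃ a, nm P a = 1 ∧ a ≠ 1 := by
  obtain ⟨θ, hθ⟩ := exists_trace_one P.σ P.σσ h.σ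
  obtain ⟨h0, h1⟩ := nm_of_trace hθ
  exact ⟨_, h1, by simpa using h0⟩

theorem exists_nm [Finite F] {t : F} (ht : P.σ t = t) : ∃ a, nm P a = t :=
  exists_norm_eq P.σ P.σσ h.σ ht

/-- the elements of norm one generate the field additively -/
theorem mem_of_mu [Finite F] {A : AddSubgroup F} (hA : ∀ a, nm P a = 1 → a ∈ A) (x : F) :
    x ∈ A := by
  let M : Submonoid F := ⟨⟨{a | nm P a = 1}, fun {a b} (ha : _ = _) (hb : _ = _) => by
    simp [ha, hb]⟩, by simp⟩
  let R := Subring.closure (M : Set F)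
  have hR : ∀ x ∈ R, x ∈ A := fun x hx => by
    rw [Subring.mem_closure_iff, Submonoid.closure_eq] at hx
    exact (AddSubgroup.closure_le A).2 hA hx
  have := Fintype.ofFinite F
  have hinv : ∀ x ∈ R, x⁻¹ ∈ R := fun x hx => by
    by_cases h0 : x = 0
    · simp [h0]
    have h1 := FiniteField.pow_card_sub_one_eq_one x h0
    have h2 := Fintype.one_lt_card (α := F)
    rw [show Fintype.card F - 1 = Fintype.card F - 2 + 1 by omega, pow_succ] at h1
    rw [← eq_inv_of_mul_eq_one_left h1]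
    exact R.pow_mem hx _
  have h1 : ∀ θ, θ + P.σ θ = 1 → θ ∈ R := fun θ hθ => by
    simpa using hinv _ (R.sub_mem R.one_mem (Subring.subset_closure (nm_of_trace hθ).2))
  obtain ⟨θ, hθ⟩ := exists_trace_one P.σ P.σσ h.σ
  have h2 : ∀ c, P.σ c = -c → c ∈ R := fun c hc => by
    simpa using R.sub_mem (h1 (θ + c) (by rw [map_add, hc]; linear_combination hθ)) (h1 θ hθ)
  obtain ⟨δ, hδ0, hδ⟩ := exists_skew P.σ P.σσ h.σ
  have h3 : ∀ t, P.σ t = t → t ∈ R := fun t ht => by
    simpa [hδ0] using R.mul_mem (h2 (t * δ) (by simp [ht, hδ])) (hinv _ (h2 δ hδ))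
  refine hR x ?_
  simpa using R.add_mem (R.mul_mem (h3 (x + P.σ x) (by simp [add_comm])) (h1 θ hθ))
    (h2 (x - (x + P.σ x) * θ) (by simp; linear_combination -(x + P.σ x) * hθ))

theorem exists_sq_add_sq [Finite F] : ∃ c c', P.σ c = -c ∧ P.σ c' = -c' ∧ c ^ 2 + c' ^ 2 = 1 ∧
    c ≠ 0 ∧ (c' = 0 → c = 1) := by
  by_cases h2 : (2 : F) = 0
  · exact ⟨1, 0, by simp; linear_combination h2, by simp, by simp, by simp, by simp⟩
  obtain ⟨δ, hδ0, hδ⟩ := exists_skew P.σ P.σσ h.σ
  let K := P.σ.eqLocusField (RingHom.id F)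
  have := Fintype.ofFinite K
  let ν : K := ⟨δ * δ, by simp [K, hδ]⟩
  have hν : ν ≠ 0 := fun h => by simpa [ν, hδ0] using congrArg Subtype.val h
  obtain ⟨a, b, hab⟩ := FiniteField.exists_root_sum_quadratic (R := K)
    (f := Polynomial.C ν * Polynomial.X ^ 2) (g := Polynomial.C ν * Polynomial.X ^ 2 - 1)
    (by compute_degree!) (by compute_degree!) (by
      refine FiniteField.odd_card_of_char_ne_two fun h => h2 ?_
      have : ((2 : ℕ) : K) = 0 := h ▸ (ringChar.spec K _).2 dvd_rfl
      exact_mod_cast congrArg K.subtype this)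
  have ha : P.σ a = a := a.2
  have hb : P.σ b = b := b.2
  have h3 : (a * δ) ^ 2 + (b * δ) ^ 2 = 1 := by
    have := congrArg Subtype.val hab
    simp [ν] at this
    linear_combination this
  have key : ∀ c, P.σ c = -c → c ^ 2 ≠ 1 := fun c hc h => h2 (by
    rcases sq_eq_one_iff.1 h with rfl | rfl
    · simp at hc; linear_combination hc
    · simp at hc; linear_combination -hc)
  refine ⟨a * δ, b * δ, by simp [ha, hδ], by simp [hb, hδ], h3, fun h0 => ?_, fun h0 => ?_⟩
  · exact key (b * δ) (by simp [hb, hδ]) (by simpa [h0] using h3)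
  · exact absurd (by simpa [h0] using h3) (key (a * δ) (by simp [ha, hδ]))

end Un

variable (P) in
/-- the fixed field has more than two elements -/
def Big : Prop := ∃ t, P.σ t = t ∧ t ≠ 0 ∧ t ≠ 1

theorem Un.exists_three (h : Un P) (hb : Big P) : ∃ a b c, nm P a = 1 ∧ nm P b = 1 ∧ nm P c = 1 ∧
    a ≠ 1 ∧ b ≠ 1 ∧ c ≠ 1 ∧ a ≠ b ∧ a ≠ c ∧ b ≠ c := by
  obtain ⟨θ, hθ⟩ := exists_trace_one P.σ P.σσ h.σ
  obtain ⟨δ, hδ0, hδ⟩ := exists_skew P.σ P.σσ h.σ
  obtain ⟨t, ht, ht0, ht1⟩ := hb
  obtain ⟨a1, a2⟩ := nm_of_trace hθ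
  obtain ⟨b1, b2⟩ := nm_of_trace (P := P) (θ := θ + δ) (by simp [hδ]; linear_combination hθ)
  obtain ⟨c1, c2⟩ := nm_of_trace (P := P) (θ := θ + t * δ) (by
    simp [hδ, ht]; linear_combination hθ)
  exact ⟨_, _, _, a2, b2, c2, by simpa, by simpa, by simpa, by simpa, by simp [ht0, hδ0],
    by simp [ht1, hδ0]⟩

theorem Un.exists_mu_six (h : Un P) (hb : Big P) :
    ∃ a, nm P a = 1 ∧ nm P (a - 1) ≠ 0 ∧ nm P (a - 1) ≠ 1 := by
  obtain ⟨a, b, c, ha, hb, hc, h⟩ := h.exists_three hb
  by_contra! H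
  have key : ∀ a, nm P a = 1 → a ≠ 1 → a ^ 2 - a + 1 = 0 := fun a ha h1 => by
    have := H a ha (by simpa [sub_eq_zero])
    simp only [nm, map_sub, map_one] at this ha
    linear_combination -a * this + (a - 1) * ha
  have := key a ha h.1
  have := key b hb h.2.1
  have := key c hc h.2.2.1
  grind

theorem Un.exists_mu_four (h : Un P) (hb : Big P) :
    ∃ a, nm P a = 1 ∧ a - 1 ≠ 0 ∧ a + 1 ≠ 0 ∧ a + a⁻¹ + 1 ≠ 0 := by
  obtain ⟨a, b, c, ha, hb, hc, h⟩ := h.exists_three hb
  by_contra! H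
  have key : ∀ a, nm P a = 1 → a = 1 ∨ a = -1 ∨ a ^ 2 + a + 1 = 0 := fun a ha => by
    have h1 := H a ha
    have := ne_zero_of_nm ha
    by_contra! h2
    have := h1 (sub_ne_zero.2 h2.1) (fun h => h2.2.1 (by linear_combination h))
    field_simp at this
    exact h2.2.2 (by linear_combination this)
  have := key a ha
  have := key b hb
  have := key c hc
  have := key (-a) (by simpa)
  have := key (-b) (by simpa)
  have := key (-c) (by simpa)
  grind

theorem Un.exists_lam (h : Un P) (hb : Big P) : ∃ c, P.σ c = -c ∧ c ≠ 0 ∧ 1 - c ^ 2 ≠ 0 := by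
  obtain ⟨δ, hδ0, hδ⟩ := exists_skew P.σ P.σσ h.σ
  obtain ⟨t, ht, ht0, ht1⟩ := hb
  by_contra! H
  have h1 := H δ hδ hδ0
  have h2 := H (t * δ) (by simp [ht, hδ]) (by simp [ht0, hδ0])
  have h3 : δ = 1 ∨ δ = -1 := by grind
  have h4 : (2 : F) = 0 := by
    rcases h3 with rfl | rfl
    · simp at hδ; linear_combination hδ
    · simp at hδ; linear_combination -hδ
  grind

/-! ### Quasi-reflections -/

variable (P) in
/-- the quasi-reflection with centre the unit vector `u` and eigenvalue `a` -/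
def rf (u : V) (a : F) (x : V) : V := x + ((a - 1) * P.B x u) • u

theorem rf_rf {u : V} (hu : P.B u u = 1) (a b : F) (x : V) :
    rf P u a (rf P u b x) = rf P u (a * b) x := by
  simp only [rf, map_add, map_smul, LinearMap.add_apply, LinearMap.smul_apply, hu, smul_eq_mul]
  module

@[simp] theorem rf_one (u x : V) : rf P u 1 x = x := by simp [rf]

theorem rf_fix {u x : V} (a : F) (h : P.B x u = 0) : rf P u a x = x := by simp [rf, h]

theorem rf_self {u : V} (hu : P.B u u = 1) (a : F) : rf P u a u = a • u := by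
  simp [rf, hu, sub_smul]

theorem rf_conj {g : V ≃ₗ[F] V} (hg : g ∈ P.Iso) (u : V) (a : F) (x : V) :
    rf P (g u) a (g x) = g (rf P u a x) := by simp [rf, Iso.B hg]

theorem rf_smul {m : F} (hm : nm P m = 1) (u : V) (a : F) (x : V) :
    rf P (m • u) a x = rf P u a x := by
  simp only [rf, B_smul_right, smul_smul]
  congr 2
  rw [nm] at hm
  linear_combination ((a - 1) * P.B x u) * hm

/-- the quasi-reflection as an automorphism -/
def rfE {u : V} (hu : P.B u u = 1) {a : F} (ha : nm P a = 1) : V ≃ₗ[F] V where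
  toFun := rf P u a
  map_add' x y := by simp only [rf, map_add, LinearMap.add_apply]; module
  map_smul' c x := by
    simp only [rf, map_smul, LinearMap.smul_apply, smul_eq_mul, RingHom.id_apply]; module
  invFun := rf P u (P.σ a)
  left_inv x := by rw [rf_rf hu, mul_comm, ← nm_def, ha, rf_one]
  right_inv x := by rw [rf_rf hu, ← nm_def, ha, rf_one]

@[simp] theorem rfE_apply {u : V} (hu : P.B u u = 1) {a : F} (ha : nm P a = 1) (x : V) :
    rfE hu ha x = rf P u a x := rfl

theorem Un.rfE_mem (h : Un P) {u : V} (hu : P.B u u = 1) {a : F} (ha : nm P a = 1) :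
    rfE hu ha ∈ P.Iso := h.iso fun x y => by
  simp only [rfE_apply, rf, map_add, map_smul, LinearMap.add_apply, LinearMap.smul_apply, hu,
    smul_eq_mul, B_smul_right, map_mul, map_sub, map_one, h.σB]
  rw [nm] at ha
  linear_combination (P.B x u * P.B u y) * ha

variable (P) in
/-- all quasi-reflections with centre the unit vector `u` lie in `Y` -/
def RX (Y : Subgroup (V ≃ₗ[F] V)) (u : V) : Prop :=
  P.B u u = 1 ∧ ∀ a, nm P a = 1 → Has Y (rf P u a)

variable {Y : Subgroup (V ≃ₗ[F] V)}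

theorem RX.mem {u : V} (h : RX P Y u) {a : F} (ha : nm P a = 1) : rfE h.1 ha ∈ Y :=
  (h.2 a ha).mem fun _ => rfl

theorem RX.conj {u : V} (h : RX P Y u) {g : V ≃ₗ[F] V} (hg : g ∈ Y) (hg' : g ∈ P.Iso) :
    RX P Y (g u) :=
  ⟨by rw [Iso.B hg', h.1], fun a ha => (h.2 a ha).conj hg (rf_conj hg' u a)⟩

theorem TX_smul {v : V} (h : TX P Y v) (a : F) : TX P Y (a • v) :=
  ⟨sing_smul h.1 a, fun c hc => (EI.smul_iff a).2 (by simpa using h.2 _ (lam_smul a hc))⟩

variable [Finite F] [FiniteDimensional F V]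

theorem RX.move (h : Un P) {u z : V} (hu : RX P Y u) (hz : TX P Y z)
    (h1 : P.B (u + z) (u + z) = 1) (h0 : P.B u z = 0 → z = 0) : RX P Y (u + z) := by
  by_cases h2 : P.B u z = 0
  · simpa [h0 h2] using hu
  have h3 : P.σ (P.B u z) = -P.B u z := by
    simp only [map_add, LinearMap.add_apply, hu.1, sing_B hz.1, h.herm u z] at h1
    linear_combination h1
  have hc : P.Val 0 (P.B u z)⁻¹ := h.lam.2 (by rw [map_inv₀, h3, inv_neg])
  have := hu.conj (hz.mem hc) (eichE_mem_Iso _ _ _)
  rw [eichE_apply, eich_tv] at this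
  simpa [h3, h2] using this

theorem tx_aux (h : Un P) {w w' : V} {β : F} (hw : RX P Y w) (hf : RX P Y (β • w + w'))
    (hw' : P.B w' w = 0) (h0 : nm P β ≠ 0) (h1 : nm P β ≠ 1) {η : F} (hη : nm P η = nm P β - 1) :
    TX P Y (η • w + w') := by
  set s := nm P β with hs
  have e0 := hw.1
  have e1 := P.B_symm hw'
  have e2 : P.B w' w' = 1 - s := by
    have := hf.1
    simp only [map_add, map_smul, LinearMap.add_apply, LinearMap.smul_apply, B_smul_right,
      smul_eq_mul, e0, e1, hw'] at this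
    rw [hs, nm]
    linear_combination this
  have hs1 : 1 - s ≠ 0 := sub_ne_zero.2 h1.symm
  have hσs : P.σ s = s := σ_nm β
  have hβ : β ≠ 0 := by simpa [hs] using h0
  have hβ' : P.σ β ≠ 0 := by simpa using hβ
  have hη' : η * P.σ η = s - 1 := hη
  have hz : P.Val (η • w + w') 0 := h.sing.2 (by
    simp [e0, e1, e2, hw']; linear_combination hη')
  let M : F → F → V → V := fun m γ x => x + ((m - 1) * P.B x w) • w +
    ((m - 1) * P.B x w' / (1 - s)) • w' + (m * γ * P.B x (η • w + w')) • (η • w + w')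
  have hM : ∀ m γ m' γ' x, M m γ (M m' γ' x) = M (m * m') (γ + γ') x := fun m γ m' γ' x => by
    simp only [M, map_add, map_smul, LinearMap.add_apply, LinearMap.smul_apply, B_smul_right,
      smul_eq_mul, e0, e1, e2, hw']
    match_scalars
    · ring
    · field_simp
      linear_combination ((1 - s) * η * m * γ * m' * γ' * (P.σ η * P.B x w + P.B x w')) * hη'
    · field_simp
      linear_combination ((1 - s) * m * γ * m' * γ' * (P.σ η * P.B x w + P.B x w')) * hη'
  have hpow : ∀ m γ, Has Y (M m γ) → ∀ k : ℕ, Has Y (M (m ^ k) (k * γ)) := fun m γ hm k => by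
    induction k with
    | zero => exact Has.id.congr fun x => by simp [M]
    | succ k ih => exact (ih.comp hm).congr fun x => by rw [hM, pow_succ]; congr 1; push_cast; ring
  have key : ∀ y, nm P y = s * (s - 1) → P.EI Y (η • w + w') 0 ((P.σ y - y) / (1 - s)) := by
    intro y hy
    have hy0 : y ≠ 0 := by rintro rfl; exact mul_ne_zero h0 (sub_ne_zero.2 h1) (by simpa using hy.symm)
    have hy0' : P.σ y ≠ 0 := by simpa using hy0
    have hy' : y * P.σ y = s * (s - 1) := hy
    obtain ⟨m, hm, hm'⟩ := exists_mu_of_nm (P := P) (a := s + y / P.σ y * (1 - s))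
      (b := 1 + (y - P.σ y)) (by
        simp only [nm, map_add, map_mul, map_div₀, map_sub, map_one, σσ, hσs]
        field_simp
        linear_combination (y ^ 2 + P.σ y ^ 2 - 2 * y * P.σ y + 2 * y * P.σ y - 2 * s * (s - 1)
          - 2 * y * P.σ y + 2 * s * (s - 1)) * hy')
    have hm0 := ne_zero_of_nm hm
    have hm2 := congrArg P.σ hm'
    simp only [map_add, map_mul, map_div₀, map_sub, map_one, σσ, hσs, σ_eq_inv hm] at hm2
    have k1 : nm P (m * η * P.σ y / ((1 - s) * β)) = 1 := by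
      have : nm P (1 - s) = (1 - s) ^ 2 := by simp [nm, hσs, sq]
      simp only [nm_div, nm_mul, nm_σ, hm, hη, hy, this, ← hs]
      field_simp; ring
    have k2 : nm P (m * P.σ η * P.σ y / ((1 - s) * P.σ β)) = 1 := by simpa using k1
    have k3 : nm P (y / P.σ y) = 1 := by simp [hy0]
    have hs' : β * P.σ β = s := rfl
    have i3 : m * η * P.σ y / ((1 - s) * β) * (y / P.σ y - 1) * β =
      m * ((y - P.σ y) / (1 - s)) * η := by field_simp
    have i2 : (y / P.σ y - 1) * P.σ β * (m * P.σ η * P.σ y / ((1 - s) * P.σ β)) =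
      m * ((y - P.σ y) / (1 - s)) * P.σ η := by field_simp
    have i4 : y / P.σ y - 1 = (m - 1) / (1 - s) + m * ((y - P.σ y) / (1 - s)) := by
      field_simp
      field_simp at hm'
      linear_combination hm'
    have i1 : m * η * P.σ y / ((1 - s) * β) * (m * P.σ η * P.σ y / ((1 - s) * P.σ β)) *
        (1 + (y / P.σ y - 1) * s) = m * (1 + (y - P.σ y) / (1 - s) * (s - 1)) := by
      have : m * η * P.σ y / ((1 - s) * β) * (m * P.σ η * P.σ y / ((1 - s) * P.σ β)) =
          m * m * (P.σ y / y) := by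
        field_simp
        linear_combination (y * P.σ y) * hη' + (s - 1) * hy' - (1 - s) ^ 2 * hs'
      rw [this, show (y - P.σ y) / (1 - s) * (s - 1) = P.σ y - y by field_simp; ring]
      field_simp
      field_simp at hm2
      linear_combination hm2
    have h2 : Has Y (M m ((y - P.σ y) / (1 - s))) :=
      ((hw.2 _ k1).comp ((hf.2 _ k3).comp (hw.2 _ k2))).congr fun x => by
        simp only [M, rf, map_add, map_smul, LinearMap.add_apply, LinearMap.smul_apply,
          B_smul_right, smul_eq_mul, e0, e1, hw']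
        generalize m * η * P.σ y / ((1 - s) * β) = a1 at *
        generalize m * P.σ η * P.σ y / ((1 - s) * P.σ β) = a2 at *
        generalize (y - P.σ y) / (1 - s) = γ at *
        generalize y / P.σ y = a at *
        match_scalars
        · ring
        · linear_combination P.B x w * i1 + P.B x w' * i3 - m * γ * P.B x w * hη' +
            a1 * a2 * (a - 1) * P.B x w * hs'
        · linear_combination P.B x w * i2 + P.B x w' * i4
    have := Fintype.ofFinite F
    have h3 := hpow _ _ h2 (Fintype.card F - 1)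
    rw [FiniteField.pow_card_sub_one_eq_one m hm0, Nat.cast_pred Fintype.card_pos,
      FiniteField.cast_card_eq_zero] at h3
    refine h3.congr fun x => ?_
    simp only [M, eich_tv, map_div₀, map_sub, σσ, hσs, map_one]
    match_scalars <;> ring
  obtain ⟨y, hy⟩ := h.exists_nm (t := s * (s - 1)) (by simp [hσs])
  have hy0 : y ≠ 0 := by rintro rfl; exact mul_ne_zero h0 (sub_ne_zero.2 h1) (by simpa using hy.symm)
  let A : AddSubgroup F :=
    { carrier := {x | P.EI Y (η • w + w') 0 ((P.σ (y * x) - y * x) / (1 - s))}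
      zero_mem' := by simpa using EI.zero _
      add_mem' := fun {a b} ha hb => (EI.add ha hb hz (by simp) (by simp)).congr (by simp)
        (by simp; ring)
      neg_mem' := fun {a} ha => (EI.neg ha hz (by simp) (h.lam.2 (by
        simp [hσs]; ring))).congr (by simp) (by simp [hσs, h.ε]; ring) }
  refine ⟨hz, fun c hc => ?_⟩
  obtain ⟨a, ha⟩ := exists_sub_conj P.σ P.σσ h.σ (c := -(c * (1 - s))) (by
    simp [h.lam.1 hc, hσs])
  have := h.mem_of_mu (A := A) (fun a ha => key _ (by simp [hy, ha])) (a / y)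
  refine EI.congr this rfl ?_
  rw [mul_div_cancel₀ _ hy0, div_eq_iff hs1]
  linear_combination -ha

theorem tx_plane (h : Un P) {w w' : V} {β : F} (hw : RX P Y w) (hf : RX P Y (β • w + w'))
    (hw' : P.B w' w = 0) (h0 : nm P β ≠ 0) (h1 : nm P β ≠ 1) {x y : F}
    (hxy : nm P x + nm P y * (1 - nm P β) = 0) : TX P Y (x • w + y • w') := by
  by_cases hy : y = 0
  · obtain rfl : x = 0 := by simpa [hy] using hxy
    simpa [hy] using TX_smul (tx_aux h hw hf hw' h0 h1
      (h.exists_nm (t := nm P β - 1) (by simp)).choose_spec) 0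
  have := TX_smul (tx_aux h hw hf hw' h0 h1 (η := x / y) (by
    rw [nm_div, div_eq_iff (by simpa)]; linear_combination hxy)) y
  rwa [smul_add, smul_smul, mul_div_cancel₀ _ hy] at this

theorem rx_plane (h : Un P) {w w' : V} {β : F} (hw : RX P Y w) (hf : RX P Y (β • w + w'))
    (hw' : P.B w' w = 0) (h0 : nm P β ≠ 0) (h1 : nm P β ≠ 1) :
    ∃ ρ : F, ρ ≠ 0 ∧ RX P Y (ρ • w') := by
  have hs1 : 1 - nm P β ≠ 0 := sub_ne_zero.2 h1.symm
  obtain ⟨ρ, hρ⟩ := h.exists_nm (t := (1 - nm P β)⁻¹) (by simp)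
  have hρ0 : ρ ≠ 0 := by rintro rfl; exact hs1 (by simpa using hρ.symm)
  have e0 := hw.1
  have e1 := P.B_symm hw'
  have e2 : P.B w' w' = 1 - nm P β := by
    have := hf.1
    simp only [map_add, map_smul, LinearMap.add_apply, LinearMap.smul_apply, B_smul_right,
      smul_eq_mul, e0, e1, hw'] at this
    rw [nm]
    linear_combination this
  have e3 : ρ * P.σ ρ * (1 - nm P β) = 1 := by rw [← nm_def, hρ, inv_mul_cancel₀ hs1]
  obtain ⟨c, c', hc, hc', h2, hc0, hc1⟩ := h.exists_sq_add_sq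
  have k1 := hw.move h (tx_plane h hw hf hw' h0 h1 (x := -c) (y := (1 - c') * ρ) (by
    simp only [nm, map_mul, map_sub, map_neg, map_one, hc, hc'] at e3 ⊢
    linear_combination (1 - c' ^ 2) * e3 - h2)) (by
    simp [e0, e1, e2, hw', hc, hc']
    linear_combination (1 - c' ^ 2) * e3 - h2) (by simp [e0, e1, hc0])
  refine ⟨ρ, hρ0, ?_⟩
  have k2 := k1.move h (tx_plane h hw hf hw' h0 h1 (x := c - 1) (y := c' * ρ) (by
    simp only [nm, map_mul, map_sub, map_one, hc, hc'] at e3 ⊢
    linear_combination (-c' ^ 2) * e3 - h2)) (by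
    simp [e0, e1, e2, hw', hc, hc']
    linear_combination e3) (fun h3 => by
      simp [e0, e1, e2, hw', hc, hc'] at h3
      have h4 : c' = 0 := by linear_combination -h3 - (c' * (1 - c')) * e3 + h2
      simp [h4, hc1 h4])
  convert k2 using 1
  module

end Cfsg.Agent.H9.UDec
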