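import Cfsg.Agent.H9.UDecA
import Cfsg.Agent.H7.C2Z
import Cfsg.Agent.H8.SLLine

/-!
Orthonormal frames of unitary spaces: overgroups of the monomial group containing transvection
groups.
-/

set_option autoImplicit false
set_option linter.unusedSectionVars false

namespace Cfsg.Agent.H9.UDec

open Module H7 H7.Polar H8

variable {F : Type*} [Field F] {V : Type*} [AddCommGroup V] [Module F V] {P : Polar F V}
variable [Finite F] [FiniteDimensional F V]
variable {κ : Type} [Fintype κ] [DecidableEq κ]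

variable (P) in
/-- orthonormal bases -/
structure ON (e : κ → V) : Prop where
  un : Un P
  one : ∀ i, P.B (e i) (e i) = 1
  orth : ∀ {i j}, i ≠ j → P.B (e i) (e j) = 0
  span : ∀ x, (∀ i, P.B x (e i) = 0) → x = 0

variable (F) in
/-- the lines of a frame -/
abbrev L (e : κ → V) (i : κ) : Submodule F V := F ∙ e i

open Classical in
variable (P) in
/-- the support of a vector -/
noncomputable def supp (e : κ → V) (x : V) : Finset κ := Finset.univ.filter fun i => P.B x (e i) ≠ 0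

@[simp] theorem mem_supp {e : κ → V} {x : V} {i : κ} : i ∈ supp P e x ↔ P.B x (e i) ≠ 0 := by
  simp [supp]

theorem mem_L (e : κ → V) (i : κ) : e i ∈ L F e i := Submodule.mem_span_singleton_self _

namespace ON

variable {e : κ → V} (h : ON P e)
include h

theorem B (i j : κ) : P.B (e i) (e j) = if i = j then 1 else 0 := by
  split_ifs with hij
  exacts [hij ▸ h.one i, h.orth hij]

theorem ext {x y : V} (hxy : ∀ i, P.B x (e i) = P.B y (e i)) : x = y :=
  sub_eq_zero.1 (h.span _ fun i => by simp [hxy])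

theorem sum (x : V) : ∑ i, P.B x (e i) • e i = x := h.ext fun i => by
  simp [LinearMap.sum_apply, h.B]

theorem B_sum (x y : V) : P.B x y = ∑ i, P.B x (e i) * P.σ (P.B y (e i)) := by
  conv_lhs => rw [← h.sum y]
  simp [mul_comm]

theorem ne_zero (i : κ) : e i ≠ 0 := fun h0 => by simpa [h0] using h.one i

theorem mem_L_iff {i : κ} {x : V} : x ∈ L F e i ↔ ∀ l, l ≠ i → P.B x (e l) = 0 := by
  rw [Submodule.mem_span_singleton]
  refine ⟨?_, fun hx => ⟨P.B x (e i), h.ext fun l => ?_⟩⟩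
  · rintro ⟨a, rfl⟩ l hl
    simp [h.orth hl.symm]
  · by_cases hl : l = i
    · simp [hl, h.one]
    · simp [hx l hl, h.orth (Ne.symm hl)]

theorem eq_two {i j : κ} (hij : i ≠ j) {x : V} (hx : ∀ l, l ≠ i → l ≠ j → P.B x (e l) = 0) :
    x = P.B x (e i) • e i + P.B x (e j) • e j := h.ext fun l => by
  by_cases hi : l = i
  · simp [hi, h.B, hij.symm]
  by_cases hj : l = j
  · simp [hj, h.B, hij]
  · simp [hx l hi hj, h.B, Ne.symm hi, Ne.symm hj]

theorem map {g : V ≃ₗ[F] V} (hg : g ∈ P.Iso) : ON P (fun i => g (e i)) where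
  un := h.un
  one i := by rw [Iso.B hg, h.one]
  orth hij := by rw [Iso.B hg, h.orth hij]
  span x hx := by
    obtain ⟨x, rfl⟩ := g.surjective x
    rw [h.span x fun i => by rw [← Iso.B hg, hx], map_zero]

theorem perp_L {i : κ} {x : V} : x ∈ P.perp (L F e i) ↔ P.B x (e i) = 0 := by
  rw [perp_span_singleton, mem_pp]

theorem pDec : PDec P 1 (L F e) where
  pos := one_pos
  dim i := finrank_span_singleton (h.ne_zero i)
  indep := by
    refine LinearIndependent.iSupIndep_span_singleton (Fintype.linearIndependent_iff.2 fun c hc i => ?_)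
    simpa [LinearMap.sum_apply, h.B] using congrArg (P.B · (e i)) hc
  top := eq_top_iff.2 fun x _ => by
    rw [← h.sum x]
    exact Submodule.sum_mem _ fun i _ =>
      Submodule.smul_mem _ _ (Submodule.mem_iSup_of_mem i (mem_L e i))
  nd i := eq_bot_iff.2 fun x hx => h.span x fun l => by
    by_cases hl : l = i
    · exact hl ▸ h.perp_L.1 hx.2
    · exact h.mem_L_iff.1 hx.1 l hl
  orth := by
    intro i j hij x y hx hy
    obtain ⟨a, rfl⟩ := Submodule.mem_span_singleton.1 hx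
    obtain ⟨b, rfl⟩ := Submodule.mem_span_singleton.1 hy
    simp [h.orth hij]
  iso i j := by
    obtain ⟨c, hc⟩ := P.val_ex (e i)
    obtain ⟨g, hg, -, h1⟩ := witt_vec (P := P) (U := ⊥) (v := e i) (v' := e j)
      (by simpa using h.ne_zero i) (by simpa using h.ne_zero j) (by simp) hc (by
        rwa [val_iff_of_unitary h.un.σ h.un.ε, h.one, ← h.one i,
          ← val_iff_of_unitary h.un.σ h.un.ε])
    refine ⟨g, hg, fun x hx => ?_⟩
    obtain ⟨a, rfl⟩ := Submodule.mem_span_singleton.1 hx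
    rw [map_smul, h1]
    exact Submodule.smul_mem _ _ (mem_L e j)

theorem finrank_eq : finrank F V = Fintype.card κ := by simpa using h.pDec.mul_eq.symm

theorem pr (i : κ) (x : V) : h.pDec.pr i x = P.B x (e i) • e i := by
  conv_lhs => rw [← h.sum x]
  simp [h.pDec.pr_of_mem (mem_L e _)]

theorem mem_mon {g : V ≃ₗ[F] V} : g ∈ decStab (L F e) ↔ ∀ i, ∃ j, g (e i) ∈ L F e j :=
  ⟨fun hg i => Dec.exists_mem hg (mem_L e i), fun hg => h.pDec.mem_decStab fun i =>
    (hg i).imp fun _ => h.pDec.apply_mem (mem_L e i) (h.ne_zero i)⟩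

theorem univ (i : κ) : Univ P (L F e i) := fun c => by
  obtain ⟨a, ha⟩ := h.un.exists_nm (t := c + P.σ c) (by simp [add_comm])
  exact Or.inr ⟨a • e i, Submodule.smul_mem _ _ (mem_L e i),
    (val_iff_of_unitary h.un.σ h.un.ε).2 (by simp [h.one, ← ha, nm, mul_comm])⟩

theorem nm_of_mem {g : V ≃ₗ[F] V} (hg : g ∈ P.Iso) {i j : κ} (hij : g (e i) ∈ L F e j) :
    ∃ m, nm P m = 1 ∧ g (e i) = m • e j := by
  obtain ⟨m, hm⟩ := Submodule.mem_span_singleton.1 hij
  refine ⟨m, ?_, hm.symm⟩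
  have := Iso.B hg (e i) (e i)
  simpa [← hm, h.one, nm, mul_comm] using this

theorem two_le_supp {x : V} (hx : ∀ j, x ∉ L F e j) (i : κ) : 2 ≤ (supp P e x).card := by
  obtain ⟨j, -, hj⟩ : ∃ j, j ≠ i ∧ P.B x (e j) ≠ 0 := by
    by_contra! H; exact hx i (h.mem_L_iff.2 H)
  obtain ⟨k, hk, hk'⟩ : ∃ k, k ≠ j ∧ P.B x (e k) ≠ 0 := by
    by_contra! H; exact hx j (h.mem_L_iff.2 H)
  exact Finset.one_lt_card.2 ⟨k, by simpa, j, by simpa, hk⟩

/-- Reduction of the support of the centre of a quasi-reflection group. -/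
theorem weight (hb : Big P) {Y : Subgroup (V ≃ₗ[F] V)} {K : Set κ}
    (hK : ∀ k ∈ K, RX P Y (e k)) {f : V} (hf : RX P Y f) (hfK : ∀ k, P.B f (e k) ≠ 0 → k ∈ K)
    (h2 : 2 ≤ (supp P e f).card) : ∃ j ∈ K, ∃ k ∈ K, j ≠ k ∧ ∃ α β : F, α ≠ 0 ∧ β ≠ 0 ∧
      RX P Y (α • e j + β • e k) := by
  obtain ⟨n, hn⟩ := Nat.exists_eq_add_of_le h2
  induction n generalizing f with
  | zero =>
    obtain ⟨j, k, hjk, h3⟩ := Finset.card_eq_two.1 hn
    have hj : P.B f (e j) ≠ 0 := by rw [← mem_supp, h3]; simp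
    have hk : P.B f (e k) ≠ 0 := by rw [← mem_supp, h3]; simp
    refine ⟨j, hfK j hj, k, hfK k hk, hjk, _, _, hj, hk, h.eq_two hjk (fun l h4 h5 => ?_) ▸ hf⟩
    by_contra h6
    simpa [h3, h4, h5] using mem_supp.2 h6
  | succ n ih =>
    have key : ∀ f, RX P Y f → (∀ k, P.B f (e k) ≠ 0 → k ∈ K) → (supp P e f).card = 2 + (n + 1) →
        ∀ j, nm P (P.B f (e j)) ≠ 0 → nm P (P.B f (e j)) ≠ 1 → ∃ j ∈ K, ∃ k ∈ K, j ≠ k ∧
        ∃ α β : F, α ≠ 0 ∧ β ≠ 0 ∧ RX P Y (α • e j + β • e k) := fun f hf hfK hn j h0 h1 => by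
      have hj : P.B f (e j) ≠ 0 := by simpa using h0
      obtain ⟨ρ, hρ, h3⟩ := rx_plane h.un (hK j (hfK j hj)) (w' := f - P.B f (e j) • e j)
        (β := P.B f (e j)) (by simpa using hf) (by simp [h.one]) h0 h1
      have h4 : supp P e (ρ • (f - P.B f (e j) • e j)) = (supp P e f).erase j := by
        ext l
        by_cases hl : l = j
        · simp [hl, h.one]
        · simp [hl, h.orth (Ne.symm hl), hρ]
      refine ih h3 (fun k hk => hfK k ?_) (by rw [h4, Finset.card_erase_of_mem (by simpa)]; omega)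
        (by rw [h4, Finset.card_erase_of_mem (by simpa)]; omega)
      have := mem_supp.2 hk
      rw [h4] at this
      simpa using Finset.mem_of_mem_erase this
    by_cases h3 : ∃ j, nm P (P.B f (e j)) ≠ 0 ∧ nm P (P.B f (e j)) ≠ 1
    · obtain ⟨j, h4, h5⟩ := h3
      exact key f hf hfK hn j h4 h5
    push Not at h3
    obtain ⟨j, hj, k, hk, hjk⟩ := Finset.one_lt_card.1 h2
    rw [mem_supp] at hj hk
    obtain ⟨a, ha, ha0, ha1⟩ := h.un.exists_mu_six hb
    have hk1 := h3 k (by simpa)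
    have h4 := (hK k (hfK k hk)).conj (hf.mem ha) (h.un.rfE_mem _ _)
    have h5 : ∀ l, l ≠ k → P.B (rfE hf.1 ha (e k)) (e l) =
        (a - 1) * P.σ (P.B f (e k)) * P.B f (e l) := fun l hl => by
      simp [rf, h.orth hl.symm, h.un.σB]
    have h6 : supp P e (rfE hf.1 ha (e k)) = supp P e f := by
      ext l
      by_cases hl : l = k
      · have : P.B (rfE hf.1 ha (e k)) (e k) = a := by
          simp only [rfE_apply, rf, map_add, map_smul, LinearMap.add_apply, h.one,
            LinearMap.smul_apply, smul_eq_mul, ← h.un.σB f]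
          rw [nm] at hk1
          linear_combination (a - 1) * hk1
        simp [hl, this, hk, ne_zero_of_nm ha, -rfE_apply]
      · simp [h5 l hl, hk, nm_eq_zero.not.1 ha0, -rfE_apply]
    refine key _ h4 (fun l hl => hfK l ?_) (h6 ▸ hn) j ?_ ?_
    · rwa [← mem_supp, h6, mem_supp] at hl
    · simpa [h5 j hjk, hk1, h3 j (by simpa), -rfE_apply] using ha0
    · simpa [h5 j hjk, hk1, h3 j (by simpa), -rfE_apply] using ha1

end ON

theorem det_rfE {u : V} (hu : P.B u u = 1) {a : F} (ha : nm P a = 1) :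
    LinearMap.det (rfE hu ha : V →ₗ[F] V) = a := by
  have : (rfE hu ha : V →ₗ[F] V) = LinearMap.transvection (P.B.flip u) ((a - 1) • u) := by
    ext x
    simp [rf, LinearMap.transvection.apply, smul_smul, mul_comm]
  rw [this, LinearMap.transvection.det]
  simp [hu]

variable (P) in
/-- an overgroup of the stabiliser of an orthonormal frame -/
structure Ctx (e : κ → V) (X : Subgroup (V ≃ₗ[F] V)) : Prop extends ON P e where
  six : 6 ≤ Fintype.card κ
  le : decStab (L F e) ⊓ P.E ≤ X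
  le' : X ≤ P.E

namespace Ctx

variable {e : κ → V} {X : Subgroup (V ≃ₗ[F] V)} (h : Ctx P e X)
include h

theorem iso {g : V ≃ₗ[F] V} (hg : g ∈ X) : g ∈ P.Iso := E_le_Iso (h.le' hg)

theorem wild : P.Wild 2 := wild_two_of_unitary h.un.σ h.un.ε

theorem dim : 2 + 4 ≤ finrank F V := h.finrank_eq ▸ h.six

theorem map {g : V ≃ₗ[F] V} (hg : g ∈ X) : Ctx P (fun i => g (e i)) X where
  toON := h.toON.map (h.iso hg)
  six := h.six
  le' := h.le'
  le t ht := by
    have := h.le (x := g⁻¹ * t * g) ⟨h.mem_mon.2 fun i => ?_, by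
      simpa using E_normal (P.Iso.inv_mem (h.iso hg)) ht.2⟩
    · simpa [mul_assoc] using mul_mem (mul_mem hg this) (inv_mem hg)
    · obtain ⟨j, hj⟩ := (h.toON.map (h.iso hg)).mem_mon.1 ht.1 i
      obtain ⟨a, ha⟩ := Submodule.mem_span_singleton.1 hj
      exact ⟨j, Submodule.mem_span_singleton.2 ⟨a, by simp [← ha]⟩⟩

theorem rf_mem (i : κ) {a : F} (ha : nm P a = 1) : rfE (h.one i) ha ∈ decStab (L F e) :=
  h.mem_mon.2 fun j => ⟨j, h.mem_L_iff.2 fun l hl => by
    by_cases hi : i = j <;> simp [rf, h.B, hi, Ne.symm hl, Ne.symm]⟩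

theorem exists_diag (i j : κ) {a : F} (ha : nm P a = 1) : ∃ t ∈ decStab (L F e) ⊓ X,
    ∀ x, t x = rf P (e i) a (rf P (e j) (P.σ a) x) := by
  have ha' : nm P (P.σ a) = 1 := by simpa
  have h1 := mul_mem (h.rf_mem i ha) (h.rf_mem j ha')
  refine ⟨_, ⟨h1, h.le ⟨h1, ?_⟩⟩, fun _ => rfl⟩
  rw [E_eq_SU h.un.σ h.un.ε h.dim]
  refine ⟨mul_mem (h.un.rfE_mem _ _) (h.un.rfE_mem _ _), mem_SLV.2 ?_⟩
  rw [LinearEquiv.coe_toLinearMap_mul, map_mul, det_rfE, det_rfE, ← nm_def, ha]

theorem exists_diag' {i j : κ} (hij : i ≠ j) {a : F} (ha : nm P a = 1) :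
    ∃ t ∈ decStab (L F e) ⊓ X, ∀ x, t x =
      x + ((a - 1) * P.B x (e i)) • e i + ((P.σ a - 1) * P.B x (e j)) • e j := by
  obtain ⟨t, h1, h2⟩ := h.exists_diag i j ha
  refine ⟨t, h1, fun x => ?_⟩
  simp only [h2, rf, map_add, map_smul, LinearMap.add_apply, LinearMap.smul_apply,
    h.orth hij.symm]
  module

theorem exists_swap {i j : κ} (hij : i ≠ j) : ∃ s ∈ decStab (L F e) ⊓ X, ∃ m, nm P m = 1 ∧
    s (e i) = m • e j ∧ ∀ l, l ≠ i → l ≠ j → s (e l) = e l := by
  obtain ⟨s, hs, h1, h2⟩ := h.pDec.exists_swap_E h.wild h.dim hij (h.univ i)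
  obtain ⟨m, hm, h3⟩ := h.nm_of_mem (E_le_Iso hs.2) (i := i) (j := j)
    (h1 ▸ Submodule.mem_map_of_mem (mem_L e i))
  exact ⟨s, ⟨hs.1, h.le hs⟩, m, hm, h3, fun l h4 h5 => h2 l h4 h5 _ (mem_L e l)⟩

theorem tx_diag {v : V} (hv : TX P X v) {i j : κ} (hij : i ≠ j) {a : F} (ha : nm P a = 1) :
    TX P X (v + ((a - 1) * P.B v (e i)) • e i + ((P.σ a - 1) * P.B v (e j)) • e j) := by
  obtain ⟨t, h1, h2⟩ := h.exists_diag' hij ha
  exact h2 v ▸ hv.conj h1.2 (h.iso h1.2)

omit h in
variable (P e X) in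
/-- the transvection groups with centre in a coordinate plane lie in `X` -/
def T2 (i j : κ) : Prop := ∀ x y : F, nm P x + nm P y = 0 → TX P X (x • e i + y • e j)

omit h in
theorem T2.symm {i j : κ} (h : T2 P e X i j) : T2 P e X j i :=
  fun x y hxy => add_comm (y • e i) _ ▸ h y x (by rw [add_comm, hxy])

theorem T2_left {i j l : κ} (hij : i ≠ j) (h1 : T2 P e X i j) (hl : l ≠ j) : T2 P e X l j := by
  by_cases hi : i = l
  · exact hi ▸ h1
  obtain ⟨s, hs, m, hm, h2, h3⟩ := h.exists_swap hi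
  intro x y hxy
  simpa [h2, h3 j hij.symm hl.symm, smul_smul, ne_zero_of_nm hm] using
    (h1 (x / m) y (by simpa [hm])).conj hs.2 (h.iso hs.2)

theorem T2_all {i j : κ} (hij : i ≠ j) (h1 : T2 P e X i j) {k l : κ} (hkl : k ≠ l) :
    T2 P e X k l := by
  by_cases hl : l = i
  · subst hl
    exact h.T2_left hij.symm h1.symm hkl
  · exact h.T2_left (Ne.symm hl) (h.T2_left hij.symm h1.symm hl).symm hkl

/-- The final step: a transvection group whose centre is the sum of two isotropic vectors in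
orthogonal coordinate planes. -/
theorem E_le_of_four (h2 : ∀ i j, i ≠ j → T2 P e X i j) {i j k l : κ} (hij : i ≠ j) (hik : i ≠ k)
    (hil : i ≠ l) (hjk : j ≠ k) (hjl : j ≠ l) (hkl : k ≠ l) {a b c d : F} (ha : a ≠ 0) (hc : c ≠ 0)
    (hab : nm P a + nm P b = 0) (hcd : nm P c + nm P d = 0)
    (hv : TX P X (a • e i + b • e j + (c • e k + d • e l))) : P.E ≤ X := by
  obtain ⟨m, hm⟩ := exists_notMem_of_card_lt (s := {i, j, k, l})
    (Finset.card_le_four.trans_lt (by have := h.six; omega))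
  simp only [Finset.mem_insert, Finset.mem_singleton, not_or] at hm
  obtain ⟨m1, m2, m3, m4⟩ := hm
  have hp := h2 i j hij a b hab
  have hr := (h2 k l hkl c d hcd).1
  set p := a • e i + b • e j with hp'
  set r := c • e k + d • e l with hr'
  have hpe : ∀ n, n ≠ i → n ≠ j → P.B (e n) p = 0 := fun n h1 h3 => by simp [hp', h.B, h1, h3]
  have hrp : P.B r p = 0 := by simp [hr', hpe k hik.symm hjk.symm, hpe l hil.symm hjl.symm]
  obtain ⟨δ, hδ0, hδ⟩ := exists_lam_ne_of_unitary h.un.σ h.un.ε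
  let A : AddSubgroup F :=
    { carrier := {x | P.EI X p ((-P.σ δ * x) • r) 0}
      zero_mem' := by simpa using EI.zero _
      add_mem' := fun {x y} hx hy => (EI.add hx hy hp.1 (by simp [hrp]) (by simp [hrp])).congr
        (by module) (by simp [sing_B hr])
      neg_mem' := fun {x} hx => (EI.neg hx hp.1 (by simp [hrp]) (sing_smul hr _)).congr
        (by module) (by simp) }
  have k1 : r ∈ P.eSub X hp.1 := ⟨hrp, fun x => ⟨0, sing_smul hr x, by
    have := h.un.mem_of_mu (A := A) (fun z hz => by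
      have h3 := h.tx_diag (h.tx_diag hv (Ne.symm m3) hz) (Ne.symm m4) hz
      have h4 := h2 k l hkl (z * c) (z * d) (by simp [hz, hcd])
      refine (hp.EI h4 (by
        convert h3 using 1
        simp [hp', hr', h.B, hik, hil, hjk, hjl, hkl, hkl.symm, m1, m2, m3, m4, Ne.symm m1,
          Ne.symm m2, Ne.symm m3, Ne.symm m4]
        module) (by simp [hp', h.B, hik, hil, hjk, hjl]) hδ).congr (by rw [hr']; module) rfl)
      (x / -P.σ δ)
    refine EI.congr this ?_ rfl
    rw [mul_div_cancel₀ _ (by simpa)]⟩⟩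
  obtain ⟨z, hz, hz1⟩ := h.un.exists_mu_ne
  have k2 : e k ∈ P.eSub X hp.1 := by
    obtain ⟨t, h1, h3⟩ := h.exists_diag' (Ne.symm m3) hz
    have := apply_mem_eSub hp.1 h1.2 (h.iso h1.2) (by
      simp [h3, P.B_symm (hpe k hik.symm hjk.symm), P.B_symm (hpe m m1 m2)]) k1
    rw [h3, show P.B r (e m) = 0 by simp [hr', h.B, Ne.symm m3, Ne.symm m4], mul_zero, zero_smul,
      add_zero, Submodule.add_mem_iff_right _ k1, Submodule.smul_mem_iff] at this
    · exact this
    · simp [hr', h.B, hkl.symm, sub_eq_zero, hz1, hc]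
  have k3 : ∀ n, n ≠ i → n ≠ j → e n ∈ P.eSub X hp.1 := fun n h1 h3 => by
    by_cases hn : k = n
    · exact hn ▸ k2
    obtain ⟨s, hs, y, hy, h4, h5⟩ := h.exists_swap hn
    have := apply_mem_eSub hp.1 hs.2 (h.iso hs.2) (by
      simp [hp', h5 i hik h1.symm, h5 j hjk h3.symm]) k2
    rwa [h4, Submodule.smul_mem_iff _ (ne_zero_of_nm hy)] at this
  have k4 : p ∈ P.eSub X hp.1 := ⟨sing_B hp.1, fun x => ⟨0, sing_smul hp.1 x, by
    have := (EI.add_smul_iff (P := P) (X := X) (u := p) (w := 0) (c := 0) x).2 (by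
      simpa [h.un.ε] using hp.2 _ (P.val_min x))
    simpa using this⟩⟩
  have k5 : P.FullA X p := fullA_of_eSub hp.1 hp.2 fun x hx => by
    have h1 : P.σ a * P.B x (e i) + P.σ b * P.B x (e j) = 0 := by simpa [hp'] using hx
    rw [← Submodule.sub_mem_iff_left _ (Submodule.smul_mem _ (P.B x (e i) / a) k4),
      ← h.sum (x - _)]
    refine Submodule.sum_mem _ fun n _ => ?_
    by_cases hi : n = i
    · simp [hi, hp', h.B, hij.symm, ha]
    by_cases hj : n = j
    · have : P.B (x - (P.B x (e i) / a) • p) (e j) = 0 := by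
        have hb : P.σ b ≠ 0 := fun hb => ha (by simpa [P.σ_eq_zero.1 hb] using hab)
        simp only [nm] at hab
        simp [hp', h.B, hij]
        field_simp
        exact mul_left_cancel₀ hb (by linear_combination a * h1 - P.B x (e i) * hab)
      rw [hj, this, zero_smul]
      exact zero_mem _
    · exact Submodule.smul_mem _ _ (k3 n hi hj)
  obtain ⟨t, h1, h3⟩ := h.exists_diag' (Ne.symm m1) hz
  refine E_le_of_fullA hp.1 (Iso.val (h.iso h1.2) hp.1) k5 (k5.conj h1.2 (h.iso h1.2)) ?_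
  rw [h3, P.B.map_add, P.B.map_add, LinearMap.add_apply, LinearMap.add_apply, sing_B hp.1]
  simp [hp', h.B, hij, hij.symm, m1, m2, Ne.symm m1, Ne.symm m2, ha, sub_eq_zero, hz1]

theorem E_le_of_T2 (hb : Big P) (h2 : ∀ i j, i ≠ j → T2 P e X i j) : P.E ≤ X := by
  obtain ⟨f⟩ := Function.Embedding.nonempty_of_card_le (α := Fin 4) (β := κ)
    (by have := h.six; simp; omega)
  have hf : ∀ {a b : Fin 4}, a ≠ b → f a ≠ f b := fun hab => f.injective.ne hab
  obtain ⟨c, hc, hc0, hc1⟩ := h.un.exists_lam hb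
  obtain ⟨y, hy⟩ := h.un.exists_nm (t := -1) (by simp)
  have hy0 : y ≠ 0 := by rintro rfl; simp at hy
  have h3 : ∀ a b : Fin 4, a ≠ b → TX P X (e (f a) + y • e (f b)) := fun a b hab => by
    simpa using h2 _ _ (hf hab) 1 y (by simp [hy])
  have h4 := (h3 2 3 (by decide)).sub ((h3 0 1 (by decide)).sub (h3 1 2 (by decide))
    (h.un.lam.2 hc)) (h.un.lam.2 hc)
  have h5 : nm P c = -c ^ 2 := by simp [nm, hc, sq]
  rw [nm] at hy
  refine h.E_le_of_four h2 (i := f 0) (j := f 3) (k := f 1) (l := f 2) (hf (by decide))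
    (hf (by decide)) (hf (by decide)) (hf (by decide)) (hf (by decide)) (hf (by decide))
    (a := c * P.σ y) (b := c * y * y) (c := 1 - c) (d := y * (1 + c)) (by simp [hc0, hy0])
    (fun h => hc1 (by linear_combination (1 + c) * h)) ?_ ?_ ?_
  · simp only [nm, map_mul, σσ, hc]
    linear_combination (-c ^ 2 * y * P.σ y) * hy
  · simp only [nm, map_mul, map_sub, map_add, map_one, hc]
    linear_combination (1 - c ^ 2) * hy
  · convert h4 using 1
    simp [h.B, hc]
    match_scalars <;> first | ring1 | linear_combination (-c) * hy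

end Ctx

end Cfsg.Agent.H9.UDec
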