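import Cfsg.Agent.H9.UDecB
import Cfsg.Agent.H8.SLFrame

/-!
Orthonormal frames of unitary spaces: new elements fixing a line of the frame, and the columns of
new elements when there are none.
-/

set_option autoImplicit false
set_option linter.unusedSectionVars false

namespace Cfsg.Agent.H9.UDec

open Module H7 H7.Polar H8

variable {F : Type*} [Field F] {V : Type*} [AddCommGroup V] [Module F V] {P : Polar F V}
variable [Finite F] [FiniteDimensional F V]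
variable {κ : Type} [Fintype κ] [DecidableEq κ]

variable (P) in
/-- the isometries of `W` induced modulo `Z` by elements of `X` -/
def Ind (X : Subgroup (V ≃ₗ[F] V)) (W Z : Submodule F V) : Subgroup (V ≃ₗ[F] V) where
  carrier := {y | y ∈ FixIso P W ∧ ∃ g ∈ X, g ∈ stab Z ∧ ∀ x ∈ W, g x - y x ∈ Z}
  one_mem' := ⟨one_mem _, 1, one_mem _, one_mem _, by simp⟩
  mul_mem' := by
    rintro y y' ⟨hy, g, hg, h1, h2⟩ ⟨hy', g', hg', h1', h2'⟩
    refine ⟨mul_mem hy hy', g * g', mul_mem hg hg', mul_mem h1 h1', fun x hx => ?_⟩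
    simpa using add_mem ((h1 _).1 (h2' x hx)) (h2 _ (FixIso.apply_mem hy' le_rfl hx))
  inv_mem' := by
    rintro y ⟨hy, g, hg, h1, h2⟩
    refine ⟨inv_mem hy, g⁻¹, inv_mem hg, inv_mem h1, fun x hx => (h1 _).2 ?_⟩
    simpa using neg_mem (h2 _ (FixIso.apply_mem (inv_mem hy) le_rfl hx))

theorem rx_ind (h : Un P) {X : Subgroup (V ≃ₗ[F] V)} {W Z : Submodule F V} {u : V}
    (hu : P.B u u = 1) (huW : u ∈ W) (hX : ∀ a, nm P a = 1 →
      ∃ g ∈ X, g ∈ stab Z ∧ ∀ x ∈ W, g x - rf P u a x ∈ Z) : RX P (Ind P X W Z) u :=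
  ⟨hu, fun a ha => ⟨rfE hu ha, ⟨⟨h.rfE_mem hu ha, fun _ hx => rf_fix a (hx u huW)⟩, hX a ha⟩,
    fun _ => rfl⟩⟩

theorem ON.nm_add {e : κ → V} (h : ON P e) {j k : κ} (hjk : j ≠ k) {α β : F}
    (h1 : P.B (α • e j + β • e k) (α • e j + β • e k) = 1) : nm P α + nm P β = 1 := by
  simpa [h.B, hjk, hjk.symm, nm, mul_comm] using h1

namespace Ctx

variable {e : κ → V} {X : Subgroup (V ≃ₗ[F] V)} (h : Ctx P e X)
include h

theorem E_le_of_fix_self (hb : Big P) {g : V ≃ₗ[F] V} (hg : g ∈ X) (hg' : g ∉ decStab (L F e))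
    {i : κ} (hi : g (e i) ∈ L F e i) : P.E ≤ X := by
  have key : ∀ g ∈ X, g (e i) ∈ L F e i → ∀ k, k ≠ i → P.B (g (e k)) (e i) = 0 ∧
      RX P (Ind P X (P.perp (L F e i)) ⊥) (g (e k)) := fun g hg hi k hk => by
    obtain ⟨m, hm, h1⟩ := h.nm_of_mem (h.iso hg) hi
    have h2 : P.B (g (e k)) (e i) = 0 := by
      simpa [h1, ne_zero_of_nm hm] using (h.map hg).orth hk
    refine ⟨h2, rx_ind h.un ((h.map hg).one k) (h.perp_L.2 h2) fun a ha => ?_⟩
    obtain ⟨t, h3, h4⟩ := (h.map hg).exists_diag k i ha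
    exact ⟨t, h3.2, by simp [mem_stab], fun x hx => by
      rw [h4, rf_fix (x := x) _ (by simp [h1, h.perp_L.1 hx]), sub_self]; exact zero_mem _⟩
  obtain ⟨k, hk⟩ : ∃ k, ∀ j, g (e k) ∉ L F e j := by simpa [h.mem_mon] using hg'
  have hki : k ≠ i := by rintro rfl; exact hk _ hi
  have h0 : ∀ k, k ≠ i → RX P (Ind P X (P.perp (L F e i)) ⊥) (e k) := fun k hk =>
    (key 1 (one_mem _) (mem_L e i) k hk).2
  obtain ⟨j, hj, k, hk, hjk, α, β, hα, hβ, h1⟩ := h.weight hb (K := {k | k ≠ i}) h0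
    (key g hg hi k hki).2 (fun l hl => by rintro rfl; exact hl (key g hg hi k hki).1)
    (h.two_le_supp hk i)
  have h2 := h.nm_add hjk h1.1
  refine h.E_le_of_T2 hb fun _ _ => h.T2_all hjk fun x y hxy => ?_
  have h3 := tx_plane h.un (h0 j hj) h1 (by simp [h.orth hjk.symm]) (by simpa)
    (fun h3 => hβ (by simpa [h3] using h2)) (x := x) (y := y / β) (by
      rw [← h2, add_sub_cancel_left, nm_div, div_mul_cancel₀ _ (by simpa), hxy])
  rw [smul_smul, div_mul_cancel₀ _ hβ] at h3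
  refine ⟨h3.1, fun c hc => ?_⟩
  obtain ⟨h4, t, ht, -, h5⟩ := h3.mem hc
  have h6 : t⁻¹ * eichE h3.1 (by simp) hc ∈ FixIso P (L F e i) :=
    ⟨P.Iso.mul_mem (P.Iso.inv_mem (h.iso ht)) h4.1, fun x hx => by
      rw [LinearEquiv.mul_apply, ← sub_eq_zero.1 (h5 x hx)]
      exact t.symm_apply_apply x⟩
  exact EI_of_mem _ _ hc (by simpa using mul_mem ht (h.le ⟨h.pDec.FixIso_le i h6,
    P.E.mul_mem (P.E.inv_mem (h.le' ht)) (eichE_mem_E _ _ _)⟩))

theorem E_le_of_fix (hb : Big P) {g : V ≃ₗ[F] V} (hg : g ∈ X) (hg' : g ∉ decStab (L F e))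
    {i j : κ} (hi : g (e i) ∈ L F e j) : P.E ≤ X := by
  by_cases hij : j = i
  · exact h.E_le_of_fix_self hb hg hg' (hij ▸ hi)
  obtain ⟨s, hs, m, -, h1, -⟩ := h.exists_swap hij
  refine h.E_le_of_fix_self hb (mul_mem hs.2 hg) (fun h2 => hg' ?_) (i := i) ?_
  · simpa using Subgroup.mul_mem _ (Subgroup.inv_mem _ hs.1) h2
  · obtain ⟨a, ha⟩ := Submodule.mem_span_singleton.1 hi
    rw [LinearEquiv.mul_apply, ← ha, map_smul, h1]
    exact Submodule.smul_mem _ _ (Submodule.smul_mem _ _ (mem_L e i))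

end Ctx

section aux

variable {D D' : κ → Submodule F V} (h : Dec 1 D) (h' : Dec 1 D')
  (hd : ∀ i j v, v ∈ D i → v ∈ D' j → v = 0)
  {a : F} (a0 : a ≠ 0) (a1 : a - 1 ≠ 0) (a2 : a + 1 ≠ 0) (a3 : a + a⁻¹ + 1 ≠ 0)
include h h' hd a0 a1 a2 a3

theorem exists_two {k l : κ} (hkl : k ≠ l) {t : V ≃ₗ[F] V} (ht : t ∈ decStab D')
    (h1 : ∀ x, t x = x + (a - 1) • h.pr k x + (a⁻¹ - 1) • h.pr l x) :
    ∃ r, ∃ x ∈ D' r, h.pr k x ≠ 0 ∧ h.pr l x ≠ 0 ∧ ∀ m, m ≠ k → m ≠ l → h.pr m x = 0 := by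
  suffices ∃ r, ∃ x ∈ D' r, x ≠ 0 ∧ ∀ m, m ≠ k → m ≠ l → h.pr m x = 0 by
    obtain ⟨r, x, hx, x0, h2⟩ := this
    refine ⟨r, x, hx, fun h3 => x0 (hd l r x (h.mem_iff.2 fun m hm => ?_) hx),
      fun h3 => x0 (hd k r x (h.mem_iff.2 fun m hm => ?_) hx), h2⟩
    · exact if h4 : m = k then h4 ▸ h3 else h2 m h4 hm
    · exact if h4 : m = l then h4 ▸ h3 else h2 m hm h4
  have h2 : ∀ m, m ≠ k → m ≠ l → ∀ x, h.pr m (t x) = h.pr m x := fun m h2 h3 x => by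
    simp [h1, h.pr_pr_ne h2.symm, h.pr_pr_ne h3.symm]
  obtain ⟨u, hu, u0⟩ := h.exists_ne_zero k
  obtain ⟨r, x, hx, h3⟩ := h'.exists_moved (t := t) (y := u) (by
    simp [h1, h.pr_self hu, h.pr_ne hkl hu, a1, u0, add_assoc])
  obtain ⟨σ, hσ⟩ := Dec.exists_perm ht
  by_cases h4 : σ r = r
  · exact ⟨r, t x - x, sub_mem (h4 ▸ hσ r x hx) hx, sub_ne_zero.2 h3,
      fun m h5 h6 => by rw [map_sub, h2 m h5 h6, sub_self]⟩
  have x0 : x ≠ 0 := by rintro rfl; simp at h3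
  refine ⟨r, x, hx, x0, fun m h5 h6 => ?_⟩
  have h7 : t (t (t x)) = (a + a⁻¹ + 1) • t (t x) - (a + a⁻¹ + 1) • t x + x := by
    simp only [h1, map_add, map_smul, Dec.pr_pr, h.pr_pr_ne hkl, h.pr_pr_ne hkl.symm,
      smul_zero, add_zero]
    match_scalars <;> field_simp <;> ring
  have h8 := congrArg (h'.pr (σ r)) h7
  rw [map_add, map_sub, map_smul, map_smul, h'.pr_ne (Ne.symm h4) hx,
    h'.pr_self (hσ r x hx), h'.pr_ne (σ.injective.ne h4) (hσ _ _ (hσ r x hx)),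
    h'.pr_of_mem (hσ _ _ (hσ _ _ (hσ r x hx)))] at h8
  split_ifs at h8
  · have h9 : t (t x) = -(a + a⁻¹ + 1) • x := t.injective (by
      rw [h8, map_smul]; module)
    have h10 := congrArg (h.pr m) h9
    rw [h2 m h5 h6, h2 m h5 h6, map_smul] at h10
    refine (smul_eq_zero.1 (show ((a + 1) ^ 2 / a) • h.pr m x = 0 by
      linear_combination (norm := skip) h10
      match_scalars
      field_simp; ring)).resolve_left (div_ne_zero (pow_ne_zero _ a2) a0)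
  · simp [a3, x0] at h8

theorem one_zero_aux (hn : 5 ≤ Fintype.card κ)
    (key : ∀ {w i}, w ∈ D' i → w ≠ 0 → ∀ {k l}, k ≠ l → h.pr k w = 0 → h.pr l w = 0 →
      ∃ t ∈ decStab D', ∀ x, t x = x + (a - 1) • h.pr k x + (a⁻¹ - 1) • h.pr l x)
    {w : V} {i : κ} (hw : w ∈ D' i) (w0 : w ≠ 0) {k l : κ} (hkl : k ≠ l)
    (hk : h.pr k w = 0) (hl : h.pr l w = 0) : False := by
  obtain ⟨t, h1, h2⟩ := key hw w0 hkl hk hl
  obtain ⟨r, x, hx, h3, -, h4⟩ := exists_two h h' hd a0 a1 a2 a3 hkl h1 h2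
  have x0 : x ≠ 0 := by rintro rfl; simp at h3
  obtain ⟨m₁, hm₁⟩ := exists_notMem_of_card_lt (s := {k, l}) (Finset.card_le_two.trans_lt (by omega))
  obtain ⟨m₂, hm₂⟩ := exists_notMem_of_card_lt (s := {k, l, m₁})
    (Finset.card_le_three.trans_lt (by omega))
  obtain ⟨m₃, hm₃⟩ := exists_notMem_of_card_lt (s := {k, l, m₁, m₂})
    (Finset.card_le_four.trans_lt hn)
  simp only [Finset.mem_insert, Finset.mem_singleton, not_or] at hm₁ hm₂ hm₃
  obtain ⟨t, h5, h6⟩ := key hx x0 (Ne.symm hm₂.2.2) (h4 _ hm₁.1 hm₁.2) (h4 _ hm₂.1 hm₂.2.1)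
  obtain ⟨s, y, hy, h7, -, h8⟩ := exists_two h h' hd a0 a1 a2 a3 (Ne.symm hm₂.2.2) h5 h6
  obtain ⟨t, h9, h10⟩ := key hx x0 (Ne.symm hm₃.2.2.1) (h4 _ hm₁.1 hm₁.2) (h4 _ hm₃.1 hm₃.2.1)
  have h11 := h8 _ hm₃.2.2.1 hm₃.2.2.2
  obtain ⟨s', hs'⟩ := Dec.exists_mem h9 hy
  obtain ⟨s'', hs''⟩ := Dec.exists_mem h9 hs'
  refine h'.false_of_three hy hs' (u := s'') (α := -a) (β := a + 1) ?_ (neg_ne_zero.2 a0) a2
    (by rintro rfl; simp at h7) fun h12 => ?_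
  · convert hs'' using 1
    simp [h10, h11, h.pr_pr_ne (Ne.symm hm₃.2.2.1)]
    module
  · refine smul_ne_zero a1 h7 (hd m₁ s _ ((D m₁).smul_mem _ (h.pr_mem _ _)) ?_)
    simpa [h10, h11, add_sub_cancel_left] using sub_mem h12 hy

end aux

variable (P) in
/-- no new element maps a line of the frame to a line of the frame -/
structure Fr (e : κ → V) (X : Subgroup (V ≃ₗ[F] V)) : Prop extends Ctx P e X where
  big : Big P
  fix : ∀ g ∈ X, ∀ i j, g (e i) ∈ L F e j → g ∈ decStab (L F e)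

namespace Fr

variable {e : κ → V} {X : Subgroup (V ≃ₗ[F] V)} (h : Fr P e X)
include h

/-- A column of a new element has at most one zero. -/
theorem mem_of_zero {g : V ≃ₗ[F] V} (hg : g ∈ X) {i k l : κ} (hkl : k ≠ l)
    (hk : P.B (g (e i)) (e k) = 0) (hl : P.B (g (e i)) (e l) = 0) : g ∈ decStab (L F e) := by
  by_contra hg'
  obtain ⟨a, ha, a1, a2, a3⟩ := h.un.exists_mu_four h.big
  have h' := h.toCtx.map hg
  refine one_zero_aux h.pDec.toDec h'.pDec.toDec (fun i j v h1 h2 => ?_) (ne_zero_of_nm ha)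
    a1 a2 a3 (by have := h.six; omega) (fun {w i} hw w0 {k l} hkl hk hl => ?_) (mem_L _ i)
    (h'.ne_zero i) hkl (by simp [h.pr, hk]) (by simp [h.pr, hl])
  · obtain ⟨c, rfl⟩ := Submodule.mem_span_singleton.1 h2
    by_contra h3
    exact hg' (h.fix g hg j i ((Submodule.smul_mem_iff _ (by rintro rfl; simp at h3)).1 h1))
  · obtain ⟨t, h1, h2⟩ := h.exists_diag' hkl ha
    obtain ⟨c, rfl⟩ := Submodule.mem_span_singleton.1 hw
    have hc : c ≠ 0 := by rintro rfl; simp at w0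
    simp only [h.pr, map_smul, LinearMap.smul_apply, smul_eq_zero, smul_eq_mul, mul_eq_zero, hc,
      h.ne_zero, false_or, or_false] at hk hl
    have h3 := h.fix (g⁻¹ * t * g) (mul_mem (mul_mem (inv_mem hg) h1.2) hg) i i (by
      simp [h2, hk, hl])
    refine ⟨t, h'.mem_mon.2 fun m => ?_, fun x => by simp [h2, h.pr, smul_smul, σ_eq_inv ha]⟩
    obtain ⟨j, hj⟩ := h.mem_mon.1 h3 m
    obtain ⟨b, hb⟩ := Submodule.mem_span_singleton.1 hj
    exact ⟨j, Submodule.mem_span_singleton.2 ⟨b, by rw [← map_smul, hb]; simp⟩⟩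

theorem mem_of_supp {g : V ≃ₗ[F] V} (hg : g ∈ X) {i : κ} {S : Finset κ} (hS : S.card ≤ 4)
    (h1 : ∀ m, m ∉ S → P.B (g (e i)) (e m) = 0) : g ∈ decStab (L F e) := by
  obtain ⟨k, hk, l, hl, hkl⟩ := Finset.one_lt_card.1 (show 1 < Sᶜ.card by
    have := h.six; rw [Finset.card_compl]; omega)
  exact h.mem_of_zero hg hkl (h1 k (by simpa using hk)) (h1 l (by simpa using hl))

theorem le_of_odd (h2 : (2 : F) ≠ 0) : X ≤ decStab (L F e) :=
  ztrick h.pDec h2 (by omega) (by have := h.six; omega) h.wild h.dim h.le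
    (h.le'.trans E_le_Iso) fun g hg i S hS h1 => h.mem_of_supp hg hS fun m hm => by
      simpa [h.pr, h.ne_zero] using h1 _ (mem_L e i) m hm

end Fr

end Cfsg.Agent.H9.UDec
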