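import Cfsg.Agent.H9.UDecC

/-!
Orthonormal frames of unitary spaces in characteristic two.
-/

set_option autoImplicit false
set_option linter.unusedSectionVars false

namespace Cfsg.Agent.H9.UDec

open Module H7 H7.Polar H8

variable {F : Type*} [Field F] {V : Type*} [AddCommGroup V] [Module F V] {P : Polar F V}
variable [Finite F] [FiniteDimensional F V]
variable {κ : Type} [Fintype κ] [DecidableEq κ]

variable (P) in
/-- the centres of the monomial transvections -/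
def R0 (e : κ → V) (v : V) : Prop :=
  ∃ i j, i ≠ j ∧ ∃ a b : F, nm P a = 1 ∧ nm P b = 1 ∧ v = a • e i + b • e j

variable (P) in
/-- the monomial transvections -/
def ZT (e : κ → V) : Set (V ≃ₗ[F] V) := {t | ∃ v, R0 P e v ∧ ∀ x, t x = x - P.B x v • v}

theorem conj_tv {g t : V ≃ₗ[F] V} (hg : g ∈ P.Iso) {v : V} (ht : ∀ x, t x = x - P.B x v • v)
    (x : V) : (g * t * g⁻¹) x = x - P.B x (g v) • g v := by
  obtain ⟨x, rfl⟩ := g.surjective x
  simp [ht, Iso.B hg]

namespace Ctx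

variable {e : κ → V} {X : Subgroup (V ≃ₗ[F] V)} (h : Ctx P e X) (h2 : (2 : F) = 0)
include h h2

theorem R0_sing {v : V} (hv : R0 P e v) : P.B v v = 0 := by
  obtain ⟨i, j, hij, a, b, ha, hb, rfl⟩ := hv
  simp only [nm] at ha hb
  simp [h.B, hij, hij.symm]
  linear_combination ha + hb + h2

omit h2 in
theorem R0_ne {v : V} (hv : R0 P e v) : v ≠ 0 := by
  obtain ⟨i, j, hij, a, b, ha, hb, rfl⟩ := hv
  intro h0
  simpa [h.B, hij.symm, ne_zero_of_nm ha] using congrArg (P.B · (e i)) h0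

theorem exists_tv {v : V} (hv : R0 P e v) :
    ∃ t ∈ decStab (L F e) ⊓ X, ∀ x, t x = x - P.B x v • v := by
  have h1 : P.Val 0 1 := h.un.lam.2 (by simp; linear_combination h2)
  have h3 := h.un.sing.2 (h.R0_sing h2 hv)
  have h4 : ∀ x, eichE h3 (by simp) h1 x = x - P.B x v • v := fun x => by
    rw [eichE_apply, eich_tv]; simp
  have h5 : eichE h3 (by simp) h1 ∈ decStab (L F e) := by
    obtain ⟨i, j, hij, a, b, ha, hb, rfl⟩ := hv
    simp only [nm] at ha hb
    refine h.mem_mon.2 fun l => ⟨Equiv.swap i j l, h.mem_L_iff.2 fun m hm => ?_⟩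
    rw [h4]
    by_cases hi : l = i
    · subst hi
      by_cases hl : l = m
      · simp [← hl, h.B, hij, hij.symm]; linear_combination -ha
      · simp at hm; simp [h.B, hl, Ne.symm hm]
    by_cases hj : l = j
    · subst hj
      by_cases hl : l = m
      · simp [← hl, h.B, hij, hij.symm]; linear_combination -hb
      · simp at hm; simp [h.B, hl, Ne.symm hm]
    · rw [Equiv.swap_apply_of_ne_of_ne hi hj] at hm
      simp [h.B, hi, hj, hm.symm]
  exact ⟨_, ⟨h5, h.le ⟨h5, eichE_mem_E _ _ _⟩⟩, h4⟩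

theorem ZT_mem {t : V ≃ₗ[F] V} (ht : t ∈ ZT P e) : t ∈ decStab (L F e) ⊓ X := by
  obtain ⟨v, hv, h1⟩ := ht
  obtain ⟨t', h3, h4⟩ := h.exists_tv h2 hv
  rwa [show t = t' from LinearEquiv.ext fun x => by rw [h1, h4]]

theorem R0_of_mon {v : V} (hv : P.B v v = 0) (h0 : v ≠ 0) {t : V ≃ₗ[F] V}
    (ht : t ∈ decStab (L F e)) (h1 : ∀ x, t x = x - P.B x v • v) : R0 P e v := by
  obtain ⟨i, hi⟩ : ∃ i, P.B v (e i) ≠ 0 := by
    by_contra! H; exact h0 (h.span v H)
  obtain ⟨j, hj⟩ := h.mem_mon.1 ht i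
  rw [h.mem_L_iff] at hj
  have h3 : ∀ l, l ≠ i → l ≠ j → P.B v (e l) = 0 := fun l k1 k2 => by
    simpa [h1, h.orth k1.symm, P.B_ne_symm hi] using hj l k2
  have hij : i ≠ j := by
    rintro rfl
    obtain ⟨c, rfl⟩ := Submodule.mem_span_singleton.1 (h.mem_L_iff.2 fun l hl => h3 l hl hl)
    simp [h.one] at hv hi
    exact hi hv
  have h4 : nm P (P.B v (e i)) = 1 := by
    have := hj i hij
    simp [h1, h.one, ← h.un.σB v] at this
    rw [nm]; linear_combination -this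
  have h5 := h.eq_two hij h3
  refine ⟨i, j, hij, _, _, h4, ?_, h5⟩
  rw [h5] at hv
  simp only [nm] at h4 ⊢
  simp [h.B, hij, hij.symm] at hv
  linear_combination hv - h4 - h2

theorem R0_of_conj {v : V} (hv : R0 P e v) {g t : V ≃ₗ[F] V} (hg : g ∈ P.Iso)
    (ht : ∀ x, t x = x - P.B x v • v) (h1 : g * t * g⁻¹ ∈ decStab (L F e)) : R0 P e (g v) :=
  h.R0_of_mon h2 (by rw [Iso.B hg, h.R0_sing h2 hv]) (by simpa using h.R0_ne hv) h1 (conj_tv hg ht)

theorem exists_lift {i j m : κ} (hij : i ≠ j) (hi : m ≠ i) (hj : m ≠ j) {a b : F} (ha : nm P a = 1)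
    (hb : nm P b = 1) {u : V} (hu : u = a • e i + b • e j) {c : F} (hc : nm P c = 1) :
    ∃ g ∈ X, g ∈ stab (F ∙ u) ∧ ∀ x, P.B x u = 0 → g x - rf P (e m) c x ∈ F ∙ u := by
  have := Fintype.ofFinite F
  obtain ⟨d, rfl⟩ := FiniteField.isSquare_of_char_two (F := F) (by
    have : CharP F 2 := CharTwo.of_one_ne_zero_of_two_eq_zero one_ne_zero h2
    exact ringChar.eq F 2) c
  have hd : nm P (P.σ d) = 1 := by
    rw [nm_mul] at hc
    rw [nm_σ]
    have : (nm P d - 1) ^ 2 = 0 := by linear_combination hc + (1 - nm P d) * h2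
    exact sub_eq_zero.1 (pow_eq_zero_iff two_ne_zero |>.1 this)
  obtain ⟨t, h1, h3⟩ := h.exists_diag' hi.symm hd
  obtain ⟨t', h1', h3'⟩ := h.exists_diag' hj.symm hd
  have h4 : ∀ x, (t * t') x = rf P (e m) (d * d) x +
      (P.σ d - 1) • (P.B x (e i) • e i + P.B x (e j) • e j) := fun x => by
    simp [h3, h3', rf, h.B, hi, hij.symm, hj.symm]
    module
  refine ⟨t * t', mul_mem h1.2 h1'.2, mem_stab_of_forall fun x hx => ?_, fun x hx => ?_⟩
  · obtain ⟨y, rfl⟩ := Submodule.mem_span_singleton.1 hx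
    refine Submodule.mem_span_singleton.2 ⟨y * P.σ d, ?_⟩
    rw [h4]
    simp [hu, rf, h.B, hij, hij.symm, hi.symm, hj.symm]
    module
  · refine Submodule.mem_span_singleton.2 ⟨(P.σ d - 1) * (P.σ a * P.B x (e i)), ?_⟩
    simp only [nm] at ha hb
    simp [hu] at hx
    rw [h4, add_sub_cancel_left, hu]
    match_scalars
    · linear_combination ((P.σ d - 1) * P.B x (e i)) * ha
    · linear_combination ((P.σ d - 1) * b) * hx - ((P.σ d - 1) * P.B x (e j)) * hb -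
        ((P.σ d - 1) * P.B x (e j)) * h2

end Ctx

namespace Fr

variable {e : κ → V} {X : Subgroup (V ≃ₗ[F] V)} (h : Fr P e X) (h2 : (2 : F) = 0)
include h h2

theorem R0_of_zero {v : V} (hv : R0 P e v) {g : V ≃ₗ[F] V} (hg : g ∈ X) {l : κ}
    (hl : P.B (g v) (e l) = 0) : R0 P e (g v) := by
  obtain ⟨t, h1, h3⟩ := h.exists_tv h2 hv
  exact h.R0_of_conj h2 hv (h.iso hg) h3 (h.fix _ (mul_mem (mul_mem hg h1.2) (inv_mem hg)) l l (by
    simp [conj_tv (h.iso hg) h3, P.B_symm hl, -LinearEquiv.mul_apply]))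

/-- A monomial transvection determines the frame. -/
theorem mem_of_R0 {v : V} (hv : R0 P e v) {g : V ≃ₗ[F] V} (hg : g ∈ X) (hv' : R0 P e (g v)) :
    g ∈ decStab (L F e) := by
  by_contra hg'
  have hs := h.R0_sing h2 hv'
  obtain ⟨i, j, hij, a, b, ha, hb, rfl⟩ := hv
  obtain ⟨k, l, hkl, a', b', ha', hb', hu'⟩ := hv'
  have h' := h.toCtx.map hg
  have hu : g (a • e i + b • e j) = a • g (e i) + b • g (e j) := by simp
  generalize g (a • e i + b • e j) = u at hu hu' hs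
  have hW : ∀ x ∈ P.pp (e k) ⊓ P.pp (e l), P.B x u = 0 := fun x hx => by
    simp [hu', mem_pp.1 hx.1, mem_pp.1 hx.2]
  have hue : ∀ m, m ≠ k → m ≠ l → P.B u (e m) = 0 := fun m k1 k2 => by
    simp [hu', h.orth k1.symm, h.orth k2.symm]
  have h6 := h.six
  obtain ⟨m, hm⟩ := exists_notMem_of_card_lt (s := {i, j}) (Finset.card_le_two.trans_lt (by omega))
  simp only [Finset.mem_insert, Finset.mem_singleton, not_or] at hm
  have hmu : P.B (g (e m)) u = 0 := by simp [hu, h'.orth hm.1, h'.orth hm.2]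
  set β := P.σ a' * P.B (g (e m)) (e k) with hβ
  have hf : g (e m) - β • u ∈ P.pp (e k) ⊓ P.pp (e l) := by
    simp only [nm] at ha' hb'
    simp [hu'] at hmu
    simp [hβ, hu', h.B, hkl, hkl.symm]
    exact ⟨by linear_combination -P.B (g (e m)) (e k) * ha',
      by linear_combination -b' * hmu + P.B (g (e m)) (e l) * hb' + P.B (g (e m)) (e l) * h2⟩
  obtain ⟨r, hr, s, hs', hrs, α, γ, hα, hγ, h1⟩ := h.weight h.big (K := {m | m ≠ k ∧ m ≠ l})
    (Y := Ind P X (P.pp (e k) ⊓ P.pp (e l)) (F ∙ u)) (f := g (e m) - β • u)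
    (fun n hn => rx_ind h.un (h.one n) ⟨h.orth hn.1, h.orth hn.2⟩ fun c hc => by
      obtain ⟨t, k1, k2, k3⟩ := h.exists_lift h2 hkl hn.1 hn.2 ha' hb' hu' hc
      exact ⟨t, k1, k2, fun x hx => k3 x (hW x hx)⟩)
    (rx_ind h.un (by simp [h'.one m, hmu, P.B_symm hmu, hs]) hf fun c hc => by
      obtain ⟨t, k1, k2, k3⟩ := h'.exists_lift h2 hij hm.1 hm.2 ha hb hu hc
      refine ⟨t, k1, k2, fun x hx => ?_⟩
      convert add_mem (k3 x (hW x hx)) (Submodule.smul_mem _ ((c - 1) * P.B x (g (e m)) * β)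
        (Submodule.mem_span_singleton_self u)) using 1
      simp [rf, hW x hx]
      module)
    (fun n hn => ⟨by rintro rfl; exact hn hf.1, by rintro rfl; exact hn hf.2⟩)
    (h.two_le_supp (fun r hr => hg' (h.mem_of_supp hg (i := m) (S := {r, k, l})
      (Finset.card_le_three.trans (by omega)) fun n hn => by
        simp only [Finset.mem_insert, Finset.mem_singleton, not_or] at hn
        simpa [hue n hn.2.1 hn.2.2] using h.mem_L_iff.1 hr n hn.1)) m)
  obtain ⟨c, hc, hc1⟩ := h.un.exists_mu_ne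
  obtain ⟨-, t, ht, -, h3⟩ := h1.mem hc
  have h4 : ∀ x ∈ P.pp (e k) ⊓ P.pp (e l), ∀ n, n ≠ k → n ≠ l →
      P.B (t x) (e n) = P.B (rf P (α • e r + γ • e s) c x) (e n) := fun x hx n k1 k2 => by
    obtain ⟨y, hy⟩ := Submodule.mem_span_singleton.1 (h3 x hx)
    simpa [hue n k1 k2, sub_eq_zero] using congrArg (P.B · (e n)) hy.symm
  obtain ⟨n, hn⟩ := exists_notMem_of_card_lt (s := {k, l, r, s})
    (Finset.card_le_four.trans_lt (by omega))
  simp only [Finset.mem_insert, Finset.mem_singleton, not_or] at hn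
  obtain ⟨z, hz⟩ := h.mem_mon.1 (h.mem_of_supp ht (i := n) (S := {n, k, l})
    (Finset.card_le_three.trans (by omega)) fun p hp => by
      simp only [Finset.mem_insert, Finset.mem_singleton, not_or] at hp
      rw [h4 _ ⟨h.orth hn.1, h.orth hn.2.1⟩ p hp.2.1 hp.2.2]
      simp [rf, h.B, hn, Ne.symm hp.1]) r
  rw [h.mem_L_iff] at hz
  have h5 := h4 _ ⟨h.orth hr.1, h.orth hr.2⟩
  have h7 : s = z := by
    by_contra h7
    have := hz s h7
    rw [h5 s hs'.1 hs'.2] at this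
    simp [rf, h.B, hrs, hα, hγ, sub_eq_zero, hc1] at this
  have h8 := hz r (h7 ▸ hrs)
  rw [h5 r hr.1 hr.2] at h8
  simp [rf, h.B, hrs, hrs.symm] at h8
  have h9 := congrArg P.σ h8
  simp at h9
  have h10 : P.σ c = c := mul_right_cancel₀ (b := α * P.σ α) (by simpa)
    (by linear_combination h9 - h8)
  rw [nm, h10] at hc
  have : (c - 1) ^ 2 = 0 := by linear_combination hc + (1 - c) * h2
  exact hc1 (sub_eq_zero.1 (pow_eq_zero_iff two_ne_zero |>.1 this))

theorem oddCtx : OddCtx X (decStab (L F e) ⊓ X) (ZT P e) where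
  le := inf_le_right
  mem _ := h.ZT_mem h2
  sq := by
    rintro t ⟨v, hv, h1⟩
    ext x
    simp [h1, h.R0_sing h2 hv]
    linear_combination (norm := module) -h2 • P.B x v • v
  conj := by
    rintro g hg t ⟨v, hv, h1⟩
    exact ⟨g v, h.R0_of_conj h2 hv (h.iso hg.2) h1 (mul_mem (mul_mem hg (h.ZT_mem h2 ⟨v, hv, h1⟩))
      (inv_mem hg)).1, conj_tv (h.iso hg.2) h1⟩
  hD := by
    rintro g hg t ⟨v, hv, h1⟩ h3
    exact ⟨h.mem_of_R0 h2 hv hg (h.R0_of_conj h2 hv (h.iso hg) h1 h3.1), hg⟩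
  hE := by
    rintro g hg t ⟨v, hv, h1⟩ t₁ ⟨v₁, hv₁, h1'⟩ τ ⟨w, hw, h3⟩ τ₁ ⟨w₁, hw₁, h3'⟩ hne - h4
    have key : ∀ w, R0 P e w → ∀ (x : V) (c : F), c ≠ 0 → (t * t₁) x - x = c • g w →
        g ∈ decStab (L F e) ⊓ X := fun w hw x c hc h5 => by
      obtain ⟨i, j, -, a, b, -, -, rfl⟩ := hv
      obtain ⟨k, l, -, a', b', -, -, rfl⟩ := hv₁
      obtain ⟨n, hn⟩ := exists_notMem_of_card_lt (s := {i, j, k, l})
        (Finset.card_le_four.trans_lt (by have := h.six; omega))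
      simp only [Finset.mem_insert, Finset.mem_singleton, not_or] at hn
      refine ⟨h.mem_of_R0 h2 hw hg (h.R0_of_zero h2 hw hg (l := n) ?_), hg⟩
      simpa [h1, h1', h.orth (Ne.symm hn.1), h.orth (Ne.symm hn.2.1), h.orth (Ne.symm hn.2.2.1),
        h.orth (Ne.symm hn.2.2.2), hc] using congrArg (P.B · (e n)) h5
    have h5 : ∀ x, (t * t₁) x = (x - P.B x (g w₁) • g w₁) -
        P.B (x - P.B x (g w₁) • g w₁) (g w) • g w := fun x => by
      rw [h4, ← conj_mul, LinearEquiv.mul_apply, conj_tv (h.iso hg) h3, conj_tv (h.iso hg) h3']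
    by_cases h6 : g w ∈ F ∙ g w₁
    · obtain ⟨c, hc⟩ := Submodule.mem_span_singleton.1 h6
      obtain ⟨x, hx⟩ : ∃ x, (t * t₁) x ≠ x := by
        by_contra! H
        refine hne (LinearEquiv.ext fun x => ?_)
        obtain ⟨y, rfl⟩ := t₁.surjective x
        rw [← LinearEquiv.mul_apply, H, h1', h1']
        simp [h.R0_sing h2 hv₁]
        linear_combination (norm := module) h2 • P.B y v₁ • v₁
      have h7 : (t * t₁) x - x = -(P.B x (g w₁) + P.B (x - P.B x (g w₁) • g w₁) (g w) * c) • g w₁ := by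
        rw [h5]
        generalize P.B (x - _) (g w) = z
        rw [← hc]
        module
      exact key w₁ hw₁ x _ (fun h8 => hx (by rwa [h8, zero_smul, sub_eq_zero] at h7)) h7
    · obtain ⟨x, hx, hx'⟩ := exists_sep' (P := P) h6 1
      rw [perp_span_singleton, mem_pp] at hx
      exact key w hw x (-1) (by simp) (by simp [h5, hx, hx', -LinearEquiv.mul_apply])

theorem le_of_even : X ≤ decStab (L F e) := by
  have hC := h.oddCtx h2
  have := finite_linearEquiv (F := F) (V := V)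
  intro g hg
  by_contra hg'
  obtain ⟨f⟩ := Function.Embedding.nonempty_of_card_le (α := Fin 5) (β := κ)
    (by have := h.six; simp; omega)
  have hz : ∀ a b : Fin 5, a ≠ b → ∃ t ∈ ZT P e,
      ∀ x, t x = x - P.B x (e (f a) + e (f b)) • (e (f a) + e (f b)) := fun a b hab => by
    have h1 : R0 P e (e (f a) + e (f b)) := ⟨_, _, f.injective.ne hab, 1, 1, by simp, by simp, by simp⟩
    obtain ⟨t, -, h3⟩ := h.exists_tv h2 h1
    exact ⟨t, ⟨_, h1, h3⟩, h3⟩
  obtain ⟨t', ht', h3'⟩ := hz 0 1 (by decide)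
  obtain ⟨t, ht, h3⟩ := hz 2 3 (by decide)
  obtain ⟨s, h4, h5⟩ := hC.exists_swaps hg (fun h => hg' h.1) ht
  have key : ∀ t ∈ ZT P e, ∃ u, P.B u (e (f 4)) ≠ 0 ∧ ∀ x, s t x = x - P.B x u • u := fun t ht => by
    obtain ⟨⟨g, hg, τ, ⟨w, hw, h6⟩, h7⟩, h8⟩ := h4 t ht
    have h9 := conj_tv (h.iso hg) h6
    rw [← h7] at h9
    exact ⟨g w, fun h10 => h8 (h.ZT_mem h2 ⟨_, h.R0_of_zero h2 hw hg h10, h9⟩), h9⟩
  obtain ⟨u, hu, h6⟩ := key t ht
  obtain ⟨u', -, h6'⟩ := key t' ht'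
  obtain ⟨h7, h8, -⟩ := h5 t ht t' ht'
  have h9 : ∀ x, ∃ α β : F, (s t * s t') x = x + α • u + β • u' := fun x =>
    ⟨-P.B (s t' x) u, -P.B x u', by
      rw [LinearEquiv.mul_apply, h6]
      generalize P.B (s t' x) u = z
      rw [h6']; module⟩
  generalize s t * s t' = k at h7 h8 h9
  have h10 : ∀ a : Fin 5, a ≠ 2 → a ≠ 3 →
      P.B (k (e (f 0))) (e (f a)) = 0 ∧ P.B (k (e (f 1))) (e (f a)) = 0 := fun a a2 a3 => by
    have k1 := congrArg (fun s => P.B (s (e (f 0))) (e (f a))) h8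
    simp [h3, h3', h.B, a2.symm, a3.symm] at k1
    obtain ⟨i, hi⟩ := h.mem_mon.1 h7.1 (f 0)
    obtain ⟨j, hj⟩ := h.mem_mon.1 h7.1 (f 1)
    obtain ⟨m, hm, hi⟩ := h.nm_of_mem (h.iso h7.2) hi
    obtain ⟨m', hm', hj⟩ := h.nm_of_mem (h.iso h7.2) hj
    have k2 := (h.toCtx.map h7.2).orth (f.injective.ne (by decide : (0 : Fin 5) ≠ 1))
    have := ne_zero_of_nm hm
    have := ne_zero_of_nm hm'
    simp only [hi, hj] at k1 k2 ⊢
    by_cases k3 : i = f a <;> by_cases k4 : j = f a <;> simp_all [h.B]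
  obtain ⟨α, β, k1⟩ := h9 (e (f 0))
  obtain ⟨γ, δ, k2⟩ := h9 (e (f 1))
  have k3 := h10 0 (by decide) (by decide)
  have k4 := h10 1 (by decide) (by decide)
  have k5 := h10 4 (by decide) (by decide)
  simp [k1, k2, h.B] at k3 k4 k5
  grind

end Fr

end Cfsg.Agent.H9.UDec
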