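import Cfsg.Agent.Tens.PowSL
import Cfsg.Agent.H9.W3A

/-!
Rigidity of the tensor wreath subgroup `SL₃(2) ≀ S_t`.
-/

set_option autoImplicit false
set_option linter.unusedSectionVars false
set_option linter.unusedSimpArgs false

namespace Cfsg.Agent.H9.W3

open Module Cfsg.Agent.H7 Cfsg.Agent.Tens

variable {F U W V : Type*} [Field F] [Finite F] [AddCommGroup U] [Module F U] [AddCommGroup W]
  [Module F W] [AddCommGroup V] [Module F V] [FiniteDimensional F U]

theorem eq01 (hF : Nat.card F = 2) (x : F) : x = 0 ∨ x = 1 := by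
  by_contra! h
  obtain ⟨a, b, -, hab⟩ := Nat.card_eq_two_iff.1 hF
  have h1 : ∀ y : F, y = a ∨ y = b := fun y => by
    have : y ∈ ({a, b} : Set F) := hab ▸ Set.mem_univ y
    simpa using this
  have h2 : (0 : F) ≠ 1 := zero_ne_one
  have := h1 0
  have := h1 1
  have := h1 x
  grind

theorem two_eq (hF : Nat.card F = 2) : (2 : F) = 0 := by
  rcases eq01 hF (2 : F) with h | h
  · exact h
  · exact absurd (by linear_combination h : (1 : F) = 0) one_ne_zero

theorem mem_SLV_two (hF : Nat.card F = 2) (g : U ≃ₗ[F] U) : g ∈ SLV F U :=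
  mem_SLV.2 ((eq01 hF _).resolve_left (LinearEquiv.isUnit_det' g).ne_zero)

theorem invol_eq (hF : Nat.card F = 2) (hk : finrank F U = 3) {g : U ≃ₗ[F] U} (h1 : g * g = 1)
    (h0 : g ≠ 1) : ∃ (e : U) (φ : Dual F U) (h : φ e = 0), e ≠ 0 ∧ φ ≠ 0 ∧
      g = unip (rt_sq h) 1 := by
  let n : End F U := (g : End F U) - 1
  have hn : ∀ x, n (n x) = 0 := fun x => by
    have h2 : g (g x) = x := LinearEquiv.congr_fun h1 x
    have h3 : ∀ y : U, y + y = 0 := fun y => by rw [← two_smul F, two_eq hF, zero_smul]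
    simp only [n, LinearMap.sub_apply, LinearEquiv.coe_coe, End.one_apply, map_sub, h2]
    linear_combination (norm := abel) h3 x - h3 (g x)
  obtain ⟨u, hu⟩ : ∃ u, n u ≠ 0 := by
    by_contra! h
    exact h0 (LinearEquiv.ext fun x => by simpa [n, sub_eq_zero] using h x)
  have hr : finrank F (LinearMap.range n) ≤ 1 := by
    have h2 := n.finrank_range_add_finrank_ker
    have h3 := Submodule.finrank_mono (show LinearMap.range n ≤ LinearMap.ker n by
      rintro _ ⟨x, rfl⟩; exact hn x)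
    omega
  have h2 : F ∙ n u = LinearMap.range n := Submodule.eq_of_le_of_finrank_le
    ((Submodule.span_singleton_le_iff_mem _ _).2 ⟨u, rfl⟩) (by rwa [finrank_span_singleton hu])
  obtain ⟨χ, hχ⟩ := exists_dual_one' (F := F) hu
  have h3 : ∀ x, n x = χ (n x) • n u := fun x => by
    obtain ⟨c, hc⟩ := Submodule.mem_span_singleton.1 (show n x ∈ F ∙ n u from h2 ▸ ⟨x, rfl⟩)
    rw [← hc]; simp [hχ]
  refine ⟨n u, χ ∘ₗ n, by simp [hn], hu, fun e => by simpa [hχ] using LinearMap.congr_fun e u,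
    LinearEquiv.ext fun x => ?_⟩
  simp only [unip_apply, one_smul, LinearMap.smulRight_apply, LinearMap.comp_apply]
  rw [← h3]
  simp [n]

theorem unip_sq (hF : Nat.card F = 2) {n : End F U} (hn : n * n = 0) : unip hn 1 * unip hn 1 = 1 := by
  rw [← unip_add, one_add_one_eq_two, two_eq hF, unip_zero]

theorem rt_ne_zero {e : U} {φ : Dual F U} (he : e ≠ 0) (hφ : φ ≠ 0) : rt e φ ≠ 0 := fun h => by
  obtain ⟨y, hy⟩ : ∃ y, φ y ≠ 0 := by by_contra! h; exact hφ (LinearMap.ext h)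
  simpa [hy, he] using LinearMap.congr_fun h y

theorem unip_inj {n n' : End F U} (hn : n * n = 0) (hn' : n' * n' = 0)
    (h : unip hn 1 = unip hn' 1) : n = n' := by
  simpa using congrArg (fun g : U ≃ₗ[F] U => (g : End F U)) h

theorem unip_ne_one {n : End F U} (hn : n * n = 0) (h0 : n ≠ 0) : unip hn 1 ≠ 1 := fun h => h0 (by
  exact LinearMap.ext fun x => by simpa [unip_apply] using LinearEquiv.congr_fun h x)

section Form

theorem comm_of_inv {Φ : Dual F (End F U)} {z : End F U}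
    (hz : ∀ x, Φ x = LinearMap.trace F U (z * x)) {n : End F U} (hn : n * n = 0)
    (h : ∀ y, Φ ((unip hn 1).conj y) = Φ y) : n * z = z * n := by
  have h1 : (1 - n) * z * (1 + n) = z := LinearMap.ext fun v => sub_eq_zero.1
    (eq_zero_of_forall_dual (F := F) fun φ => by
      have := h (φ.smulRight v)
      rw [hz, hz, show (unip hn 1).conj (φ.smulRight v) = (1 + n) * φ.smulRight v * (1 - n) by
        change (1 + (1 : F) • n) * φ.smulRight v * (1 - (1 : F) • n) = _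
        rw [one_smul], ← mul_assoc, LinearMap.trace_mul_comm, ← mul_assoc, ← mul_assoc,
        show ∀ a : End F U, a * φ.smulRight v = φ.smulRight (a v) from
          fun a => LinearMap.ext fun _ => by simp, LinearMap.trace_smulRight,
        show z * φ.smulRight v = φ.smulRight (z v) from LinearMap.ext fun _ => by simp,
        LinearMap.trace_smulRight] at this
      rw [map_sub, this, sub_self])
  have h2 : (1 + n) * (1 - n) = 1 := by simp [mul_sub, add_mul, hn]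
  have h3 := congrArg (fun y => (1 + n) * y) h1
  simp only [← mul_assoc, h2, one_mul] at h3
  simpa [mul_add, add_mul] using h3.symm

theorem eq_of_comm_flag (hk : 3 ≤ finrank F U) {z : End F U} {e : U} {φ : Dual F U} (he : e ≠ 0)
    (hφ : φ ≠ 0) (h : φ e = 0) (h1 : ∀ φ' : Dual F U, φ' e = 0 → rt e φ' * z = z * rt e φ')
    (h2 : ∀ e', φ e' = 0 → rt e' φ * z = z * rt e' φ) : ∃ α β : F, z = α • 1 + β • rt e φ := by
  obtain ⟨y, hy⟩ : ∃ y, φ y = 1 := by
    obtain ⟨y, hy⟩ : ∃ y, φ y ≠ 0 := by by_contra! h; exact hφ (LinearMap.ext h)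
    exact ⟨(φ y)⁻¹ • y, by simp [hy]⟩
  have k1 : ∀ e', φ e' = 0 → z e' = φ (z y) • e' := fun e' h' => by
    simpa [hy] using (LinearMap.congr_fun (h2 e' h') y).symm
  have k2 : ∀ φ' : Dual F U, φ' e = 0 → φ' (z y - φ (z y) • y) = 0 := fun φ' h' => by
    have := LinearMap.congr_fun (h1 φ' h') y
    simp only [End.mul_apply, LinearMap.smulRight_apply, map_smul, k1 e h, smul_smul] at this
    rw [map_sub, map_smul, smul_left_injective F he this, smul_eq_mul, mul_comm, sub_self]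
  obtain ⟨β, hβ⟩ : ∃ β : F, β • e = z y - φ (z y) • y := Submodule.mem_span_singleton.1 (by
    by_contra hc
    obtain ⟨ψ, k3, k4⟩ := exists_dual_one₂ hc
    exact one_ne_zero (k3.symm.trans (k2 ψ k4)))
  refine ⟨φ (z y), β, LinearMap.ext fun x => ?_⟩
  have k3 := k1 (x - φ x • y) (by simp [hy])
  rw [map_sub, map_smul, sub_eq_iff_eq_add] at k3
  simp only [LinearMap.add_apply, LinearMap.smul_apply, End.one_apply, LinearMap.smulRight_apply]
  rw [k3, smul_comm β, hβ]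
  module

theorem conj_rt (g : U ≃ₗ[F] U) (e : U) (φ : Dual F U) :
    g.conj (rt e φ) = rt (g e) (φ ∘ₗ (g.symm : End F U)) :=
  LinearMap.ext fun x => by simp [LinearEquiv.conj_apply]

theorem form_eq_zero (hF : Nat.card F = 2) (hk : finrank F U = 3)
    {b : End F U →ₗ[F] End F U →ₗ[F] F} (hb : ∀ (g : U ≃ₗ[F] U) x y, b (g.conj x) (g.conj y) = b x y)
    {e e' : U} {φ φ' : Dual F U} (h : φ e = 0) (h' : φ' e' = 0) (h1 : φ e' = 1) (h2 : φ' e = 1)
    (k1 : b 1 1 = 0) (k2 : b (rt e φ) ((unip (rt_sq h') 1).conj (rt e φ)) = 0) : b = 0 := by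
  have hk' : 3 ≤ finrank F U := hk.ge
  have he : e ≠ 0 := fun e0 => by simp [e0] at h2
  have hφ : φ ≠ 0 := fun e0 => by simp [e0] at h1
  have htr : LinearMap.trace F U 1 = 1 := by
    rw [LinearMap.trace_one, hk]
    linear_combination two_eq hF
  have hc1 : ∀ g : U ≃ₗ[F] U, g.conj 1 = 1 := fun g => LinearMap.ext fun x => by
    simp [LinearEquiv.conj_apply]
  have hker : ∀ (g : U ≃ₗ[F] U) x, b x = 0 → b (g.conj x) = 0 := fun g x hx =>
    LinearMap.ext fun y => by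
      obtain ⟨y, rfl⟩ := g.conj.surjective y
      simp [hb, hx]
  have hL : ∀ (e e' : U) (φ φ' : Dual F U) (h4 : φ' e' = 0), φ e' = 0 → φ' e = 1 →
      (unip (rt_sq h4) 1).conj (rt e φ) = rt e φ + rt e' φ := fun e e' φ φ' h4 h5 h6 => by
    rw [conj_rt]
    exact LinearMap.ext fun x => by simp [unip_apply, h5, h6]
  have hR : ∀ (e e' : U) (φ φ' : Dual F U) (h4 : φ' e' = 0), φ e' = 1 → φ' e = 0 →
      (unip (rt_sq h4) 1).conj (rt e φ) = rt e φ - rt e φ' := fun e e' φ φ' h4 h5 h6 => by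
    rw [conj_rt]
    exact LinearMap.ext fun x => by simp [unip_apply, h5, h6, sub_smul]
  have a1 : b 1 = 0 := by
    obtain ⟨z, hz⟩ := exists_trace_mul (b 1)
    obtain ⟨s, rfl⟩ := (scal_of_comm_rt (z := z) fun e φ h => comm_of_inv hz (rt_sq h) fun y => by
      rw [← hb (unip (rt_sq h) 1) 1 y, hc1]).eq
    rw [hz, mul_one, map_smul, htr, smul_eq_mul, mul_one] at k1
    exact LinearMap.ext fun y => by simp [hz, k1]
  have a2 : b (rt e φ) = 0 := by
    obtain ⟨z, hz⟩ := exists_trace_mul (b (rt e φ))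
    have hc : ∀ n (hn : n * n = 0), n * rt e φ = 0 → rt e φ * n = 0 → n * z = z * n :=
      fun n hn h3 h4 => comm_of_inv hz hn fun y => by
        rw [← hb (unip hn 1) _ y]
        congr 2
        change _ = (1 + (1 : F) • n) * rt e φ * (1 - (1 : F) • n)
        simp [add_mul, mul_sub, h3, h4]
    obtain ⟨α, β, rfl⟩ := eq_of_comm_flag hk' he hφ h
      (fun ψ hψ => hc _ (rt_sq hψ) (by simp [rt_mul, hψ]) (by simp [rt_mul, h]))
      fun x hx => hc _ (rt_sq hx) (by simp [rt_mul, h]) (by simp [rt_mul, hx])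
    have hα : α = 0 := by
      obtain ⟨x, h3, h4⟩ := exists_ker_notMem hk' φ e
      obtain ⟨ψ, h5, h6⟩ := exists_dual_one₂ h4
      have h7 := hb (unip (rt_sq h6) 1) (rt x φ) 1
      rw [hc1, hL x e φ ψ h6 h h5, map_add, LinearMap.add_apply, add_eq_left, hz] at h7
      simpa [htr, LinearMap.trace_smulRight, h] using h7
    rw [hz, hα, zero_smul, zero_add, conj_rt, smul_mul_assoc, rt_mul, map_smul, map_smul,
      LinearMap.trace_smulRight] at k2
    have hβ : β = 0 := by simpa [unip_apply, h, h1, h2] using k2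
    exact LinearMap.ext fun y => by simp [hz, hα, hβ]
  have a3 : ∀ x (ψ : Dual F U), ψ x = 0 → b (rt x ψ) = 0 := fun x ψ hx => by
    by_cases hx0 : x = 0
    · simp [hx0]
    by_cases hψ : ψ = 0
    · simp [hψ]
    refine flag_spread hk' (p := fun e φ => b (rt e φ) = 0)
      (fun e φ e' φ' _ _ _ h2 h3 h4 h5 => ?_) (fun e φ e' φ' _ _ _ h2 h3 h4 h5 => ?_)
      he hφ h a2 hx0 hψ hx
    · simpa [hL e e' φ φ' h4 h2 h3, h5] using hker (unip (rt_sq h4) 1) _ h5
    · simpa [hR e e' φ φ' h4 h3 h2, h5] using hker (unip (rt_sq h4) 1) _ h5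
  refine LinearMap.ext₂ fun x y => ?_
  obtain ⟨z, hz⟩ := exists_trace_mul (b.flip y)
  obtain ⟨s, rfl⟩ := (scal_of_dual (z := z) fun ψ u hu => by
    have := hz (rt u ψ)
    rw [show z * rt u ψ = rt (z u) ψ from LinearMap.ext fun x => by simp,
      LinearMap.trace_smulRight, LinearMap.flip_apply, a3 u ψ hu] at this
    exact this.symm).eq
  have := hz 1
  rw [LinearMap.flip_apply, a1, mul_one, map_smul, htr, smul_eq_mul, mul_one] at this
  simpa [show s = 0 from this.symm] using hz x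

end Form

section Slots

variable [FiniteDimensional F W] [Nontrivial W]

theorem map_KL (τ : TS F U W V) (g : V ≃ₗ[F] V) (a : U ≃ₗ[F] U) :
    (τ.map g).KL a = g * τ.KL a * g⁻¹ :=
  LinearEquiv.ext fun v => τ.map_K_apply' g _ _ v

theorem cj_range (τ : TS F U W V) (g : V ≃ₗ[F] V) : cj g τ.KL.range = (τ.map g).KL.range := by
  ext x
  rw [mem_cj]
  constructor
  · rintro ⟨a, ha⟩
    exact ⟨a, by rw [map_KL, ha]; group⟩
  · rintro ⟨a, rfl⟩
    exact ⟨a, by rw [map_KL]; group⟩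

theorem span_induction' (hk : 3 ≤ finrank F U) {p : Submodule F (End F U)}
    (h : ∀ g : U ≃ₗ[F] U, (g : End F U) ∈ p) (a : End F U) : a ∈ p :=
  Submodule.span_le.2 (show {a : End F U | ∃ g ∈ SLV F U, a = g} ⊆ p by
    rintro _ ⟨g, -, rfl⟩; exact h g) (span_SLV hk ▸ Submodule.mem_top)

theorem same_of_le (hk : 3 ≤ finrank F U) {τ τ' : TS F U W V} (h : τ'.KL.range ≤ τ.KL.range) :
    τ.Same τ' := fun a => by
  obtain ⟨b, hb⟩ := span_induction' hk (p := (LinearMap.range (τ.K.flip 1)).comap (τ'.K.flip 1))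
    (fun g => by
      obtain ⟨b, hb⟩ := h ⟨g, rfl⟩
      exact ⟨b, congrArg (fun g : V ≃ₗ[F] V => (g : End F V)) hb⟩) a
  exact ⟨b, hb.symm⟩

theorem le_of_same {τ τ' : TS F U W V} (h : τ.Same τ') : τ'.KL.range ≤ τ.KL.range := by
  rintro _ ⟨g, rfl⟩
  obtain ⟨a, ha⟩ := h g
  obtain ⟨a', ha'⟩ := h g.symm
  have h1 : a * a' = 1 := τ.K_one_inj (by
    rw [← one_mul (1 : End F W), ← TS.K_mul, ← ha, ← ha', TS.K_mul, mul_one,
      show (g : End F U) * (g.symm : End F U) = 1 from LinearMap.ext fun u => by simp, TS.K_one,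
      TS.K_one])
  have h2 : a' * a = 1 := τ.K_one_inj (by
    rw [← one_mul (1 : End F W), ← TS.K_mul, ← ha, ← ha', TS.K_mul, mul_one,
      show (g.symm : End F U) * (g : End F U) = 1 from LinearMap.ext fun u => by simp, TS.K_one,
      TS.K_one])
  exact ⟨LinearEquiv.ofLinearMap a a' h1 h2, LinearEquiv.toLinearMap_injective ha.symm⟩

theorem cm_of_flip {τ τ' : TS F U W V} (h : τ.flip.Same τ') : Cm τ.KL.range τ'.KL.range := by
  rintro _ ⟨a, rfl⟩ _ ⟨b, rfl⟩
  have := (h b).comm a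
  rw [TS.flip_K] at this
  exact LinearEquiv.toLinearMap_injective this

theorem flip_of_cm (hk : 3 ≤ finrank F U) {τ τ' : TS F U W V}
    (h : Cm τ.KL.range τ'.KL.range) : τ.flip.Same τ' := fun b => τ.flip.inA_of_comm fun a => by
  rw [TS.flip_K]
  have h1 : ∀ g : U ≃ₗ[F] U, τ.K a 1 * τ'.K g 1 = τ'.K g 1 * τ.K a 1 := fun g =>
    sub_eq_zero.1 (span_induction' hk (p := LinearMap.ker
      ((LinearMap.mulRight F (τ'.K g 1) - LinearMap.mulLeft F (τ'.K g 1)) ∘ₗ τ.K.flip 1))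
      (fun k => sub_eq_zero.2 (congrArg (fun g : V ≃ₗ[F] V => (g : End F V))
        (h _ ⟨k, rfl⟩ _ ⟨g, rfl⟩))) a)
  exact sub_eq_zero.1 (span_induction' hk (p := LinearMap.ker
    ((LinearMap.mulLeft F (τ.K a 1) - LinearMap.mulRight F (τ.K a 1)) ∘ₗ τ'.K.flip 1))
    (fun g => sub_eq_zero.2 (h1 g)) b)

theorem same_symm {τ : TS F U W V} {g g' : V ≃ₗ[F] V} (h : (τ.map g).Same (τ.map g')) :
    (τ.map g').Same (τ.map g) := by
  have := TS.Same.symm_map (τ := τ.map g) (g := g' * g⁻¹) (by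
    rwa [← TS.map_mul, inv_mul_cancel_right])
  rwa [← TS.map_mul, inv_mul_cancel_right] at this

theorem KL_inj (τ : TS F U W V) : Function.Injective τ.KL := fun _ _ h =>
  LinearEquiv.toLinearMap_injective
    (τ.K_one_inj (congrArg (fun g : V ≃ₗ[F] V => (g : End F V)) h))

theorem acts_KE (τ : TS F U W V) (a : U ≃ₗ[F] U) (d : W ≃ₗ[F] W) :
    Acts (τ.KE a d) τ.KL.range (τ.KL a) := ⟨⟨a, rfl⟩, by
  rintro _ ⟨b, rfl⟩
  change τ.KE a d * τ.KE b 1 * (τ.KE a d)⁻¹ = τ.KE a 1 * τ.KE b 1 * (τ.KE a 1)⁻¹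
  simp [TS.KE_inv, TS.KE_mul]⟩

variable (hF : Nat.card F = 2) (hk : finrank F U = 3) {τ : TS F U W V} {X : Subgroup (V ≃ₗ[F] V)}
  (hL : ∀ g ∈ SLV F U, τ.KL g ∈ X) (hH : τ.HptSL X)
include hF hk

theorem invol_range {τ : TS F U W V} {d : V ≃ₗ[F] V} (hd : d ∈ τ.KL.range) (h1 : d * d = 1)
    (h0 : d ≠ 1) : ∃ (e : U) (φ : Dual F U) (h : φ e = 0), e ≠ 0 ∧ φ ≠ 0 ∧
      d = τ.KL (unip (rt_sq h) 1) := by
  obtain ⟨a, rfl⟩ := hd
  obtain ⟨e, φ, h, he, hφ, rfl⟩ := invol_eq hF hk (g := a) (KL_inj τ (by simpa using h1))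
    fun e => h0 (by simp [e])
  exact ⟨e, φ, h, he, hφ, rfl⟩

include hL hH

theorem ctx : Ctx X {L | ∃ g ∈ X, L = (τ.map g).KL.range} := by
  have hk' : 3 ≤ finrank F U := hk.ge
  have hL' : ∀ g ∈ X, ∀ a ∈ SLV F U, (τ.map g).KL a ∈ X := fun g hg a ha => by
    rw [map_KL]; exact X.mul_mem (X.mul_mem hg (hL a ha)) (X.inv_mem hg)
  have : Nontrivial U := Module.nontrivial_of_finrank_pos (R := F) (by omega)
  refine ⟨?_, ?_, ?_, ?_, ?_, ?_, ?_, ?_⟩
  · rintro _ ⟨g, hg, rfl⟩ _ ⟨a, rfl⟩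
    exact hL' g hg a (mem_SLV_two hF a)
  · rintro _ ⟨g, hg, rfl⟩ k hk
    exact ⟨k * g, X.mul_mem hk hg, by rw [cj_range, TS.map_mul]⟩
  · rintro _ ⟨g, hg, rfl⟩ _ ⟨g', hg', rfl⟩ d h1 h0 hd ⟨a, ha⟩
    obtain ⟨e, φ, h, he, hφ, rfl⟩ := invol_range hF hk hd h1 h0
    have h2 := TS.same_of_rt hk' (hL' g hg) (hH.map hg') he hφ h (by
      have h3 : (τ.map g').InA ((τ.map g).KL (unip (rt_sq h) 1)) := ha ▸ ⟨a, rfl⟩
      simpa using h3.sub TS.inA_one)
    exact le_antisymm (le_of_same h2) (le_of_same (same_symm h2))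
  · rintro _ ⟨g, hg, rfl⟩ _ ⟨g', hg', rfl⟩ d hd h1 h0 h2
    obtain ⟨e, φ, h, he, hφ, rfl⟩ := invol_range hF hk hd h1 h0
    rw [cj_range] at h2
    have h3 := (TS.root_rt hk' (hL' g hg) (hH.map hg) he hφ h).rig 1 trivial one_ne_zero (g' * g⁻¹)
      (X.mul_mem hg' (X.inv_mem hg)) (by
        rw [TS.map_mul _ _ (g' * g⁻¹), ← TS.map_mul τ (g' * g⁻¹), inv_mul_cancel_right]
        exact same_of_le hk' h2.le)
    rw [← TS.map_mul, inv_mul_cancel_right] at h3
    exact h3.imp (fun h4 => le_antisymm (le_of_same (same_symm h4)) (le_of_same h4)) cm_of_flip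
  · rintro _ ⟨g, hg, rfl⟩ x hx
    rw [cj_range] at hx
    obtain ⟨a, d, rfl⟩ := (τ.map g).exists_eq_KE (same_of_le hk' hx.le)
    exact ⟨_, acts_KE _ a d⟩
  · rintro _ ⟨g, hg, rfl⟩ _ ⟨a, rfl⟩ h
    obtain ⟨s, hs⟩ := scal_of_comm_rt (z := (a : End F U)) fun e φ h1 => by
      have h2 : a * unip (rt_sq h1) 1 = unip (rt_sq h1) 1 * a := KL_inj (τ.map g) (by
        simpa only [map_mul] using h _ ⟨unip (rt_sq h1) 1, rfl⟩)
      simpa [mul_add, add_mul] using
        (congrArg (fun g : U ≃ₗ[F] U => (g : End F U)) h2).symm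
    obtain ⟨u, hu⟩ := exists_ne (0 : U)
    have h3 : s = 1 := (eq01 hF s).resolve_left fun e => hu (by simpa [e] using hs u)
    rw [show a = 1 from LinearEquiv.ext fun x => by simpa [h3] using hs x, map_one]
  · rintro _ ⟨g, hg, rfl⟩ d hd h1 h0
    obtain ⟨e, φ, h, he, hφ, rfl⟩ := invol_range hF hk hd h1 h0
    obtain ⟨x, h2, h3⟩ := exists_ker_notMem hk' φ e
    refine ⟨_, ⟨unip (rt_sq h2) 1, rfl⟩, by rw [← _root_.map_mul, unip_sq hF, _root_.map_one],
      fun e0 => ?_, fun e0 => ?_, ?_⟩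
    · exact unip_ne_one _ (rt_ne_zero (fun e1 : x = 0 => h3 (e1 ▸ Submodule.zero_mem _)) hφ)
        (KL_inj _ (by simpa using e0))
    · obtain ⟨ψ, h4, h5⟩ := exists_dual_one₂ h3
      obtain ⟨y, hy⟩ : ∃ y, φ y ≠ 0 := by by_contra! h; exact hφ (LinearMap.ext h)
      have := congrArg ψ (LinearMap.congr_fun (unip_inj _ _ (KL_inj _ e0)) y)
      simp [h4, h5, hy] at this
    · rw [← map_mul, ← map_mul]
      congr 1
      exact LinearEquiv.ext fun v => by simp [unip_apply, h, h2]; abel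
  · rintro _ ⟨g, hg, rfl⟩
    obtain ⟨e, he⟩ := exists_ne (0 : U)
    obtain ⟨φ, hφ, h, -⟩ := exists_dual_pair hk' e e
    exact ⟨_, ⟨unip (rt_sq h) 1, rfl⟩, by rw [← _root_.map_mul, unip_sq hF, _root_.map_one], fun e0 =>
      unip_ne_one _ (rt_ne_zero he hφ) (KL_inj _ (by simpa using e0))⟩

theorem rel_of_KE {a : U ≃ₗ[F] U} {d : W ≃ₗ[F] W} (h1 : τ.KE a d * τ.KE a d = 1) (h0 : a ≠ 1)
    {g : V ≃ₗ[F] V} (hg : g ∈ X) (h : (τ.map g).Same (τ.map (τ.KE a d * g))) :
    τ.Same (τ.map g) ∨ τ.flip.Same (τ.map g) :=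
  have := τ.finiteDimensional
  have : Finite V := Module.finite_of_finite F
  have : Finite (V ≃ₗ[F] V) := Finite.of_injective _ DFunLike.coe_injective
  ((ctx hF hk hL hH).rel_of_invol (L := τ.KL.range) ⟨1, X.one_mem, rfl⟩ ⟨g, hg, rfl⟩ h1
    (acts_KE τ a d) (fun e => h0 (KL_inj τ (by simpa using e))) (by
      rw [cj_range, ← TS.map_mul]
      exact le_antisymm (le_of_same h) (le_of_same (same_symm h)))).imp
    (fun e => same_of_le hk.ge e.ge) (flip_of_cm hk.ge)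

omit hF hk hL hH in
theorem cj_mem_Bad {a : U ≃ₗ[F] U} {d : W ≃ₗ[F] W} (hx : τ.KE a d ∈ X) {θ : End F (End F V)}
    (hθ : θ ∈ τ.Bad X) : TS.cj (τ.KE a d) θ ∈ τ.Bad X := by
  obtain ⟨g, hg, rfl, h4, h5⟩ := TS.mem_Bad.1 hθ
  refine TS.mem_Bad.2 ⟨_, X.mul_mem hx hg, by rw [TS.cj_Θ, TS.map_mul], fun h6 => h4 ?_,
    fun h6 => h5 ?_⟩
  · exact TS.Same.of_KE_mul h6
  · exact TS.Same.of_KE_mul (τ := τ.flip) (a := d) (d := a) (by rwa [TS.flip_KE])

omit hF hk hL hH in
theorem δ_conj {k : V ≃ₗ[F] V} (hk : k ∈ X) (hs : τ.Same (τ.map k)) (y : End F V) :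
    τ.δ X (k.conj y) = k.conj (τ.δ X y) := by
  obtain ⟨a, d, rfl⟩ := τ.exists_eq_KE hs
  rw [TS.δ, LinearMap.sum_apply, LinearMap.sum_apply, map_sum]
  refine (Finset.sum_nbij' (TS.cj (τ.KE a d)) (TS.cj (τ.KE a⁻¹ d⁻¹)) (fun _ => cj_mem_Bad hk)
    (fun _ => cj_mem_Bad (by rw [← TS.KE_inv]; exact X.inv_mem hk))
    (fun θ _ => by rw [← TS.cj_mul, ← TS.KE_inv, inv_mul_cancel, TS.cj_one])
    (fun θ _ => by rw [← TS.cj_mul, ← TS.KE_inv, mul_inv_cancel, TS.cj_one])
    fun θ _ => (TS.cj_apply _ θ y).symm).symm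

theorem trace_δ_invol {a : U ≃ₗ[F] U} {d : W ≃ₗ[F] W} (hx : τ.KE a d ∈ X)
    (h1 : τ.KE a d * τ.KE a d = 1) (h0 : a ≠ 1) (w : End F V) :
    LinearMap.trace F V (τ.δ X w * (τ.KE a d).conj w) = 0 := by
  have := τ.finiteDimensional
  rw [TS.δ, LinearMap.sum_apply, Finset.sum_mul, map_sum]
  refine Finset.sum_involution (fun θ _ => TS.cj (τ.KE a d) θ) (fun θ hθ => ?_)
    (fun θ hθ _ e => ?_) (fun θ hθ => cj_mem_Bad hx hθ)
    fun θ _ => by rw [← TS.cj_mul, h1, TS.cj_one]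
  · obtain ⟨g, hg, rfl, -⟩ := TS.mem_Bad.1 hθ
    have h2 : (τ.KE a d).conj ((τ.KE a d).conj w) = w := by
      change (τ.KE a d * τ.KE a d).conj w = w
      rw [h1]; rfl
    have h3 := TS.cj_apply (τ.KE a d) (τ.map g).Θ ((τ.KE a d).conj w)
    rw [h2] at h3
    rw [h3, show ∀ x y : End F V, (τ.KE a d).conj x * (τ.KE a d).conj y = (τ.KE a d).conj (x * y)
      from fun x y => LinearMap.ext fun v => by
        simp only [End.mul_apply, LinearEquiv.conj_apply_apply, LinearEquiv.symm_apply_apply],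
      LinearMap.trace_conj', TS.trace_Θ_mul _ _ w, LinearMap.trace_mul_comm _ ((τ.KE a d).conj w),
      ← two_mul, two_eq hF, zero_mul]
  · obtain ⟨g, hg, rfl, h4, h5⟩ := TS.mem_Bad.1 hθ
    rw [TS.cj_Θ] at e
    exact (rel_of_KE hF hk hL hH h1 h0 hg (TS.same_of_Θ_eq e)).elim h4 h5

end Slots

omit [FiniteDimensional F U] [Finite F] in
theorem KL_conj (τ : TS F U W V) (g : U ≃ₗ[F] U) (y : End F V) :
    (τ.KL g).conj y = τ.K g 1 * y * τ.K g.symm 1 := rfl

section Power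

variable {ι κ : Type} [Fintype ι] [DecidableEq ι] [Fintype κ] [DecidableEq κ]
  (Φ : Pw F ι κ ≃ₗ[F] V)

theorem mo_update (j : ι) (as : ι → End F (κ → F)) (x : End F (κ → F)) :
    mo Φ (Function.update as j x) = (τ1 Φ j).K x 1 * mo Φ (Function.update as j 1) := by
  rw [← mo_mulSingle, ← map_mul]
  congr 1
  ext1 i
  by_cases h : i = j
  · subst h; simp
  · simp [h]

theorem conj_K_mo (j : ι) (as : ι → End F (κ → F)) (x : End F (κ → F))
    (g : (κ → F) ≃ₗ[F] (κ → F)) :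
    ((τ1 Φ j).KL g).conj ((τ1 Φ j).K x 1 * mo Φ (Function.update as j 1)) =
      (τ1 Φ j).K (g.conj x) 1 * mo Φ (Function.update as j 1) := by
  rw [KL_conj]
  simp only [← mo_mulSingle, ← map_mul]
  congr 1
  ext1 i
  by_cases h : i = j
  · subst h; simp; rfl
  · simp [h]

theorem eq_zero_of_mo {f : End F V →ₗ[F] F} (h : ∀ as, f (mo Φ as) = 0) : f = 0 := by
  let b := (Pi.basisFun F (ι → κ)).map Φ
  have h2 : ∀ x y, (b.coord y).smulRight (b x) =
      mo Φ fun i => (LinearMap.proj (y i) : (κ → F) →ₗ[F] F).smulRight (Pi.single (x i) 1) :=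
    fun x y => pv_ext Φ fun xs => by
      simp only [mo_pv, LinearMap.smulRight_apply, MultilinearMap.map_smul_univ]
      simp [b, pv_def, pv0_single, pv0_apply]
  refine LinearMap.ext fun d => ?_
  have h3 : d = ∑ x, ∑ y, b.repr (d (b y)) x • (b.coord y).smulRight (b x) := b.ext fun z => by
    simp [LinearMap.sum_apply, Finsupp.single_apply]
  rw [h3]
  simp [h2, h]

theorem δ_eq_zero (hF : Nat.card F = 2) (hκ : Fintype.card κ = 3) {X : Subgroup (V ≃ₗ[F] V)}
    (hL : ∀ i, ∀ g ∈ SLV F (κ → F), (τ1 Φ i).KL g ∈ X) {i : ι} (hH : (τ1 Φ i).HptSL X) :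
    (τ1 Φ i).δ X = 0 := by
  have hk : finrank F (κ → F) = 3 := by simpa using hκ
  have : Nonempty κ := Fintype.card_pos_iff.1 (by omega)
  have := (τ1 Φ i).finiteDimensional
  obtain ⟨e, he⟩ := exists_ne (0 : κ → F)
  obtain ⟨φ, hφ, h, -⟩ := exists_dual_pair hk.ge e e
  obtain ⟨e', h1⟩ : ∃ y, φ y = 1 := by
    obtain ⟨y, hy⟩ : ∃ y, φ y ≠ 0 := by by_contra! h; exact hφ (LinearMap.ext h)
    exact ⟨(φ y)⁻¹ • y, by simp [hy]⟩
  obtain ⟨φ', h2, h'⟩ := exists_dual_one₂ (F := F) (u := e') (u' := e) fun h3 => by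
    obtain ⟨c, rfl⟩ := Submodule.mem_span_singleton.1 h3
    exact he (by simp [show c = 0 by simpa [h1] using h])
  let g₀ := unip (rt_sq h') 1
  have g1 : (g₀ : End F (κ → F)) * g₀ = 1 :=
    congrArg (fun g : (κ → F) ≃ₗ[F] (κ → F) => (g : End F (κ → F))) (unip_sq hF (rt_sq h'))
  have g2 : (g₀.symm : End F (κ → F)) = g₀ :=
    congrArg (fun g : (κ → F) ≃ₗ[F] (κ → F) => (g : End F (κ → F)))
      (inv_eq_of_mul_eq_one_right (unip_sq hF (rt_sq h')))
  have g3 : ∀ {ι' : Type} [Fintype ι'] [DecidableEq ι'] (Φ' : Pw F ι' κ ≃ₗ[F] Pw F ι' κ),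
      (mo Φ' fun _ => (g₀ : End F (κ → F))) * (mo Φ' fun _ => (g₀ : End F (κ → F))) = 1 :=
    fun Φ' => by rw [← map_mul, ← map_one (mo Φ')]; congr 1; exact funext fun _ => g1
  let d : Pw F {j // j ≠ i} κ ≃ₗ[F] Pw F {j // j ≠ i} κ :=
    LinearEquiv.ofLinearMap _ _ (g3 (LinearEquiv.refl F _)) (g3 (LinearEquiv.refl F _))
  have hd : ((τ1 Φ i).KE g₀ d : End F V) = mo Φ fun _ => (g₀ : End F (κ → F)) :=
    K_mo Φ i fun _ => (g₀ : End F (κ → F))
  have hd' : (((τ1 Φ i).KE g₀ d).symm : End F V) = mo Φ fun _ => (g₀ : End F (κ → F)) := by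
    rw [← K_mo Φ i]
    exact congrArg (fun z => (τ1 Φ i).K z _) g2
  have hX : (τ1 Φ i).KE g₀ d ∈ X := by
    obtain ⟨g, hg, e1⟩ := mo_mem Φ (as := fun _ => (g₀ : End F (κ → F)))
      (B := X.toSubmonoid.map (LinearEquiv.automorphismGroup.toLinearMapMonoidHom))
      fun j => ⟨_, hL j g₀ (mem_SLV_two hF _), rfl⟩
    rwa [show (τ1 Φ i).KE g₀ d = g from LinearEquiv.toLinearMap_injective (hd.trans e1.symm)]
  have key : ∀ (s : Finset ι) (as as' : ι → End F (κ → F)),
      (∀ j, j ∉ s → (as j = 1 ∨ as j = rt e φ) ∧ as' j = g₀.conj (as j)) →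
      LinearMap.trace F V ((τ1 Φ i).δ X (mo Φ as) * mo Φ as') = 0 := by
    intro s
    induction s using Finset.induction_on with
    | empty =>
      intro as as' h3
      have h4 : mo Φ as' = ((τ1 Φ i).KE g₀ d).conj (mo Φ as) := by
        change _ = ((τ1 Φ i).KE g₀ d : End F V) * mo Φ as * (((τ1 Φ i).KE g₀ d).symm : End F V)
        rw [hd, hd', ← map_mul, ← map_mul]
        congr 1
        ext1 j
        rw [(h3 j (by simp)).2]
        exact congrArg (fun z => (g₀ : End F (κ → F)) * as j * z) g2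
      rw [h4]
      refine trace_δ_invol hF hk (hL i) hH hX (LinearEquiv.toLinearMap_injective ?_)
        (unip_ne_one _ (rt_ne_zero (fun e0 => by simp [e0] at h1) fun e0 => by simp [e0] at h2)) _
      change ((τ1 Φ i).KE g₀ d : End F V) * ((τ1 Φ i).KE g₀ d : End F V) = 1
      rw [hd, ← map_mul, ← map_one (mo Φ)]
      congr 1
      exact funext fun _ => g1
    | insert j s hj ih =>
      intro as as' h3
      let b : End F (κ → F) →ₗ[F] End F (κ → F) →ₗ[F] F := LinearMap.mk₂ F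
        (fun x y => LinearMap.trace F V
          ((τ1 Φ i).δ X ((τ1 Φ j).K x 1 * mo Φ (Function.update as j 1)) *
            ((τ1 Φ j).K y 1 * mo Φ (Function.update as' j 1))))
        (by simp [add_mul]) (by simp) (by simp [add_mul, mul_add]) (by simp)
      have h4 : ∀ x, x = 1 ∨ x = rt e φ → b x (g₀.conj x) = 0 := fun x hx => by
        simp only [b, LinearMap.mk₂_apply, ← mo_update]
        refine ih _ _ fun l hl => ?_
        by_cases hlj : l = j
        · subst hlj; simpa using hx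
        · simpa [hlj] using h3 l (by simp [hl, hlj])
      have h5 : b = 0 := form_eq_zero hF hk (fun g x y => by
          simp only [b, LinearMap.mk₂_apply, ← conj_K_mo]
          rw [δ_conj (hL j g (mem_SLV_two hF g)) ((multi Φ).same_KL j i g),
            show ∀ x y : End F V, ((τ1 Φ j).KL g).conj x * ((τ1 Φ j).KL g).conj y =
              ((τ1 Φ j).KL g).conj (x * y) from fun x y => LinearMap.ext fun v => by
                simp only [End.mul_apply, LinearEquiv.conj_apply_apply,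
                  LinearEquiv.symm_apply_apply], LinearMap.trace_conj']) h h' h1 h2
        (by
          have := h4 1 (Or.inl rfl)
          rwa [show g₀.conj 1 = 1 from LinearMap.ext fun x => by
            simp only [LinearEquiv.conj_apply_apply, End.one_apply,
              LinearEquiv.apply_symm_apply]] at this) (h4 _ (Or.inr rfl))
      have h6 := LinearMap.congr_fun₂ h5 (as j) (as' j)
      simpa only [b, LinearMap.mk₂_apply, ← mo_update, Function.update_eq_self,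
        LinearMap.zero_apply] using h6
  refine LinearMap.ext fun y => LinearMap.ext fun v => eq_zero_of_forall_dual (F := F) fun ψ => ?_
  have h3 : ∀ z, LinearMap.trace F V ((τ1 Φ i).δ X y * z) = 0 := fun z =>
    LinearMap.congr_fun (eq_zero_of_mo Φ
      (f := LinearMap.trace F V ∘ₗ LinearMap.mulRight F z ∘ₗ (τ1 Φ i).δ X) fun as =>
        LinearMap.congr_fun (eq_zero_of_mo Φ
          (f := LinearMap.trace F V ∘ₗ LinearMap.mulLeft F ((τ1 Φ i).δ X (mo Φ as)))
          fun as' => key Finset.univ as as' (by simp)) z) y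
  have := h3 (ψ.smulRight v)
  rwa [show (τ1 Φ i).δ X y * ψ.smulRight v = ψ.smulRight ((τ1 Φ i).δ X y v) from
    LinearMap.ext fun _ => by simp, LinearMap.trace_smulRight] at this

end Power

open scoped Matrix MatrixGroups in
/-- `GL_k ≀ S_t` is maximal in `SL` for `k ≥ 3`, `t ≥ 2`. -/
theorem sl_wreath_maximal {F : Type*} [Field F] [Fintype F] {ι : Type} [Fintype ι] [DecidableEq ι]
    {k t : ℕ} (hk : 3 ≤ k) (ht : 2 ≤ t) (e : ι ≃ (Fin t → Fin k)) (P : GL ι F) :
    Geo.IsMaximalIn (Geo.specialLinear ι F)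
      (Geo.tensorWreathSubgroup k t e P ⊓ Geo.specialLinear ι F) :=
  sl_wreath_maximal_of hk ht e P fun h3 hF X _ _ hL _ hH i g hg => by
    have : Nonempty (Fin k) := ⟨⟨0, by omega⟩⟩
    exact TS.same_or_comm_sl_of (by simpa using hk) (hL i) (hH i) (fun u ψ _ _ _ d => by
      rw [δ_eq_zero _ hF (by simpa using h3) hL (hH i), LinearMap.zero_apply]) hg

end Cfsg.Agent.H9.W3
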